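import Mathlib
import Cfsg.Agent.Lib.Helper18.TLDefs

set_option autoImplicit false

/-!
S3797 piece AUTY (architect helper18; delivered by helper39).
-/

namespace Cfsg.Agent.Lib.Helper18.TL

open Subgroup
open scoped commutatorElement

universe u

variable {G : Type u} [Group G]

-- piece AUTY
theorem exists_Y [Finite G] (hG : Group.IsSolvable G) (S : Sylow 2 G)
    (hf : ∀ x ∈ (S : Subgroup G), ∀ y ∈ (S : Subgroup G), x ≠ 1 → x ^ 2 = 1 → y ≠ 1 →
      y ^ 2 = 1 → ∃ n ∈ normalizer ((S : Subgroup G) : Set G), n * x * n⁻¹ = y) :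
    ∃ Y : Subgroup (MulAut ↥(S : Subgroup G)), Group.IsSolvable Y ∧
      ∀ x y : ↥(S : Subgroup G), x ≠ 1 → x ^ 2 = 1 → y ≠ 1 → y ^ 2 = 1 →
        ∃ a ∈ Y, a x = y := by
  refine ⟨(S : Subgroup G).normalizerMonoidHom.range, ?_, ?_⟩
  · exact Group.isSolvable_of_surjective (S : Subgroup G).normalizerMonoidHom.rangeRestrict_surjective
  · intro x y hx1 hx2 hy1 hy2
    have hx1' : (x : G) ≠ 1 := fun h => hx1 (Subtype.ext h)
    have hy1' : (y : G) ≠ 1 := fun h => hy1 (Subtype.ext h)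
    have hx2' : (x : G) ^ 2 = 1 := by
      have := congrArg Subtype.val hx2
      simpa using this
    have hy2' : (y : G) ^ 2 = 1 := by
      have := congrArg Subtype.val hy2
      simpa using this
    obtain ⟨n, hn, hnxy⟩ := hf (x : G) x.2 (y : G) y.2 hx1' hx2' hy1' hy2'
    refine ⟨(S : Subgroup G).normalizerMonoidHom ⟨n, hn⟩, ⟨⟨n, hn⟩, rfl⟩, ?_⟩
    apply Subtype.ext
    exact hnxy

end Cfsg.Agent.Lib.Helper18.TL
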