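import Mathlib
import Cfsg.Agent.Lib.Helper18.TLDefs
import Cfsg.Agent.Lib.Helper72.ZGNf

set_option autoImplicit false

/-!
S3797 piece CWT (architect helper18; delivered by helper39).
-/

namespace Cfsg.Agent.Lib.Helper18.TL

open Subgroup
open scoped commutatorElement

universe u

variable {G : Type u} [Group G]

-- piece CWT
theorem comm_WT [Finite G] {Z Y P W T : Subgroup G} (hC : Cfg Z Y) (h : MinAdm Z Y P W T) :
    ⁅W, T⁆ = W := by
  have hadm := h.1
  have hle : ⁅W, T⁆ ≤ W :=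
    Cfsg.Agent.Lib.Helper72.HH.commutator_le_left_of_normalizer hadm.TW
  haveI : Fact (Nat.Prime 2) := ⟨Nat.prime_two⟩
  have hnilT : Group.IsNilpotent ↥T := hadm.pT.isNilpotent
  have hsolvT : Group.IsSolvable ↥T := inferInstance
  have hcop : (Nat.card T).Coprime (Nat.card W) := by
    obtain ⟨n, hn⟩ := hadm.pT.exists_card_eq
    rw [hn]
    exact Nat.Coprime.pow_left n (Nat.coprime_two_left.mpr hadm.oddW)
  have hcc : ⁅⁅W, T⁆, T⁆ = ⁅W, T⁆ :=
    Cfsg.Agent.Lib.Helper72.ZG.commutator_commutator_eq hadm.TW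
      (Cfsg.Agent.Lib.Helper72.ZG.le_cent_mul_commutator hadm.TW hcop (Or.inl hsolvT))
  have hadm' : Adm Z Y P ⁅W, T⁆ T :=
    { pP := hadm.pP
      pT := hadm.pT
      oddW := Odd.of_dvd_nat hadm.oddW (Subgroup.card_dvd_of_le hle)
      YP := hadm.YP
      YW := fun y hy =>
        Cfsg.Agent.Lib.Helper72.HH.mem_normalizer_commutator (hadm.YW hy) (hadm.YT hy)
      YT := hadm.YT
      TP := hadm.TP
      TW := fun t ht =>
        Cfsg.Agent.Lib.Helper72.HH.mem_normalizer_commutator (hadm.TW ht) (le_normalizer ht)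
      WP := hle.trans hadm.WP
      ZT := hadm.ZT
      TZ := hadm.TZ
      WZ := hle.trans hadm.WZ
      nontriv := by rw [hcc]; exact hadm.nontriv }
  exact (h.2 P ⁅W, T⁆ T hadm' le_rfl hle le_rfl).2.1

end Cfsg.Agent.Lib.Helper18.TL
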