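import Mathlib
import Cfsg.Agent.Lib.Helper18.TLDefs

set_option autoImplicit false

/-!
S3797 piece EXMIN (architect helper18; delivered by helper39).
-/

namespace Cfsg.Agent.Lib.Helper18.TL

open Subgroup
open scoped commutatorElement

universe u

variable {G : Type u} [Group G]

-- piece EXMIN
theorem exists_min [Finite G] {Z Y P W T : Subgroup G} (h : Adm Z Y P W T) :
    ∃ P' W' T' : Subgroup G, MinAdm Z Y P' W' T' := by
  classical
  -- minimise `card P + card W + card T` over the admissible triples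
  have hex : ∃ n : ℕ, ∃ P' W' T' : Subgroup G, Adm Z Y P' W' T' ∧
      Nat.card P' + Nat.card W' + Nat.card T' = n := ⟨_, P, W, T, h, rfl⟩
  obtain ⟨P', W', T', hadm, hn⟩ := Nat.find_spec hex
  refine ⟨P', W', T', hadm, ?_⟩
  intro P'' W'' T'' hadm'' hP hW hT
  have hmin : Nat.find hex ≤ Nat.card P'' + Nat.card W'' + Nat.card T'' :=
    Nat.find_min' hex ⟨P'', W'', T'', hadm'', rfl⟩
  have hcP : Nat.card P'' ≤ Nat.card P' := Subgroup.card_le_of_le hP
  have hcW : Nat.card W'' ≤ Nat.card W' := Subgroup.card_le_of_le hW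
  have hcT : Nat.card T'' ≤ Nat.card T' := Subgroup.card_le_of_le hT
  refine ⟨?_, ?_, ?_⟩
  · exact Subgroup.eq_of_le_of_card_ge hP (by omega)
  · exact Subgroup.eq_of_le_of_card_ge hW (by omega)
  · exact Subgroup.eq_of_le_of_card_ge hT (by omega)

end Cfsg.Agent.Lib.Helper18.TL
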