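import Mathlib
import Cfsg.Agent.Lib.Helper18.TLDefs

set_option autoImplicit false

/-!
S3797 piece MIN3 (architect helper18; delivered by helper39).
-/

namespace Cfsg.Agent.Lib.Helper18.TL

open Subgroup
open scoped commutatorElement

universe u

variable {G : Type u} [Group G]

private theorem min3_comm_le_of_normalizer {A B : Subgroup G} (h : B ≤ normalizer (A : Set G)) :
    ⁅A, B⁆ ≤ A := by
  rw [Subgroup.commutator_le]
  intro a ha b hb
  have h1 : b * a⁻¹ * b⁻¹ ∈ A := by
    have h2 := (Subgroup.mem_normalizer_iff.mp (h hb) a⁻¹).mp (A.inv_mem ha)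
    exact h2
  have h3 : ⁅a, b⁆ = a * (b * a⁻¹ * b⁻¹) := by
    rw [commutatorElement_def]; group
  rw [h3]
  exact A.mul_mem ha h1

private theorem min3_le_centralizer_of_comm_eq_bot {A B : Subgroup G} (h : ⁅A, B⁆ = ⊥) :
    B ≤ centralizer (A : Set G) := by
  intro b hb
  rw [Subgroup.mem_centralizer_iff]
  intro a ha
  have h1 : ⁅a, b⁆ ∈ ⁅A, B⁆ := Subgroup.commutator_mem_commutator ha hb
  rw [h, Subgroup.mem_bot, commutatorElement_eq_one_iff_commute] at h1
  exact h1.eq

-- piece MIN3 (three theorems)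
theorem min_P {Z Y P W T : Subgroup G} (h : MinAdm Z Y P W T) (hWT : ⁅W, T⁆ = W) :
    ∀ P' : Subgroup G, P' ≤ P → P' ≠ P → W ≤ normalizer (P' : Set G) →
      T ≤ normalizer (P' : Set G) → Y ≤ normalizer (P' : Set G) →
      W ≤ centralizer (P' : Set G) := by
  intro P' hP' hne hW hT hY
  by_contra hcon
  have hadm : Adm Z Y P' W T :=
    { pP := h.1.pP.to_le hP'
      pT := h.1.pT
      oddW := h.1.oddW
      YP := hY
      YW := h.1.YW
      YT := h.1.YT
      TP := hT
      TW := h.1.TW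
      WP := hW
      ZT := h.1.ZT
      TZ := h.1.TZ
      WZ := h.1.WZ
      nontriv := by rw [hWT]; exact hcon }
  exact hne (h.2 P' W T hadm hP' le_rfl le_rfl).1

theorem max_W [Finite G] {Z Y P W T : Subgroup G} (h : MinAdm Z Y P W T)
    (hf : W ⊓ centralizer (P : Set G) = ⊥) :
    ∀ W' : Subgroup G, W' ≤ W → W' ≠ W → T ≤ normalizer (W' : Set G) →
      Y ≤ normalizer (W' : Set G) → W' ≤ centralizer (T : Set G) := by
  intro W' hW' hne hT hY
  have hc : ⁅W', T⁆ ≤ centralizer (P : Set G) := by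
    by_contra hcon
    have hadm : Adm Z Y P W' T :=
      { pP := h.1.pP
        pT := h.1.pT
        oddW := Odd.of_dvd_nat h.1.oddW (Subgroup.card_dvd_of_le hW')
        YP := h.1.YP
        YW := hY
        YT := h.1.YT
        TP := h.1.TP
        TW := hT
        WP := hW'.trans h.1.WP
        ZT := h.1.ZT
        TZ := h.1.TZ
        WZ := hW'.trans h.1.WZ
        nontriv := hcon }
    exact hne (h.2 P W' T hadm le_rfl hW' le_rfl).2.1
  have h1 : ⁅W', T⁆ ≤ W := (min3_comm_le_of_normalizer hT).trans hW'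
  have h2 : ⁅W', T⁆ = ⊥ := by
    rw [eq_bot_iff, ← hf]
    exact le_inf h1 hc
  have h3 : ⁅T, W'⁆ = ⊥ := by rw [Subgroup.commutator_comm]; exact h2
  exact min3_le_centralizer_of_comm_eq_bot h3

theorem max_T {Z Y P W T : Subgroup G} (h : MinAdm Z Y P W T)
    (hf : W ⊓ centralizer (P : Set G) = ⊥) :
    ∀ T' : Subgroup G, Z ≤ T' → T' ≤ T → T' ≠ T → Y ≤ normalizer (T' : Set G) →
      T' ≤ centralizer (W : Set G) := by
  intro T' hZ hT' hne hY
  have hc : ⁅W, T'⁆ ≤ centralizer (P : Set G) := by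
    by_contra hcon
    have hadm : Adm Z Y P W T' :=
      { pP := h.1.pP
        pT := h.1.pT.to_le hT'
        oddW := h.1.oddW
        YP := h.1.YP
        YW := h.1.YW
        YT := hY
        TP := hT'.trans h.1.TP
        TW := hT'.trans h.1.TW
        WP := h.1.WP
        ZT := hZ
        TZ := hT'.trans h.1.TZ
        WZ := h.1.WZ
        nontriv := hcon }
    exact hne (h.2 P W T' hadm le_rfl le_rfl hT').2.2
  have h1 : ⁅W, T'⁆ ≤ W := min3_comm_le_of_normalizer (hT'.trans h.1.TW)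
  have h2 : ⁅W, T'⁆ = ⊥ := by
    rw [eq_bot_iff, ← hf]
    exact le_inf h1 hc
  exact min3_le_centralizer_of_comm_eq_bot h2

end Cfsg.Agent.Lib.Helper18.TL
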