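import Mathlib

set_option autoImplicit false

/-!
# Bitmask models of quadratic spaces over `F₂` (definitions for S5405)
-/

namespace Cfsg.Agent.Lib.Helper39.H1

/-- A bitmask model of a quadratic space over `F₂`: `dec` decodes masks below `2 ^ d`, `qf` is the form on
masks. -/
structure Mdl {ι : Type} [Fintype ι] [DecidableEq ι] (Q : QuadraticForm (ZMod 2) (ι → ZMod 2)) (d : ℕ)
    (dec : ℕ → ι → ZMod 2) (qf : ℕ → Bool) : Prop where
  dec_xor : ∀ a b, dec (a ^^^ b) = dec a + dec b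
  surj : ∀ x, ∃ n, n < 2 ^ d ∧ dec n = x
  inj : ∀ a b, a < 2 ^ d → b < 2 ^ d → dec a = dec b → a = b
  hq : ∀ n, n < 2 ^ d → Q (dec n) = if qf n = true then 1 else 0

/-- Bit index of a coordinate, dimension 8. -/
def idx8 : Fin 4 ⊕ Fin 4 → ℕ
  | .inl i => i.val
  | .inr i => 4 + i.val

/-- Decoding of a mask, dimension 8. -/
def dec8 (n : ℕ) : Fin 4 ⊕ Fin 4 → ZMod 2 := fun p => if n.testBit (idx8 p) then 1 else 0

/-- The plus-type form on masks, dimension 8. -/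
def qf8 (n : ℕ) : Bool := Nat.testBit 27030 ((n &&& (n >>> 4)) &&& 15)

/-- Bit index of a coordinate, dimension 6. -/
def idx6 : (Fin 2 ⊕ Fin 2) ⊕ Fin 2 → ℕ
  | .inl (.inl i) => i.val
  | .inl (.inr i) => 2 + i.val
  | .inr i => 4 + i.val

/-- Decoding of a mask, dimension 6. -/
def dec6 (n : ℕ) : (Fin 2 ⊕ Fin 2) ⊕ Fin 2 → ZMod 2 := fun p => if n.testBit (idx6 p) then 1 else 0

/-- The minus-type form on masks, dimension 6. -/
def qf6 (n : ℕ) : Bool := Nat.testBit 6 ((n &&& (n >>> 2)) &&& 3) ^^ Nat.testBit 14 ((n >>> 4) &&& 3)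

/-- Bit index of a coordinate, dimension 4. -/
def idx4 : (Fin 1 ⊕ Fin 1) ⊕ Fin 2 → ℕ
  | .inl (.inl _) => 0
  | .inl (.inr _) => 1
  | .inr i => 2 + i.val

/-- Decoding of a mask, dimension 4. -/
def dec4 (n : ℕ) : (Fin 1 ⊕ Fin 1) ⊕ Fin 2 → ZMod 2 := fun p => if n.testBit (idx4 p) then 1 else 0

/-- The minus-type form on masks, dimension 4. -/
def qf4 (n : ℕ) : Bool := Nat.testBit 8 (n &&& 3) ^^ Nat.testBit 14 ((n >>> 2) &&& 3)

end Cfsg.Agent.Lib.Helper39.H1
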