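import Mathlib
import Cfsg.Prelude.Def_GeometricClasses
import Cfsg.Prelude.Def_LieClassical
import Cfsg.Agent.Lib.Helper71.Asch5
import Cfsg.Agent.Lib.Helper82.ASB8UNITS
import Cfsg.Agent.Lib.Helper44.BADDefs

/-! Project BAD (helper44; sub-project of helper49's SUG = S5663), piece ECOM (helper39):
the commutators of `E` are scalar. -/

set_option autoImplicit false

namespace Cfsg.Agent.Lib.Helper44.BAD

open Matrix Cfsg.Geo Cfsg.Agent.Lib.Helper71.Asch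
open scoped Kronecker

variable {n : ℕ} {F : Type*} [Field F] [Fintype F] {q : ℕ}

theorem ECOM_aux_smul_left (e : Fin n ≃ Fin 3 × Fin 3) (P : GL (Fin n) F) (c : F)
    (a b : Matrix (Fin 3) (Fin 3) F) : tmat e P (c • a) b = c • tmat e P a b := by
  unfold tmat
  rw [Matrix.smul_kronecker]
  simp [Matrix.reindex_apply, Matrix.submatrix_smul]

theorem ECOM_aux_smul_right (e : Fin n ≃ Fin 3 × Fin 3) (P : GL (Fin n) F) (c : F)
    (a b : Matrix (Fin 3) (Fin 3) F) : tmat e P a (c • b) = c • tmat e P a b := by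
  unfold tmat
  rw [Matrix.kronecker_smul]
  simp [Matrix.reindex_apply, Matrix.submatrix_smul]

/-- ECOM: the commutators of `E` are scalar. -/
theorem ECOM (e : Fin n ≃ Fin 3 × Fin 3) (P : GL (Fin n) F) (E : Subgroup (GL (Fin n) F))
    (hE : ∀ g ∈ E, ∃ a ∈ bS F, ∃ b ∈ bS F, g.1 = tmat e P a b) (hcom : SCOMp F) :
    ⁅E, E⁆ ≤ scalars (Fin n) F := by
  rw [Subgroup.commutator_le]
  intro g hg g' hg'
  obtain ⟨a, ha, b, hb, hgab⟩ := hE g hg
  obtain ⟨a', ha', b', hb', hgab'⟩ := hE g' hg'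
  obtain ⟨c, hc, hcc⟩ := hcom a ha a' ha'
  obtain ⟨c', hc', hcc'⟩ := hcom b hb b' hb'
  have hmul : g.1 * g'.1 = (c * c') • (g'.1 * g.1) := by
    rw [hgab, hgab', Cfsg.Agent.Lib.Helper82.ASB8UNITS.tmat_mul,
      Cfsg.Agent.Lib.Helper82.ASB8UNITS.tmat_mul, hcc, hcc', ECOM_aux_smul_left,
      ECOM_aux_smul_right, smul_smul]
  have hcc0 : c * c' ≠ 0 := mul_ne_zero hc hc'
  rw [mem_scalars_iff]
  refine ⟨Units.mk0 (c * c') hcc0, ?_⟩
  rw [commutatorElement_def]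
  have h1 : ((g * g' * g⁻¹ * g'⁻¹ : GL (Fin n) F) : Matrix (Fin n) (Fin n) F) =
      g.1 * g'.1 * (g⁻¹ : GL (Fin n) F).1 * (g'⁻¹ : GL (Fin n) F).1 := by
    simp [Units.val_mul]
  rw [h1, hmul]
  rw [Matrix.smul_mul, Matrix.smul_mul, Units.val_mk0]
  congr 1
  have h2 : g'.1 * g.1 * (g⁻¹ : GL (Fin n) F).1 * (g'⁻¹ : GL (Fin n) F).1 =
      ((g' * g * g⁻¹ * g'⁻¹ : GL (Fin n) F) : Matrix (Fin n) (Fin n) F) := by
    simp [Units.val_mul]
  rw [h2]
  simp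

end Cfsg.Agent.Lib.Helper44.BAD
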