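import Mathlib
import Cfsg.Agent.Lib.Helper5.BQ0
import Cfsg.Agent.Lib.Helper83.Ortho

/-!
# S0996 piece BQ-P4 (helper39, for helper5): `sumD_sq`.
-/

set_option autoImplicit false

namespace Cfsg.Agent.Lib.Helper5.BQ

open Cfsg
open Cfsg.Agent.Lib.Helper83 (trivIrr)
open Cfsg.Agent.Lib.Helper10.BR (psum DOut)
open scoped ComplexConjugate

section T

variable {G : Type*} [Group G] [Fintype G] {p e t n : ℕ} {P : Subgroup G} {ε : ℤ} {x₀ : ℕ}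
  {A B Y D : Finset (IrrCharacter G)}

/-- BQ-P4 -/
theorem sumD_sq (h : GTab G p e t n P ε x₀ A B Y D)
    (hns : 1 + A.card * (1 + n * p) ^ 2 + B.card * (p - 1) ^ 2 + t * x₀ ^ 2 + n * p ^ 2 =
      (1 + n * p) * (e * p)) :
    ∑ ψ ∈ D, ((ψ : G → ℂ) 1) ^ 2 = ((n * p ^ 2 : ℕ) : ℂ) := by
  classical
  letI : Fintype (IrrCharacter G) := Fintype.ofFinite _
  have hsum := Cfsg.Agent.Lib.Helper83.sum_degree_sq (G := G)
  rw [h.sum_split (fun ψ : IrrCharacter G => ((ψ : G → ℂ) 1) ^ 2)] at hsum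
  have hA : ∑ ψ ∈ A, ((ψ : G → ℂ) 1) ^ 2 = (A.card : ℂ) * ((1 + n * p : ℕ) : ℂ) ^ 2 := by
    rw [Finset.sum_congr rfl (fun ψ hψ => by rw [h.degA ψ hψ]), Finset.sum_const, nsmul_eq_mul]
  have hB : ∑ ψ ∈ B, ((ψ : G → ℂ) 1) ^ 2 = (B.card : ℂ) * ((p - 1 : ℕ) : ℂ) ^ 2 := by
    rw [Finset.sum_congr rfl (fun ψ hψ => by rw [h.degB ψ hψ]), Finset.sum_const, nsmul_eq_mul]
  have hY : ∑ ψ ∈ Y, ((ψ : G → ℂ) 1) ^ 2 = (t : ℂ) * (x₀ : ℂ) ^ 2 := by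
    rw [Finset.sum_congr rfl (fun ψ hψ => by rw [h.degY ψ hψ]), Finset.sum_const, nsmul_eq_mul,
      h.cardY]
  rw [hA, hB, hY, Cfsg.Agent.Lib.Helper83.trivIrr_apply, h.cardG] at hsum
  have hns' : (1 : ℂ) + (A.card : ℂ) * ((1 + n * p : ℕ) : ℂ) ^ 2 +
      (B.card : ℂ) * ((p - 1 : ℕ) : ℂ) ^ 2 + (t : ℂ) * (x₀ : ℂ) ^ 2 + ((n * p ^ 2 : ℕ) : ℂ) =
      (((1 + n * p) * (e * p) : ℕ) : ℂ) := by
    exact_mod_cast hns
  linear_combination hsum - hns'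

end T

end Cfsg.Agent.Lib.Helper5.BQ
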