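import Mathlib
import Cfsg.Agent.Lib.Helper5.BQ0
import Cfsg.Agent.Lib.Helper82.CharCore
import Cfsg.Agent.Lib.Helper83.IrrBasic
import Cfsg.Agent.Lib.Helper79.FSCount

/-!
# S0996 piece BQ-P7 (helper39, for helper5): `kD_eq`.
-/

set_option autoImplicit false

namespace Cfsg.Agent.Lib.Helper5.BQ

open Cfsg
open Cfsg.Agent.Lib.Helper83 (trivIrr)
open Cfsg.Agent.Lib.Helper10.BR (psum DOut)
open scoped ComplexConjugate

namespace BQP7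

variable {G : Type*} [Group G] [Fintype G]

theorem psum_triv (H : Subgroup G) :
    psum H (trivIrr G : G → ℂ) 1 = (Nat.card H : ℂ) := by
  classical
  rw [Cfsg.Agent.Lib.Helper10.BR.psum_eq_sum]
  simp [Cfsg.Agent.Lib.Helper83.trivIrr_apply, Nat.card_eq_fintype_card]

theorem psum_nat (H : Subgroup G) (ψ : IrrCharacter G) :
    ∃ m : ℕ, psum H (ψ : G → ℂ) 1 = (Nat.card H : ℂ) * (m : ℂ) := by
  classical
  obtain ⟨m, hm⟩ := Cfsg.Agent.Lib.Helper82.irr_sum_subgroup_eq H ψ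
  refine ⟨m, ?_⟩
  rw [← hm, Cfsg.Agent.Lib.Helper10.BR.psum_eq_sum]
  simp only [one_mul]
  rw [← Finset.sum_filter]
  exact (Finset.sum_subtype (Finset.univ.filter (· ∈ H)) (by simp)
    (fun t => (ψ : G → ℂ) t)).symm

end BQP7

section T

variable {G : Type*} [Group G] [Fintype G] {p e t n : ℕ} {P : Subgroup G} {ε : ℤ} {x₀ : ℕ}
  {A B Y D : Finset (IrrCharacter G)}

/-- BQ-P7 -/
theorem kD_eq (h : GTab G p e t n P ε x₀ A B Y D)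
    (hA : ∀ χ ∈ A, psum (Subgroup.normalizer (P : Set G)) (χ : G → ℂ) 1 = 0)
    (hB : ∀ χ ∈ B, psum (Subgroup.normalizer (P : Set G)) (χ : G → ℂ) 1 = 0)
    (hY : ∀ θ ∈ Y, psum (Subgroup.normalizer (P : Set G)) (θ : G → ℂ) 1 = 0)
    (hdeg : ∑ ψ ∈ D, psum (Subgroup.normalizer (P : Set G)) (ψ : G → ℂ) 1 * (ψ : G → ℂ) 1 =
      (((e * p) * (n * p) : ℕ) : ℂ))
    (hsq : ∑ ψ ∈ D, ((ψ : G → ℂ) 1) ^ 2 = ((n * p ^ 2 : ℕ) : ℂ))
    (hpairs : ∑ᶠ ψ : IrrCharacter G,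
        conj (psum (Subgroup.normalizer (P : Set G)) (ψ : G → ℂ) 1) *
          psum (Subgroup.normalizer (P : Set G)) (ψ : G → ℂ) 1 =
      (Nat.card {q : G × G // q.1 ∈ Subgroup.normalizer (P : Set G) ∧
        q.2⁻¹ * q.1 * q.2 ∈ Subgroup.normalizer (P : Set G)} : ℂ))
    (hub : Nat.card {q : G × G // q.1 ∈ Subgroup.normalizer (P : Set G) ∧
        q.2⁻¹ * q.1 * q.2 ∈ Subgroup.normalizer (P : Set G)} ≤ (1 + n) * (e * p) ^ 2) :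
    (∀ ψ ∈ D, (p : ℂ) * psum (Subgroup.normalizer (P : Set G)) (ψ : G → ℂ) 1 =
      ((e * p : ℕ) : ℂ) * (ψ : G → ℂ) 1) ∧
    (1 + n) * (e * p) ^ 2 ≤ Nat.card {q : G × G // q.1 ∈ Subgroup.normalizer (P : Set G) ∧
        q.2⁻¹ * q.1 * q.2 ∈ Subgroup.normalizer (P : Set G)} := by
  classical
  have hfin : Finite (IrrCharacter G) := Cfsg.Agent.Lib.Helper82.finite_irrCharacter G
  have hk : ∀ ψ : IrrCharacter G, ∃ m : ℕ,
      psum (Subgroup.normalizer (P : Set G)) (ψ : G → ℂ) 1 = ((e * p : ℕ) : ℂ) * (m : ℂ) := by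
    intro ψ
    obtain ⟨m, hm⟩ := BQP7.psum_nat (Subgroup.normalizer (P : Set G)) ψ
    exact ⟨m, by rw [hm, h.cardN]⟩
  choose k hk using hk
  have hd : ∀ ψ : IrrCharacter G, ∃ m : ℕ, (ψ : G → ℂ) 1 = (m : ℂ) := fun ψ =>
    ⟨_, Cfsg.Agent.Lib.Helper79.irr_one_eq_charDegree ψ⟩
  choose d hd using hd
  have hp0 : 0 < p := h.hp.pos
  have hep : 0 < e * p := Nat.mul_pos (by have := h.he; omega) hp0
  have h2 := h.finsum_split (fun ψ : IrrCharacter G =>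
    conj (psum (Subgroup.normalizer (P : Set G)) (ψ : G → ℂ) 1) *
      psum (Subgroup.normalizer (P : Set G)) (ψ : G → ℂ) 1)
  rw [h2] at hpairs
  have hAs : ∑ ψ ∈ A, conj (psum (Subgroup.normalizer (P : Set G)) (ψ : G → ℂ) 1) *
      psum (Subgroup.normalizer (P : Set G)) (ψ : G → ℂ) 1 = 0 :=
    Finset.sum_eq_zero (fun χ hχ => by rw [hA χ hχ, mul_zero])
  have hBs : ∑ ψ ∈ B, conj (psum (Subgroup.normalizer (P : Set G)) (ψ : G → ℂ) 1) *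
      psum (Subgroup.normalizer (P : Set G)) (ψ : G → ℂ) 1 = 0 :=
    Finset.sum_eq_zero (fun χ hχ => by rw [hB χ hχ, mul_zero])
  have hYs : ∑ ψ ∈ Y, conj (psum (Subgroup.normalizer (P : Set G)) (ψ : G → ℂ) 1) *
      psum (Subgroup.normalizer (P : Set G)) (ψ : G → ℂ) 1 = 0 :=
    Finset.sum_eq_zero (fun χ hχ => by rw [hY χ hχ, mul_zero])
  have hDs : ∑ ψ ∈ D, conj (psum (Subgroup.normalizer (P : Set G)) (ψ : G → ℂ) 1) *
      psum (Subgroup.normalizer (P : Set G)) (ψ : G → ℂ) 1 =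
      (((e * p) ^ 2 * ∑ ψ ∈ D, k ψ ^ 2 : ℕ) : ℂ) := by
    rw [Nat.cast_mul, Nat.cast_sum, Finset.mul_sum]
    refine Finset.sum_congr rfl (fun ψ _ => ?_)
    rw [hk ψ, map_mul, Complex.conj_natCast, Complex.conj_natCast]
    push_cast
    ring
  have htriv : psum (Subgroup.normalizer (P : Set G)) (trivIrr G : G → ℂ) 1 =
      ((e * p : ℕ) : ℂ) := by
    rw [BQP7.psum_triv, h.cardN]
  rw [hAs, hBs, hYs, hDs, htriv, Complex.conj_natCast] at hpairs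
  have hpairsN : (e * p) ^ 2 * (1 + ∑ ψ ∈ D, k ψ ^ 2) =
      Nat.card {q : G × G // q.1 ∈ Subgroup.normalizer (P : Set G) ∧
        q.2⁻¹ * q.1 * q.2 ∈ Subgroup.normalizer (P : Set G)} := by
    have h3 : (((e * p) ^ 2 * (1 + ∑ ψ ∈ D, k ψ ^ 2) : ℕ) : ℂ) =
        (Nat.card {q : G × G // q.1 ∈ Subgroup.normalizer (P : Set G) ∧
          q.2⁻¹ * q.1 * q.2 ∈ Subgroup.normalizer (P : Set G)} : ℂ) := by
      rw [← hpairs]
      push_cast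
      ring
    exact_mod_cast h3
  have hdegN : ∑ ψ ∈ D, k ψ * d ψ = n * p := by
    have h3 : (((e * p) * ∑ ψ ∈ D, k ψ * d ψ : ℕ) : ℂ) = (((e * p) * (n * p) : ℕ) : ℂ) := by
      rw [← hdeg, Nat.cast_mul, Nat.cast_sum, Finset.mul_sum]
      refine Finset.sum_congr rfl (fun ψ _ => ?_)
      rw [hk ψ, hd ψ]
      push_cast
      ring
    have h4 : (e * p) * ∑ ψ ∈ D, k ψ * d ψ = (e * p) * (n * p) := by exact_mod_cast h3
    exact Nat.eq_of_mul_eq_mul_left hep h4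
  have hsqN : ∑ ψ ∈ D, d ψ ^ 2 = n * p ^ 2 := by
    have h3 : ((∑ ψ ∈ D, d ψ ^ 2 : ℕ) : ℂ) = ((n * p ^ 2 : ℕ) : ℂ) := by
      rw [← hsq, Nat.cast_sum]
      refine Finset.sum_congr rfl (fun ψ _ => ?_)
      rw [hd ψ, Nat.cast_pow]
    exact_mod_cast h3
  have hkle : ∑ ψ ∈ D, k ψ ^ 2 ≤ n := by
    have h3 : (e * p) ^ 2 * (1 + ∑ ψ ∈ D, k ψ ^ 2) ≤ (e * p) ^ 2 * (1 + n) := by
      rw [hpairsN]
      calc _ ≤ (1 + n) * (e * p) ^ 2 := hub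
        _ = (e * p) ^ 2 * (1 + n) := by ring
    have h4 := Nat.le_of_mul_le_mul_left h3 (by positivity)
    omega
  have hz : ∑ ψ ∈ D, ((p : ℤ) * (k ψ : ℤ) - (d ψ : ℤ)) ^ 2 ≤ 0 := by
    have e1 : ∑ ψ ∈ D, ((p : ℤ) * (k ψ : ℤ) - (d ψ : ℤ)) ^ 2 =
        (p : ℤ) ^ 2 * ((∑ ψ ∈ D, k ψ ^ 2 : ℕ) : ℤ) -
          2 * (p : ℤ) * ((∑ ψ ∈ D, k ψ * d ψ : ℕ) : ℤ) + ((∑ ψ ∈ D, d ψ ^ 2 : ℕ) : ℤ) := by
      rw [Nat.cast_sum, Nat.cast_sum, Nat.cast_sum, Finset.mul_sum, Finset.mul_sum,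
        ← Finset.sum_sub_distrib, ← Finset.sum_add_distrib]
      refine Finset.sum_congr rfl (fun ψ _ => ?_)
      push_cast
      ring
    rw [e1, hdegN, hsqN]
    have h3 : ((∑ ψ ∈ D, k ψ ^ 2 : ℕ) : ℤ) ≤ (n : ℤ) := by exact_mod_cast hkle
    push_cast
    nlinarith [sq_nonneg (p : ℤ)]
  have hnn : ∀ ψ ∈ D, 0 ≤ ((p : ℤ) * (k ψ : ℤ) - (d ψ : ℤ)) ^ 2 := fun ψ _ => sq_nonneg _
  have hz0 : ∀ ψ ∈ D, ((p : ℤ) * (k ψ : ℤ) - (d ψ : ℤ)) ^ 2 = 0 :=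
    (Finset.sum_eq_zero_iff_of_nonneg hnn).1 (le_antisymm hz (Finset.sum_nonneg hnn))
  have hpk : ∀ ψ ∈ D, p * k ψ = d ψ := by
    intro ψ hψ
    have h5 : (p : ℤ) * (k ψ : ℤ) - (d ψ : ℤ) = 0 := by
      have := hz0 ψ hψ
      exact pow_eq_zero_iff (two_ne_zero) |>.1 this
    have h6 : ((p * k ψ : ℕ) : ℤ) = (d ψ : ℤ) := by
      push_cast
      linarith
    exact_mod_cast h6
  constructor
  · intro ψ hψ
    rw [hk ψ, hd ψ, ← hpk ψ hψ]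
    push_cast
    ring
  · have hkeq : ∑ ψ ∈ D, k ψ ^ 2 = n := by
      have h7 : p ^ 2 * ∑ ψ ∈ D, k ψ ^ 2 = p ^ 2 * n := by
        rw [Finset.mul_sum]
        calc ∑ ψ ∈ D, p ^ 2 * k ψ ^ 2 = ∑ ψ ∈ D, d ψ ^ 2 :=
              Finset.sum_congr rfl (fun ψ hψ => by rw [← hpk ψ hψ]; ring)
          _ = p ^ 2 * n := by rw [hsqN]; ring
      exact Nat.eq_of_mul_eq_mul_left (by positivity) h7
    rw [← hpairsN, hkeq]
    exact le_of_eq (by ring)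

end T

end Cfsg.Agent.Lib.Helper5.BQ
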