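import Cfsg.Agent.Lib.Helper38.CosetSound

/-!
Verified coset-enumeration certificates for generators that need not be involutions.

This extends the checker of `Cfsg.Agent.Lib.Helper38` (same packed certificate format `Cert`): the
first `2 * ni` letters come in pairs `(2k, 2k+1)` of mutually inverse letters, the remaining letters
are involutions.  Part 1: the checker and its soundness for an abstract action.
-/

namespace Cfsg.Agent.Lib.Helper39

open Cfsg.Agent.Lib.Helper38

/-- the inverse letter -/
noncomputable def invL (ni s : Nat) : Nat :=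
  sel (Nat.blt s (Nat.mul 2 ni)) (sel (Nat.beq (Nat.mod s 2) 0) (Nat.add s 1) (Nat.sub s 1)) s

theorem invL_eq (ni s : ℕ) :
    invL ni s = if s < 2 * ni then (if s % 2 = 0 then s + 1 else s - 1) else s := by
  unfold invL
  rw [sel_eq_ite, sel_eq_ite]
  by_cases h : s < 2 * ni
  · have hb : Nat.blt s (Nat.mul 2 ni) = true := blt_iff.mpr h
    rw [if_pos hb, if_pos h]
    by_cases h2 : s % 2 = 0
    · have hb2 : Nat.beq (Nat.mod s 2) 0 = true := beq_iff.mpr h2
      rw [if_pos hb2, if_pos h2]
    · have hb2 : ¬ Nat.beq (Nat.mod s 2) 0 = true := fun hh => h2 (beq_iff.mp hh)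
      rw [if_neg hb2, if_neg h2]
      rfl
  · have hb : ¬ Nat.blt s (Nat.mul 2 ni) = true := fun hh => h (blt_iff.mp hh)
    rw [if_neg hb, if_neg h]

theorem invL_invL (ni s : ℕ) : invL ni (invL ni s) = s := by
  rw [invL_eq, invL_eq]
  split_ifs <;> omega

theorem invL_lt {ni s g : ℕ} (hg : 2 * ni ≤ g) (hs : s < g) : invL ni s < g := by
  rw [invL_eq]
  split_ifs <;> omega

theorem invL_of_ge {ni s : ℕ} (hs : 2 * ni ≤ s) : invL ni s = s := by
  rw [invL_eq]
  split_ifs <;> omega

/-! ### Words acting on a type, with inverse letters -/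

section Words

variable {X : Type*} (act : ℕ → X → X) (iv : ℕ → ℕ)
variable (h1 : ∀ s P, act (iv s) (act s P) = P) (h2 : ∀ s P, act s (act (iv s) P) = P)

include h2 in
theorem specB_upRI (ℓ : ℕ → ℕ) (lo : ℕ) : ∀ (c : ℕ) (Q : X),
    specB act ℓ lo c (upR act (fun i => iv (ℓ i)) lo c Q) = Q
  | 0, _ => rfl
  | c + 1, Q => by
    show specB act ℓ lo c (act (ℓ (lo + c)) (act (iv (ℓ (lo + c)))
      (upR act (fun i => iv (ℓ i)) lo c Q))) = Q
    rw [h2, specB_upRI ℓ lo c Q]

include h1 in
theorem upRI_specB (ℓ : ℕ → ℕ) (lo : ℕ) : ∀ (c : ℕ) (Q : X),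
    upR act (fun i => iv (ℓ i)) lo c (specB act ℓ lo c Q) = Q
  | 0, Q => rfl
  | c + 1, Q => by
    show act (iv (ℓ (lo + c))) (upR act (fun i => iv (ℓ i)) lo c
      (specB act ℓ lo c (act (ℓ (lo + c)) Q))) = Q
    rw [upRI_specB ℓ lo c, h1]

include h1 h2 in
/-- a word that acts trivially on `P`, read with a gap at `t` -/
theorem scan_gapI (ℓ : ℕ → ℕ) (L t : ℕ) (P : X) (ht : t < L)
    (h : specB act ℓ 0 L P = P) :
    act (ℓ t) (specB act ℓ (t + 1) (L - (t + 1)) P) = specF act (fun i => iv (ℓ i)) t t P := by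
  have hP : upR act (fun i => iv (ℓ i)) 0 L P = P := by
    have := upRI_specB act iv h1 ℓ 0 L P
    rwa [h] at this
  have hsplit : upR act (fun i => iv (ℓ i)) 0 L P =
      upR act (fun i => iv (ℓ i)) (t + 1) (L - (t + 1))
        (act (iv (ℓ t)) (upR act (fun i => iv (ℓ i)) 0 t P)) := by
    have e : L = (t + 1) + (L - (t + 1)) := by omega
    conv_lhs => rw [e]
    rw [upR_add]
    show upR act _ (0 + (t + 1)) _ (act (iv (ℓ (0 + t))) _) = _
    rw [Nat.zero_add, Nat.zero_add]
  have hF : specF act (fun i => iv (ℓ i)) t t P = upR act (fun i => iv (ℓ i)) 0 t P := by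
    rw [specF_eq_upR act _ t t P le_rfl, Nat.sub_self]
  rw [hF]
  have h4 := specB_upRI act iv h2 ℓ (t + 1) (L - (t + 1))
    (act (iv (ℓ t)) (upR act (fun i => iv (ℓ i)) 0 t P))
  rw [← hsplit, hP] at h4
  rw [h4, h2]

include h1 h2 in
/-- a word that acts trivially on `P`, read without a gap -/
theorem scan_nogapI (ℓ : ℕ → ℕ) (L t : ℕ) (P : X) (ht : t ≤ L)
    (h : specB act ℓ 0 L P = P) :
    specF act (fun i => iv (ℓ i)) t t P = specB act ℓ t (L - t) P := by
  have hP : upR act (fun i => iv (ℓ i)) 0 L P = P := by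
    have := upRI_specB act iv h1 ℓ 0 L P
    rwa [h] at this
  have hsplit : upR act (fun i => iv (ℓ i)) 0 L P =
      upR act (fun i => iv (ℓ i)) t (L - t) (upR act (fun i => iv (ℓ i)) 0 t P) := by
    have e : L = t + (L - t) := by omega
    conv_lhs => rw [e]
    rw [upR_add, Nat.zero_add]
  have hF : specF act (fun i => iv (ℓ i)) t t P = upR act (fun i => iv (ℓ i)) 0 t P := by
    rw [specF_eq_upR act _ t t P le_rfl, Nat.sub_self]
  rw [hF]
  have h4 := specB_upRI act iv h2 ℓ t (L - t) (upR act (fun i => iv (ℓ i)) 0 t P)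
  rw [← hsplit, hP] at h4
  exact h4.symm

end Words

/-! ### The checker -/

open Cfsg.Agent.Lib.Helper38.Cert

variable (C : Cert) (ni : Nat)

/-- scan the inverses of the letters `t - cnt, …, t - 1` of word `wid` -/
noncomputable def fwdI (τ wid t : Nat) (cnt : Nat) : Nat → Nat :=
  Nat.rec (fun x => x)
    (fun c ih x => ih (C.step τ x (invL ni (C.letter wid (Nat.sub t (Nat.succ c)))))) cnt

/-- kind 1: `x` is a tree child of the target `y`, reached from `y` by the inverse letter -/
noncomputable def chkUpI (x s y : Nat) : Bool :=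
  band (Nat.blt 0 x) (band (Nat.beq (C.par (C.row x)) y)
    (band (Nat.beq (C.lab (C.row x)) (invL ni s)) (Nat.blt y x)))

/-- the gap letter `lt` leads from `b` to `f` -/
noncomputable def endsOKI (x y f b lt s : Nat) : Bool :=
  bor (band (Nat.beq x b) (band (Nat.beq y f) (Nat.beq lt s)))
    (band (Nat.beq x f) (band (Nat.beq y b) (Nat.beq lt (invL ni s))))

/-- kind 2: relator scan with one gap -/
noncomputable def chkScanI (x s y τ wid t u : Nat) : Bool :=
  band (Nat.blt y C.m) (band (Nat.blt t (C.wLen wid))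
    (band (bor (Nat.blt wid C.nsub) (band (Nat.beq u 0) (Nat.blt wid C.nw)))
      (endsOKI ni x y (C.chase τ C.fuel (fwdI C ni τ wid t t u))
        (C.chase τ C.fuel (C.bwd τ wid (Nat.succ t) (Nat.sub (C.wLen wid) (Nat.succ t)) u))
        (C.letter wid t) s)))

/-- check of the edge fact stored for `(x, s)` -/
noncomputable def chkEI (x s : Nat) : Bool :=
  sel (Nat.beq (C.eRinv (C.row x) s) 0) true
    (kindSel (C.eKind (C.row x) s) (C.chkDown x s (C.eTgt (C.row x) s))
      (chkUpI C ni x s (C.eTgt (C.row x) s))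
      (chkScanI C ni x s (C.eTgt (C.row x) s) (Nat.sub C.R (C.eRinv (C.row x) s))
        (C.eWid (C.row x) s) (C.eT (C.row x) s) (C.eU (C.row x) s)))

noncomputable def chkMScanI (v p τ wid t u : Nat) : Bool :=
  band (Nat.blt p v) (band (Nat.ble t (C.wLen wid))
    (band (bor (Nat.blt wid C.nsub) (band (Nat.beq u 0) (Nat.blt wid C.nw)))
      (endsOK v p (C.chase τ C.fuel (fwdI C ni τ wid t t u))
        (C.chase τ C.fuel (C.bwd τ wid t (Nat.sub (C.wLen wid) t) u)))))

/-- check of the merge fact stored for `v` -/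
noncomputable def chkMI (v : Nat) : Bool :=
  sel (Nat.beq (C.mRinv (C.row v)) 0) true
    (chkMScanI C ni v (C.mP (C.row v)) (Nat.sub C.R (C.mRinv (C.row v))) (C.mWid (C.row v))
      (C.mT (C.row v)) (C.mU (C.row v)))

/-- all facts of the raw vertex `v` are justified -/
noncomputable def chkVI (v : Nat) : Bool :=
  band (chkMI C ni v) (allB C.g (fun s => chkEI C ni v s))

/-- the words `[s, s⁻¹]` are stored at positions `nrel + s` -/
noncomputable def chkSqI : Bool :=
  band (Nat.beq (Nat.add C.nrel C.g) C.nsub) (band (Nat.ble (Nat.mul 2 ni) C.g)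
    (allB C.g (fun s => band (Nat.beq (C.wLen (Nat.add C.nrel s)) 2)
      (band (Nat.beq (C.letter (Nat.add C.nrel s) 0) s)
        (Nat.beq (C.letter (Nat.add C.nrel s) 1) (invL ni s))))))

/-- the letters act as mutually inverse maps on the final table -/
noncomputable def chkInvI (c : Nat) : Bool :=
  allB C.g (fun s => band (Nat.blt (C.tn c s) C.n) (Nat.beq (C.tn (C.tn c s) (invL ni s)) c))

/-- all checks attached to the coset `c` -/
noncomputable def chkNI (c : Nat) : Bool :=
  band (C.chkFin c) (band (chkInvI C ni c) (band (C.chkRelP c) (C.chkTree c)))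

/-- the global checks -/
noncomputable def chkGI : Bool :=
  band (chkSqI C ni) (band (Nat.beq (C.can 0) 0) (band (Nat.blt 0 C.n)
    (allFrom C.nsub (Nat.sub C.nw C.nsub) (fun wid => Nat.beq (C.pdn wid (C.wLen wid) 0) 0))))

theorem endsOKI_iff {x y f b lt s : Nat} :
    endsOKI ni x y f b lt s = true ↔
      (x = b ∧ y = f ∧ lt = s) ∨ (x = f ∧ y = b ∧ lt = invL ni s) := by
  unfold endsOKI
  simp only [bor_iff, band_iff, beq_iff]

variable {C ni} {X : Type*} {act : ℕ → X → X} {base : X}

theorem fwdI_succ (τ wid t c x : ℕ) : fwdI C ni τ wid t (c + 1) x =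
    fwdI C ni τ wid t c (C.step τ x (invL ni (C.letter wid (t - (c + 1))))) := rfl

theorem fwdI_sound {τ : ℕ} (hI : C.Inv act base τ) (wid t : ℕ) : ∀ (c x : ℕ) (P : X),
    C.Tr act base x P → C.Tr act base (fwdI C ni τ wid t c x)
      (specF act (fun i => invL ni (C.letter wid i)) t c P)
  | 0, x, P, h => h
  | c + 1, x, P, h => by
    rw [fwdI_succ]
    exact fwdI_sound hI wid t c _ _ (step_sound hI x _ P h)

/-- The hypotheses on the action. -/
structure ValidI (C : Cert) (ni : ℕ) (act : ℕ → X → X) (base : X) : Prop where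
  h1 : ∀ s P, act (invL ni s) (act s P) = P
  h2 : ∀ s P, act s (act (invL ni s) P) = P
  hrel : ∀ wid < C.nsub, ∀ P, specB act (C.letter wid) 0 (C.wLen wid) P = P
  hsub : ∀ wid, C.nsub ≤ wid → wid < C.nw →
    specB act (C.letter wid) 0 (C.wLen wid) base = base

theorem word_validI (hA : ValidI C ni act base) {wid u : ℕ}
    (h : bor (Nat.blt wid C.nsub) (band (Nat.beq u 0) (Nat.blt wid C.nw)) = true) :
    specB act (C.letter wid) 0 (C.wLen wid) (C.pt act base u) = C.pt act base u := by
  rw [bor_iff, band_iff, blt_iff, blt_iff, beq_iff] at h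
  rcases h with h | ⟨rfl, h⟩
  · exact hA.hrel wid h _
  · by_cases h' : wid < C.nsub
    · exact hA.hrel wid h' _
    · rw [pt_zero]; exact hA.hsub wid (by omega) h

theorem scan_soundI (hA : ValidI C ni act base) {τ : ℕ} (hI : C.Inv act base τ)
    {x s y wid t u : ℕ} (hx : x < C.m) (h : chkScanI C ni x s y τ wid t u = true) :
    act s (C.pt act base x) = C.pt act base y := by
  unfold chkScanI at h
  simp only [band_iff] at h
  obtain ⟨hy, ht, hw, hends⟩ := h
  rw [blt_iff] at hy ht
  have hval := word_validI hA hw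
  have hgap := scan_gapI act (invL ni) hA.h1 hA.h2 (C.letter wid) _ _ _ ht hval
  have hf : C.Tr act base (C.chase τ C.fuel (fwdI C ni τ wid t t u))
      (specF act (fun i => invL ni (C.letter wid i)) t t (C.pt act base u)) :=
    chase_sound hI _ _ _ (fwdI_sound hI wid t t u _ (fun _ => rfl))
  have hb : C.Tr act base (C.chase τ C.fuel (C.bwd τ wid (t + 1) (C.wLen wid - (t + 1)) u))
      (specB act (C.letter wid) (t + 1) (C.wLen wid - (t + 1)) (C.pt act base u)) :=
    chase_sound hI _ _ _ (bwd_sound hI wid (t + 1) _ u _ (fun _ => rfl))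
  rw [endsOKI_iff] at hends
  rcases hends with ⟨hxb0, hyf, hl⟩ | ⟨hxf, hyb0, hl⟩
  · have hxb : x = C.chase τ C.fuel (C.bwd τ wid (t + 1) (C.wLen wid - (t + 1)) u) := hxb0
    have hx' : C.pt act base x =
        specB act (C.letter wid) (t + 1) (C.wLen wid - (t + 1)) (C.pt act base u) := by
      rw [hxb]; exact hb (by rw [← hxb]; exact hx)
    have hy' : C.pt act base y =
        specF act (fun i => invL ni (C.letter wid i)) t t (C.pt act base u) := by
      rw [hyf]; exact hf (by rw [← hyf]; exact hy)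
    rw [hx', hy', ← hl]
    exact hgap
  · have hyb : y = C.chase τ C.fuel (C.bwd τ wid (t + 1) (C.wLen wid - (t + 1)) u) := hyb0
    have hx' : C.pt act base x =
        specF act (fun i => invL ni (C.letter wid i)) t t (C.pt act base u) := by
      rw [hxf]; exact hf (by rw [← hxf]; exact hx)
    have hy' : C.pt act base y =
        specB act (C.letter wid) (t + 1) (C.wLen wid - (t + 1)) (C.pt act base u) := by
      rw [hyb]; exact hb (by rw [← hyb]; exact hy)
    rw [hx', hy', ← hgap, hl, hA.h2]

theorem mscan_soundI (hA : ValidI C ni act base) {τ : ℕ} (hI : C.Inv act base τ)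
    {v p wid t u : ℕ} (hv : v < C.m) (h : chkMScanI C ni v p τ wid t u = true) :
    C.pt act base v = C.pt act base p := by
  unfold chkMScanI at h
  simp only [band_iff] at h
  obtain ⟨hpv, ht, hw, hends⟩ := h
  rw [blt_iff] at hpv
  rw [ble_iff] at ht
  have hp : p < C.m := lt_trans hpv hv
  have hval := word_validI hA hw
  have hng := scan_nogapI act (invL ni) hA.h1 hA.h2 (C.letter wid) _ _ _ ht hval
  have hf : C.Tr act base (C.chase τ C.fuel (fwdI C ni τ wid t t u))
      (specF act (fun i => invL ni (C.letter wid i)) t t (C.pt act base u)) :=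
    chase_sound hI _ _ _ (fwdI_sound hI wid t t u _ (fun _ => rfl))
  have hb : C.Tr act base (C.chase τ C.fuel (C.bwd τ wid t (C.wLen wid - t) u))
      (specB act (C.letter wid) t (C.wLen wid - t) (C.pt act base u)) :=
    chase_sound hI _ _ _ (bwd_sound hI wid t _ u _ (fun _ => rfl))
  rw [endsOK_iff] at hends
  rcases hends with ⟨hxb0, hyf⟩ | ⟨hxf, hyb0⟩
  · have hxb : v = C.chase τ C.fuel (C.bwd τ wid t (C.wLen wid - t) u) := hxb0
    have hx' : C.pt act base v =
        specB act (C.letter wid) t (C.wLen wid - t) (C.pt act base u) := by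
      rw [hxb]; exact hb (by rw [← hxb]; exact hv)
    have hy' : C.pt act base p =
        specF act (fun i => invL ni (C.letter wid i)) t t (C.pt act base u) := by
      rw [hyf]; exact hf (by rw [← hyf]; exact hp)
    rw [hx', hy', hng]
  · have hyb : p = C.chase τ C.fuel (C.bwd τ wid t (C.wLen wid - t) u) := hyb0
    have hx' : C.pt act base v =
        specF act (fun i => invL ni (C.letter wid i)) t t (C.pt act base u) := by
      rw [hxf]; exact hf (by rw [← hxf]; exact hv)
    have hy' : C.pt act base p =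
        specB act (C.letter wid) t (C.wLen wid - t) (C.pt act base u) := by
      rw [hyb]; exact hb (by rw [← hyb]; exact hp)
    rw [hx', hy', hng]

theorem inv_succI (hA : ValidI C ni act base) (hV : ∀ v < C.m, chkVI C ni v = true) {τ : ℕ}
    (hτ : τ < C.R) (hI : C.Inv act base τ) : C.Inv act base (τ + 1) := by
  constructor
  · intro x hx s hs hv
    rw [vis_iff] at hv
    rcases Nat.lt_succ_iff_lt_or_eq.mp hv with h | h
    · exact hI.edge x hx s hs (C.vis_iff.mpr h)
    · have hri : C.eRinv (C.row x) s ≠ 0 := by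
        intro h0; rw [h0] at h; omega
      have hchk := hV x hx
      unfold chkVI at hchk
      rw [band_iff, allB_iff] at hchk
      have hE := hchk.2 s hs
      unfold chkEI at hE
      have h' : Nat.sub C.R (C.eRinv (C.row x) s) = τ := h
      rw [sel_eq_ite, if_neg (by rw [beq_iff]; exact hri), kindSel_iff, h'] at hE
      rcases hE with ⟨-, hE⟩ | ⟨-, hE⟩ | ⟨-, hE⟩
      · -- tree edge downwards
        unfold chkDown at hE
        simp only [band_iff, blt_iff, beq_iff] at hE
        obtain ⟨h0, hm, hp, hl, hlt⟩ := hE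
        rw [C.pt_child act base h0 hm (by rw [hp]; exact hlt), hp, hl]
      · -- tree edge upwards
        unfold chkUpI at hE
        simp only [band_iff, blt_iff, beq_iff] at hE
        obtain ⟨h0, hp, hl, hlt⟩ := hE
        rw [C.pt_child act base h0 hx (by rw [hp]; exact hlt), hp, hl, hA.h2]
      · exact scan_soundI hA hI hx hE
  · intro v hv hvis
    rw [vis_iff] at hvis
    rcases Nat.lt_succ_iff_lt_or_eq.mp hvis with h | h
    · exact hI.merge v hv (C.vis_iff.mpr h)
    · have hri : C.mRinv (C.row v) ≠ 0 := by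
        intro h0; rw [h0] at h; omega
      have hchk := hV v hv
      unfold chkVI at hchk
      rw [band_iff] at hchk
      have hM := hchk.1
      unfold chkMI at hM
      have h' : Nat.sub C.R (C.mRinv (C.row v)) = τ := h
      rw [sel_eq_ite, if_neg (by rw [beq_iff]; exact hri), h'] at hM
      exact mscan_soundI hA hI hv hM

theorem inv_allI (hA : ValidI C ni act base) (hV : ∀ v < C.m, chkVI C ni v = true) :
    ∀ τ, τ ≤ C.R → C.Inv act base τ
  | 0, _ => ⟨fun _ _ _ _ hv => absurd (C.vis_iff.mp hv) (Nat.not_lt_zero _),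
      fun _ _ hv => absurd (C.vis_iff.mp hv) (Nat.not_lt_zero _)⟩
  | τ + 1, h => inv_succI hA hV (by omega) (inv_allI hA hV τ (by omega))

/-- soundness of the final table -/
theorem fin_soundI (hA : ValidI C ni act base) (hV : ∀ v < C.m, chkVI C ni v = true) {c : ℕ}
    (hF : C.chkFin c = true) (s : ℕ) (hs : s < C.g) :
    act s (C.pt act base (C.can c)) = C.pt act base (C.can (C.tn c s)) := by
  unfold chkFin at hF
  rw [allB_iff] at hF
  have h := hF s hs
  change band (Nat.blt (C.step C.R (C.can c) s) C.m)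
    (Nat.beq (C.step C.R (C.can c) s) (C.can (C.tn c s))) = true at h
  rw [band_iff, blt_iff, beq_iff] at h
  obtain ⟨h1, h2⟩ := h
  have hI := inv_allI hA hV C.R le_rfl
  have h3 := step_sound hI (C.can c) s (C.pt act base (C.can c)) (fun _ => rfl) h1
  rw [h2] at h3
  exact h3.symm

theorem chkSqI_spec (hSq : chkSqI C ni = true) : C.nrel + C.g = C.nsub ∧ 2 * ni ≤ C.g ∧
    ∀ s < C.g, C.wLen (C.nrel + s) = 2 ∧ C.letter (C.nrel + s) 0 = s ∧
      C.letter (C.nrel + s) 1 = invL ni s := by
  unfold chkSqI at hSq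
  rw [band_iff, band_iff, beq_iff, ble_iff, allB_iff] at hSq
  obtain ⟨h1, h2, h3⟩ := hSq
  refine ⟨h1, h2, fun s hs => ?_⟩
  have h4 := h3 s hs
  simp only [band_iff, beq_iff] at h4
  exact h4

/-- the hypotheses on the action, with the words `[s, s⁻¹]` taken care of -/
theorem validI_of (h1 : ∀ s P, act (invL ni s) (act s P) = P)
    (h2 : ∀ s P, act s (act (invL ni s) P) = P)
    (hrel : ∀ wid < C.nrel, ∀ P, specB act (C.letter wid) 0 (C.wLen wid) P = P)
    (hsub : ∀ wid, C.nsub ≤ wid → wid < C.nw →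
      specB act (C.letter wid) 0 (C.wLen wid) base = base)
    (hSq : chkSqI C ni = true) : ValidI C ni act base := by
  refine ⟨h1, h2, ?_, hsub⟩
  intro wid hwid P
  by_cases h : wid < C.nrel
  · exact hrel wid h P
  · obtain ⟨e1, -, e3⟩ := chkSqI_spec hSq
    obtain ⟨hL, hl0, hl1⟩ := e3 (wid - C.nrel) (by omega)
    have e : C.nrel + (wid - C.nrel) = wid := by omega
    rw [e] at hL hl0 hl1
    rw [hL]
    show act (C.letter wid (0 + 0)) (act (C.letter wid (0 + 1)) P) = P
    rw [Nat.zero_add, Nat.zero_add, hl0, hl1, h2]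

end Cfsg.Agent.Lib.Helper39
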