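import Cfsg.Agent.Lib.Helper39.CosetICore
import Cfsg.Agent.Lib.Helper38.CosetPres

/-!
Verified coset-enumeration certificates for generators that need not be involutions, part 2: the
permutation side, the index of the subgroup, and presented groups.
-/

namespace Cfsg.Agent.Lib.Helper39

open Cfsg.Agent.Lib.Helper38 Cfsg.Agent.Lib.Helper38.Cert

variable (C : Cert) (ni : ℕ)

/-! ### The permutations of the final table -/

/-- the columns `s` and `s⁻¹` of the final table are mutually inverse -/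
def goodL (s : ℕ) : Prop :=
  (∀ c < C.n, C.tn c s < C.n ∧ C.tn (C.tn c s) (invL ni s) = c) ∧
  (∀ c < C.n, C.tn c (invL ni s) < C.n ∧ C.tn (C.tn c (invL ni s)) s = c)

theorem goodL_inv {s : ℕ} (h : goodL C ni s) : goodL C ni (invL ni s) := by
  unfold goodL
  rw [invL_invL]
  exact ⟨h.2, h.1⟩

open Classical in
/-- the letter `s` as a permutation -/
noncomputable def σI (s : ℕ) : Equiv.Perm ℕ :=
  if h : goodL C ni s then
    { toFun := fun c => if c < C.n then C.tn c s else c
      invFun := fun c => if c < C.n then C.tn c (invL ni s) else c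
      left_inv := by
        intro c
        by_cases hc : c < C.n
        · simp only [if_pos hc, if_pos (h.1 c hc).1, (h.1 c hc).2]
        · simp only [if_neg hc]
      right_inv := by
        intro c
        by_cases hc : c < C.n
        · simp only [if_pos hc, if_pos (h.2 c hc).1, (h.2 c hc).2]
        · simp only [if_neg hc] }
  else 1

theorem σI_apply_of_good {s : ℕ} (h : goodL C ni s) (c : ℕ) :
    σI C ni s c = if c < C.n then C.tn c s else c := by
  unfold σI
  rw [dif_pos h]
  rfl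

theorem σI_of_ge (s : ℕ) {c : ℕ} (h : C.n ≤ c) : σI C ni s c = c := by
  by_cases hg : goodL C ni s
  · rw [σI_apply_of_good C ni hg, if_neg (by omega)]
  · unfold σI
    rw [dif_neg hg]
    rfl

theorem σI_inv_mul (s : ℕ) : σI C ni (invL ni s) * σI C ni s = 1 := by
  by_cases hg : goodL C ni s
  · ext c
    rw [Equiv.Perm.mul_apply, Equiv.Perm.one_apply, σI_apply_of_good C ni hg,
      σI_apply_of_good C ni (goodL_inv C ni hg)]
    by_cases hc : c < C.n
    · rw [if_pos hc, if_pos (hg.1 c hc).1, (hg.1 c hc).2]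
    · rw [if_neg hc, if_neg hc]
  · have hg' : ¬ goodL C ni (invL ni s) := by
      intro h
      have := goodL_inv C ni h
      rw [invL_invL] at this
      exact hg this
    unfold σI
    rw [dif_neg hg, dif_neg hg', one_mul]

variable {C ni}

theorem chkNI_iff {c : ℕ} : chkNI C ni c = true ↔
    C.chkFin c = true ∧ chkInvI C ni c = true ∧ C.chkRelP c = true ∧ C.chkTree c = true := by
  unfold chkNI; simp only [band_iff]

theorem chkInvI_spec (hInv : ∀ c < C.n, chkInvI C ni c = true) {s c : ℕ} (hs : s < C.g)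
    (hc : c < C.n) : C.tn c s < C.n ∧ C.tn (C.tn c s) (invL ni s) = c := by
  have h := hInv c hc
  unfold chkInvI at h
  rw [allB_iff] at h
  have h2 := h s hs
  rw [band_iff, blt_iff, beq_iff] at h2
  exact h2

theorem goodL_of (hInv : ∀ c < C.n, chkInvI C ni c = true) (hg : 2 * ni ≤ C.g) {s : ℕ}
    (hs : s < C.g) : goodL C ni s := by
  refine ⟨fun c hc => chkInvI_spec hInv hs hc, fun c hc => ?_⟩
  have h := chkInvI_spec hInv (invL_lt hg hs) hc
  rw [invL_invL] at h
  exact h

theorem σI_of_lt (hInv : ∀ c < C.n, chkInvI C ni c = true) (hg : 2 * ni ≤ C.g) {s c : ℕ}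
    (hs : s < C.g) (hc : c < C.n) : σI C ni s c = C.tn c s ∧ C.tn c s < C.n := by
  rw [σI_apply_of_good C ni (goodL_of hInv hg hs), if_pos hc]
  exact ⟨rfl, (chkInvI_spec hInv hs hc).1⟩

theorem σI_prod_ge (l : List ℕ) {c : ℕ} (h : C.n ≤ c) : ((l.map (σI C ni)).prod) c = c := by
  induction l with
  | nil => rfl
  | cons a l ih =>
    rw [List.map_cons, List.prod_cons, Equiv.Perm.mul_apply, ih, σI_of_ge C ni a h]

/-- the relators hold for the permutations of the final table -/
theorem σI_rel (hN : ∀ c < C.n, chkNI C ni c = true) (hg : 2 * ni ≤ C.g) :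
    ∀ wid < C.nrel, ((C.wordL wid).map (σI C ni)).prod = 1 := by
  intro wid hwid
  have hInv : ∀ c < C.n, chkInvI C ni c = true := fun c hc => (chkNI_iff.mp (hN c hc)).2.1
  ext c
  rw [Equiv.Perm.one_apply]
  by_cases hc : c < C.n
  · have h := (chkNI_iff.mp (hN c hc)).2.2.1
    unfold chkRelP at h
    rw [allB_iff] at h
    have h2 := h wid hwid
    rw [beq_iff] at h2
    have h3 := C.pdn_word (σI C ni) (fun s hs c hc => (σI_of_lt hInv hg hs hc).1) (wid := wid)
      (c := c) (by rw [h2]; exact hc)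
    rw [← h3, h2]
  · exact σI_prod_ge _ (by omega)

theorem chkGI_spec (h : chkGI C ni = true) : chkSqI C ni = true ∧ C.can 0 = 0 ∧ 0 < C.n ∧
    ∀ wid, C.nsub ≤ wid → wid < C.nw → C.pdn wid (C.wLen wid) 0 = 0 := by
  unfold chkGI at h
  rw [band_iff, band_iff, band_iff, beq_iff, blt_iff, allFrom_iff] at h
  obtain ⟨h1, h2, h3, h4⟩ := h
  refine ⟨h1, h2, h3, fun wid ha hb => ?_⟩
  have h5 := h4 wid ha (by show wid < C.nsub + (C.nw - C.nsub); omega)
  exact beq_iff.mp h5

/-! ### The group side -/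

section Group

variable {G : Type*} [Group G] {γ : ℕ → G} {H : Subgroup G}

/-- The group-theoretic hypotheses: `G` is generated by the `γ s`, which satisfy the relators and
map to the permutations of the final table; `H` is generated by the subgroup words. -/
structure PresI (C : Cert) (ni : ℕ) {G : Type*} [Group G] (γ : ℕ → G) (H : Subgroup G) : Prop where
  hγ : ∀ s, γ (invL ni s) * γ s = 1
  hgen : Subgroup.closure (γ '' {s | s < C.g}) = ⊤
  hrel : ∀ wid < C.nrel, ((C.wordL wid).map γ).prod = 1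
  hH : H = Subgroup.closure
    {x | ∃ wid, C.nsub ≤ wid ∧ wid < C.nw ∧ ((C.wordL wid).map γ).prod = x}
  hφ : ∃ φ : G →* Equiv.Perm ℕ, ∀ s < C.g, φ (γ s) = σI C ni s

/-- The computational hypotheses. -/
structure ChecksI (C : Cert) (ni : ℕ) : Prop where
  hV : ∀ v < C.m, chkVI C ni v = true
  hN : ∀ c < C.n, chkNI C ni c = true
  hG : chkGI C ni = true

theorem PresI.hγ' (hP : PresI C ni γ H) (s : ℕ) : γ s * γ (invL ni s) = 1 := by
  have h := hP.hγ (invL ni s)
  rwa [invL_invL] at h

theorem hword_memI (hP : PresI C ni γ H) {wid : ℕ} (h1 : C.nsub ≤ wid) (h2 : wid < C.nw) :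
    ((C.wordL wid).map γ).prod ∈ H := by
  rw [hP.hH]; exact Subgroup.subset_closure ⟨wid, h1, h2, rfl⟩

theorem validI (hP : PresI C ni γ H) (hC : ChecksI C ni) :
    ValidI C ni (fun s (q : G ⧸ H) => γ s • q) ((1 : G) : G ⧸ H) := by
  apply validI_of
  · intro s P; rw [smul_smul, hP.hγ, one_smul]
  · intro s P; rw [smul_smul, hP.hγ', one_smul]
  · intro wid hwid P
    rw [specB_smul, ← C.wordL_map γ wid, hP.hrel wid hwid, one_smul]
  · intro wid h1 h2
    rw [specB_smul, ← C.wordL_map γ wid]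
    have hm := hword_memI hP h1 h2
    rw [MulAction.Quotient.smul_mk, smul_eq_mul, mul_one]
    exact QuotientGroup.eq.mpr (by simpa using hm)
  · exact (chkGI_spec hC.hG).1

theorem hInvI_of (hC : ChecksI C ni) : ∀ c < C.n, chkInvI C ni c = true :=
  fun c hc => (chkNI_iff.mp (hC.hN c hc)).2.1

theorem hg_of (hC : ChecksI C ni) : 2 * ni ≤ C.g :=
  (chkSqI_spec (chkGI_spec hC.hG).1).2.1

theorem F_stepI (hP : PresI C ni γ H) (hC : ChecksI C ni) {c s : ℕ} (hc : c < C.n) (hs : s < C.g) :
    γ s • C.F γ H c = C.F γ H (C.tn c s) :=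
  fin_soundI (validI hP hC) hC.hV (chkNI_iff.mp (hC.hN c hc)).1 s hs

theorem F_zeroI (hC : ChecksI C ni) : C.F γ H 0 = ((1 : G) : G ⧸ H) := by
  unfold Cert.F
  rw [(chkGI_spec hC.hG).2.1, pt_zero]

theorem F_surjI (hP : PresI C ni γ H) (hC : ChecksI C ni) :
    ∀ q : G ⧸ H, ∃ c < C.n, C.F γ H c = q := by
  have hInv := hInvI_of hC
  have hg := hg_of hC
  have key : ∀ g : G, (∀ c < C.n, ∃ c' < C.n, C.F γ H c' = g • C.F γ H c) ∧
      (∀ c < C.n, ∃ c' < C.n, C.F γ H c' = g⁻¹ • C.F γ H c) := by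
    intro g
    have hgm : g ∈ Subgroup.closure (γ '' {s | s < C.g}) := by rw [hP.hgen]; trivial
    induction hgm using Subgroup.closure_induction with
    | mem x hx =>
      obtain ⟨s, hs, rfl⟩ := hx
      have hinv : (γ s)⁻¹ = γ (invL ni s) := inv_eq_of_mul_eq_one_left (hP.hγ s)
      have hs' : invL ni s < C.g := invL_lt hg hs
      have h1 : ∀ t < C.g, ∀ c < C.n, ∃ c' < C.n, C.F γ H c' = γ t • C.F γ H c := fun t ht c hc =>
        ⟨C.tn c t, (chkInvI_spec hInv ht hc).1, (F_stepI hP hC hc ht).symm⟩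
      exact ⟨h1 s hs, by rw [hinv]; exact h1 _ hs'⟩
    | one =>
      exact ⟨fun c hc => ⟨c, hc, by rw [one_smul]⟩, fun c hc => ⟨c, hc, by rw [inv_one, one_smul]⟩⟩
    | mul x y _ _ hx hy =>
      constructor
      · intro c hc
        obtain ⟨c1, hc1, e1⟩ := hy.1 c hc
        obtain ⟨c2, hc2, e2⟩ := hx.1 c1 hc1
        exact ⟨c2, hc2, by rw [e2, e1, mul_smul]⟩
      · intro c hc
        obtain ⟨c1, hc1, e1⟩ := hx.2 c hc
        obtain ⟨c2, hc2, e2⟩ := hy.2 c1 hc1
        exact ⟨c2, hc2, by rw [e2, e1, mul_inv_rev, mul_smul]⟩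
    | inv x _ hx => exact ⟨hx.2, by rw [inv_inv]; exact hx.1⟩
  intro q
  refine QuotientGroup.induction_on q (fun g => ?_)
  obtain ⟨c, hc, e⟩ := (key g).1 0 (chkGI_spec hC.hG).2.2.1
  refine ⟨c, hc, ?_⟩
  rw [e, F_zeroI hC, MulAction.Quotient.smul_mk, smul_eq_mul, mul_one]

theorem phi_wordI (hC : ChecksI C ni) (φ : G →* Equiv.Perm ℕ)
    (hφ : ∀ s < C.g, φ (γ s) = σI C ni s) {wid c : ℕ} (h : C.pdn wid (C.wLen wid) c < C.n) :
    φ (((C.wordL wid).map γ).prod) c = C.pdn wid (C.wLen wid) c := by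
  have hInv := hInvI_of hC
  have hg := hg_of hC
  have h4 := C.pdn_word (fun s => φ (γ s))
    (fun s hs c hc => by show φ (γ s) c = _; rw [hφ s hs]; exact (σI_of_lt hInv hg hs hc).1)
    (wid := wid) (c := c) h
  rw [map_list_prod, List.map_map, h4]
  rfl

theorem phi_fixI (hP : PresI C ni γ H) (hC : ChecksI C ni) (φ : G →* Equiv.Perm ℕ)
    (hφ : ∀ s < C.g, φ (γ s) = σI C ni s) : ∀ h ∈ H, φ h 0 = 0 := by
  have hG := chkGI_spec hC.hG
  intro h hh
  rw [hP.hH] at hh
  induction hh using Subgroup.closure_induction with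
  | mem x hx =>
    obtain ⟨wid, h1, h2, rfl⟩ := hx
    have h3 := hG.2.2.2 wid h1 h2
    rw [phi_wordI hC φ hφ (by rw [h3]; exact hG.2.2.1), h3]
  | one => simp
  | mul x y _ _ hx hy => rw [map_mul, Equiv.Perm.mul_apply, hy, hx]
  | inv x _ hx => rw [map_inv, Equiv.Perm.inv_eq_iff_eq, hx]

theorem psi_FI (hP : PresI C ni γ H) (hC : ChecksI C ni) (φ : G →* Equiv.Perm ℕ)
    (hφ : ∀ s < C.g, φ (γ s) = σI C ni s) (hH0 : ∀ h ∈ H, φ h 0 = 0) :
    ∀ c < C.n, psi φ hH0 (C.F γ H c) = c := by
  have hInv := hInvI_of hC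
  have hg := hg_of hC
  intro c
  induction c using Nat.strong_induction_on with
  | _ c ih =>
    intro hc
    have hT := (chkNI_iff.mp (hC.hN c hc)).2.2.2
    unfold chkTree at hT
    rw [bor_iff, beq_iff, band_iff, band_iff, blt_iff, blt_iff, beq_iff] at hT
    rcases hT with rfl | ⟨h1, h2, h3⟩
    · rw [F_zeroI hC, psi_mk, map_one, Equiv.Perm.one_apply]
    · have hp : C.parN c < C.n := lt_trans h1 hc
      have e : C.F γ H c = γ (C.labN c) • C.F γ H (C.parN c) := by
        rw [F_stepI hP hC hp h2, h3]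
      rw [e, psi_smul, ih _ h1 hp, hφ _ h2, (σI_of_lt hInv hg h2 hp).1, h3]

/-- **The index of the subgroup.** -/
theorem index_eqI (hP : PresI C ni γ H) (hC : ChecksI C ni) : H.index = C.n := by
  obtain ⟨φ, hφ⟩ := hP.hφ
  have hH0 := phi_fixI hP hC φ hφ
  have hbij : Function.Bijective (fun c : Fin C.n => C.F γ H c) := by
    constructor
    · intro a b hab
      have h := congrArg (psi φ hH0) hab
      simp only at h
      rw [psi_FI hP hC φ hφ hH0 a a.2, psi_FI hP hC φ hφ hH0 b b.2] at h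
      exact Fin.ext h
    · intro q
      obtain ⟨c, hc, e⟩ := F_surjI hP hC q
      exact ⟨⟨c, hc⟩, e⟩
  have h := Nat.card_eq_of_bijective _ hbij
  rw [Nat.card_fin] at h
  exact h.symm

end Group

/-! ### Presented groups -/

theorem toGroup_mk {α : Type*} {K : Type*} [Group K] {rels : Set (FreeGroup α)} {f : α → K}
    (h : ∀ r ∈ rels, FreeGroup.lift f r = 1) (w : FreeGroup α) :
    PresentedGroup.toGroup h (PresentedGroup.mk rels w) = FreeGroup.lift f w := rfl

/-- the hypotheses `PresI` for a subgroup of a presented group; the letter `s` stands for the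
word `gam s` (a generator or the inverse of a generator) -/
theorem presI_of (C : Cert) (ni : ℕ) {α : Type} (rels : Set (FreeGroup α))
    (gam : ℕ → FreeGroup α) (idx : α → ℕ)
    (hgi : ∀ x, gam (idx x) = FreeGroup.of x) (hidx : ∀ x, idx x < C.g)
    (words : List (List ℕ)) (hwords : (List.range C.nrel).map C.wordL = words)
    (hinv : ∀ s, (PresentedGroup.mk rels (gam (invL ni s)) : PresentedGroup rels) *
      PresentedGroup.mk rels (gam s) = 1)
    (hwordsG : ∀ w ∈ words,
      (w.map (fun s => (PresentedGroup.mk rels (gam s) : PresentedGroup rels))).prod = 1)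
    (hlift : ∀ σ : ℕ → Equiv.Perm ℕ, (∀ s, σ (invL ni s) * σ s = 1) →
      (∀ w ∈ words, (w.map σ).prod = 1) →
      (∀ r ∈ rels, FreeGroup.lift (fun x => σ (idx x)) r = 1) ∧
        ∀ s < C.g, FreeGroup.lift (fun x => σ (idx x)) (gam s) = σ s)
    (S : Set (FreeGroup α))
    (hS : PresentedGroup.mk rels '' S = {x | ∃ wid, C.nsub ≤ wid ∧ wid < C.nw ∧
      ((C.wordL wid).map (fun s => (PresentedGroup.mk rels (gam s) : PresentedGroup rels))).prod = x})
    (hN : ∀ c < C.n, chkNI C ni c = true) (hg : 2 * ni ≤ C.g) :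
    PresI C ni (fun s => (PresentedGroup.mk rels (gam s) : PresentedGroup rels))
      ((Subgroup.closure S).map (PresentedGroup.mk rels)) where
  hγ := hinv
  hgen := by
    rw [eq_top_iff, ← PresentedGroup.closure_range_of rels]
    apply Subgroup.closure_mono
    rintro _ ⟨x, rfl⟩
    exact ⟨idx x, hidx x, by show PresentedGroup.mk rels (gam (idx x)) = _; rw [hgi]; rfl⟩
  hrel := fun wid hwid => hwordsG _ (by
    rw [← hwords]; exact List.mem_map.mpr ⟨wid, List.mem_range.mpr hwid, rfl⟩)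
  hH := by rw [MonoidHom.map_closure, hS]
  hφ := by
    have hl := hlift (σI C ni) (σI_inv_mul C ni) (fun w hw => by
      rw [← hwords] at hw
      obtain ⟨wid, hwid, rfl⟩ := List.mem_map.mp hw
      exact σI_rel hN hg wid (List.mem_range.mp hwid))
    exact ⟨PresentedGroup.toGroup hl.1, fun s hs => by rw [toGroup_mk, hl.2 s hs]⟩

end Cfsg.Agent.Lib.Helper39
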