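import Cfsg.Agent.Lib.Helper39.Fi22OData

set_option maxRecDepth 100000
set_option maxHeartbeats 0

namespace Cfsg.Agent.Lib.Helper39.Fi22O
open Cfsg.Agent.Lib.Helper38

theorem chkV_32 : allFrom 16000 500 cert.chkV = true := by decide +kernel
theorem chkV_33 : allFrom 16500 500 cert.chkV = true := by decide +kernel
theorem chkV_34 : allFrom 17000 500 cert.chkV = true := by decide +kernel
theorem chkV_35 : allFrom 17500 500 cert.chkV = true := by decide +kernel
theorem chkV_36 : allFrom 18000 500 cert.chkV = true := by decide +kernel
theorem chkV_37 : allFrom 18500 500 cert.chkV = true := by decide +kernel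
theorem chkV_38 : allFrom 19000 500 cert.chkV = true := by decide +kernel
theorem chkV_39 : allFrom 19500 268 cert.chkV = true := by decide +kernel

theorem chkV_f4 : allFrom 16000 3768 cert.chkV = true :=
  (allFrom_join (lo := 16000) (a := 3500) (b := 268) (allFrom_join (lo := 16000) (a := 3000) (b := 500) (allFrom_join (lo := 16000) (a := 2500) (b := 500) (allFrom_join (lo := 16000) (a := 2000) (b := 500) (allFrom_join (lo := 16000) (a := 1500) (b := 500) (allFrom_join (lo := 16000) (a := 1000) (b := 500) (allFrom_join (lo := 16000) (a := 500) (b := 500) chkV_32 chkV_33) chkV_34) chkV_35) chkV_36) chkV_37) chkV_38) chkV_39)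

end Cfsg.Agent.Lib.Helper39.Fi22O
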