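import Cfsg.Agent.Lib.Helper39.Fi23FN0
import Cfsg.Agent.Lib.Helper39.Fi23FN1
import Cfsg.Agent.Lib.Helper39.Fi23FN2
import Cfsg.Agent.Lib.Helper39.Fi23FN3
import Cfsg.Agent.Lib.Helper39.Fi23FN4
import Cfsg.Agent.Lib.Helper39.Fi23FN5
import Cfsg.Agent.Lib.Helper39.Fi23FN6
import Cfsg.Agent.Lib.Helper39.Fi23FN7

set_option maxRecDepth 100000
set_option maxHeartbeats 0

namespace Cfsg.Agent.Lib.Helper39.Fi23F
open Cfsg.Agent.Lib.Helper38

theorem chkN_all : ∀ v < 31671, cert.chkN v = true := by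
  have h : allFrom 0 31671 cert.chkN = true :=
    (allFrom_join (lo := 0) (a := 28000) (b := 3671) (allFrom_join (lo := 0) (a := 24000) (b := 4000) (allFrom_join (lo := 0) (a := 20000) (b := 4000) (allFrom_join (lo := 0) (a := 16000) (b := 4000) (allFrom_join (lo := 0) (a := 12000) (b := 4000) (allFrom_join (lo := 0) (a := 8000) (b := 4000) (allFrom_join (lo := 0) (a := 4000) (b := 4000) chkN_f0 chkN_f1) chkN_f2) chkN_f3) chkN_f4) chkN_f5) chkN_f6) chkN_f7)
  intro v hv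
  exact allFrom_iff.mp h v (Nat.zero_le _) (by omega)

end Cfsg.Agent.Lib.Helper39.Fi23F
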