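import Cfsg.Agent.Lib.Helper39.Fi23FData

set_option maxRecDepth 100000
set_option maxHeartbeats 0

namespace Cfsg.Agent.Lib.Helper39.Fi23F
open Cfsg.Agent.Lib.Helper38

theorem chkO_16 : allFrom 16000 1000 cert.chkO = true := by decide +kernel
theorem chkO_17 : allFrom 17000 1000 cert.chkO = true := by decide +kernel
theorem chkO_18 : allFrom 18000 1000 cert.chkO = true := by decide +kernel
theorem chkO_19 : allFrom 19000 1000 cert.chkO = true := by decide +kernel
theorem chkO_20 : allFrom 20000 1000 cert.chkO = true := by decide +kernel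
theorem chkO_21 : allFrom 21000 1000 cert.chkO = true := by decide +kernel
theorem chkO_22 : allFrom 22000 1000 cert.chkO = true := by decide +kernel
theorem chkO_23 : allFrom 23000 1000 cert.chkO = true := by decide +kernel

theorem chkO_f2 : allFrom 16000 8000 cert.chkO = true :=
  (allFrom_join (lo := 16000) (a := 7000) (b := 1000) (allFrom_join (lo := 16000) (a := 6000) (b := 1000) (allFrom_join (lo := 16000) (a := 5000) (b := 1000) (allFrom_join (lo := 16000) (a := 4000) (b := 1000) (allFrom_join (lo := 16000) (a := 3000) (b := 1000) (allFrom_join (lo := 16000) (a := 2000) (b := 1000) (allFrom_join (lo := 16000) (a := 1000) (b := 1000) chkO_16 chkO_17) chkO_18) chkO_19) chkO_20) chkO_21) chkO_22) chkO_23)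

end Cfsg.Agent.Lib.Helper39.Fi23F
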