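import Cfsg.Agent.Lib.Helper39.Fi23FData

set_option maxRecDepth 100000
set_option maxHeartbeats 0

namespace Cfsg.Agent.Lib.Helper39.Fi23F
open Cfsg.Agent.Lib.Helper38

theorem chkO_24 : allFrom 24000 1000 cert.chkO = true := by decide +kernel
theorem chkO_25 : allFrom 25000 1000 cert.chkO = true := by decide +kernel
theorem chkO_26 : allFrom 26000 1000 cert.chkO = true := by decide +kernel
theorem chkO_27 : allFrom 27000 1000 cert.chkO = true := by decide +kernel
theorem chkO_28 : allFrom 28000 1000 cert.chkO = true := by decide +kernel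
theorem chkO_29 : allFrom 29000 1000 cert.chkO = true := by decide +kernel
theorem chkO_30 : allFrom 30000 1000 cert.chkO = true := by decide +kernel
theorem chkO_31 : allFrom 31000 671 cert.chkO = true := by decide +kernel

theorem chkO_f3 : allFrom 24000 7671 cert.chkO = true :=
  (allFrom_join (lo := 24000) (a := 7000) (b := 671) (allFrom_join (lo := 24000) (a := 6000) (b := 1000) (allFrom_join (lo := 24000) (a := 5000) (b := 1000) (allFrom_join (lo := 24000) (a := 4000) (b := 1000) (allFrom_join (lo := 24000) (a := 3000) (b := 1000) (allFrom_join (lo := 24000) (a := 2000) (b := 1000) (allFrom_join (lo := 24000) (a := 1000) (b := 1000) chkO_24 chkO_25) chkO_26) chkO_27) chkO_28) chkO_29) chkO_30) chkO_31)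

end Cfsg.Agent.Lib.Helper39.Fi23F
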