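import Cfsg.Agent.Lib.Helper39.Fi23FO0
import Cfsg.Agent.Lib.Helper39.Fi23FO1
import Cfsg.Agent.Lib.Helper39.Fi23FO2
import Cfsg.Agent.Lib.Helper39.Fi23FO3

set_option maxRecDepth 100000
set_option maxHeartbeats 0

namespace Cfsg.Agent.Lib.Helper39.Fi23F
open Cfsg.Agent.Lib.Helper38

theorem chkO_all : ∀ v < 31671, cert.chkO v = true := by
  have h : allFrom 0 31671 cert.chkO = true :=
    (allFrom_join (lo := 0) (a := 24000) (b := 7671) (allFrom_join (lo := 0) (a := 16000) (b := 8000) (allFrom_join (lo := 0) (a := 8000) (b := 8000) chkO_f0 chkO_f1) chkO_f2) chkO_f3)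
  intro v hv
  exact allFrom_iff.mp h v (Nat.zero_le _) (by omega)

end Cfsg.Agent.Lib.Helper39.Fi23F
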