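import Cfsg.Agent.Lib.Helper39.Fi23FData

set_option maxRecDepth 100000
set_option maxHeartbeats 0

namespace Cfsg.Agent.Lib.Helper39.Fi23F
open Cfsg.Agent.Lib.Helper38

theorem chkO_0 : allFrom 0 1000 cert.chkO = true := by decide +kernel
theorem chkO_1 : allFrom 1000 1000 cert.chkO = true := by decide +kernel
theorem chkO_2 : allFrom 2000 1000 cert.chkO = true := by decide +kernel
theorem chkO_3 : allFrom 3000 1000 cert.chkO = true := by decide +kernel
theorem chkO_4 : allFrom 4000 1000 cert.chkO = true := by decide +kernel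
theorem chkO_5 : allFrom 5000 1000 cert.chkO = true := by decide +kernel
theorem chkO_6 : allFrom 6000 1000 cert.chkO = true := by decide +kernel
theorem chkO_7 : allFrom 7000 1000 cert.chkO = true := by decide +kernel

theorem chkO_f0 : allFrom 0 8000 cert.chkO = true :=
  (allFrom_join (lo := 0) (a := 7000) (b := 1000) (allFrom_join (lo := 0) (a := 6000) (b := 1000) (allFrom_join (lo := 0) (a := 5000) (b := 1000) (allFrom_join (lo := 0) (a := 4000) (b := 1000) (allFrom_join (lo := 0) (a := 3000) (b := 1000) (allFrom_join (lo := 0) (a := 2000) (b := 1000) (allFrom_join (lo := 0) (a := 1000) (b := 1000) chkO_0 chkO_1) chkO_2) chkO_3) chkO_4) chkO_5) chkO_6) chkO_7)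

end Cfsg.Agent.Lib.Helper39.Fi23F
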