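import Cfsg.Agent.Lib.Helper39.Fi23FData

set_option maxRecDepth 100000
set_option maxHeartbeats 0

namespace Cfsg.Agent.Lib.Helper39.Fi23F
open Cfsg.Agent.Lib.Helper38

theorem chkV_72 : allFrom 36000 500 cert.chkV = true := by decide +kernel
theorem chkV_73 : allFrom 36500 500 cert.chkV = true := by decide +kernel
theorem chkV_74 : allFrom 37000 500 cert.chkV = true := by decide +kernel
theorem chkV_75 : allFrom 37500 500 cert.chkV = true := by decide +kernel
theorem chkV_76 : allFrom 38000 500 cert.chkV = true := by decide +kernel
theorem chkV_77 : allFrom 38500 500 cert.chkV = true := by decide +kernel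
theorem chkV_78 : allFrom 39000 500 cert.chkV = true := by decide +kernel
theorem chkV_79 : allFrom 39500 500 cert.chkV = true := by decide +kernel

theorem chkV_f9 : allFrom 36000 4000 cert.chkV = true :=
  (allFrom_join (lo := 36000) (a := 3500) (b := 500) (allFrom_join (lo := 36000) (a := 3000) (b := 500) (allFrom_join (lo := 36000) (a := 2500) (b := 500) (allFrom_join (lo := 36000) (a := 2000) (b := 500) (allFrom_join (lo := 36000) (a := 1500) (b := 500) (allFrom_join (lo := 36000) (a := 1000) (b := 500) (allFrom_join (lo := 36000) (a := 500) (b := 500) chkV_72 chkV_73) chkV_74) chkV_75) chkV_76) chkV_77) chkV_78) chkV_79)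

end Cfsg.Agent.Lib.Helper39.Fi23F
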