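import Mathlib
set_option autoImplicit false
namespace Cfsg.Agent.Lib.Helper39.GMCHARPOLY
open Matrix Polynomial

theorem det_of_anticomm {ι : Type} [Fintype ι] [DecidableEq ι] {F : Type*} [Field F] (n : ℕ)
    (hcard : Fintype.card ι = 2 * n) (G H : Matrix ι ι F) (α : F) (hH : IsUnit H.det)
    (hGG : G * G = α • (1 : Matrix ι ι F)) (hHG : H * G = -(G * H)) :
    G.det = (-α) ^ n := by
  have hHi : H * H⁻¹ = 1 := Matrix.mul_nonsing_inv H hH
  have hiH : H⁻¹ * H = 1 := Matrix.nonsing_inv_mul H hH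
  have hconj : H * G * H⁻¹ = -G := by
    rw [hHG, neg_mul, mul_assoc, hHi, mul_one]
  have hneg : (-G).charpoly = G.charpoly := by
    rw [← hconj, Matrix.charpoly_mul_comm, ← mul_assoc, hiH, one_mul]
  have hs : ∀ M : Matrix ι ι F[X],
      Matrix.scalar ι (X : F[X]) * M = M * Matrix.scalar ι (X : F[X]) :=
    fun M => (Matrix.scalar_commute _ (fun r => Commute.all _ _) M).eq
  have h1 : G.charmatrix * (-G).charmatrix = (X ^ 2 - C α : F[X]) • (1 : Matrix ι ι F[X]) := by
    calc G.charmatrix * (-G).charmatrix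
        = (Matrix.scalar ι (X : F[X]) - (C : F →+* F[X]).mapMatrix G) *
            (Matrix.scalar ι (X : F[X]) + (C : F →+* F[X]).mapMatrix G) := by
          rw [Matrix.charmatrix, Matrix.charmatrix, map_neg, sub_neg_eq_add]
      _ = Matrix.scalar ι (X : F[X]) * Matrix.scalar ι (X : F[X]) -
            (C : F →+* F[X]).mapMatrix G * (C : F →+* F[X]).mapMatrix G := by
          have hsc := hs ((C : F →+* F[X]).mapMatrix G)
          rw [sub_mul, mul_add, mul_add, hsc]
          abel
      _ = Matrix.scalar ι ((X : F[X]) * X) - (C : F →+* F[X]).mapMatrix (G * G) := by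
          rw [← map_mul, ← map_mul]
      _ = (X ^ 2 - C α : F[X]) • (1 : Matrix ι ι F[X]) := by
          rw [hGG]
          ext i j
          by_cases hij : i = j
          · subst hij
            simp [Matrix.scalar_apply, sq]
          · simp [Matrix.scalar_apply, hij]
  have hprod : G.charpoly * (-G).charpoly = (X ^ 2 - C α) ^ (2 * n) := by
    unfold Matrix.charpoly
    rw [← Matrix.det_mul, h1, Matrix.det_smul, Matrix.det_one, mul_one, hcard]
  rw [hneg] at hprod
  have hsq : G.charpoly ^ 2 = ((X ^ 2 - C α : F[X]) ^ n) ^ 2 := by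
    rw [sq, hprod, ← pow_mul, mul_comm]
  have hmonP : ((X ^ 2 - C α : F[X]) ^ n).Monic := (monic_X_pow_sub_C α (by norm_num)).pow n
  have hchi : G.charpoly = (X ^ 2 - C α : F[X]) ^ n := by
    rcases sq_eq_sq_iff_eq_or_eq_neg.1 hsq with h | h
    · exact h
    · have h2 : (G.charpoly).leadingCoeff = 1 := Matrix.charpoly_monic G
      rw [h, leadingCoeff_neg, hmonP] at h2
      -- -1 = 1 in F
      rw [h]
      have h3 : (-1 : F[X]) = 1 := by
        rw [← C_1, ← C_neg, h2]
      calc -(X ^ 2 - C α : F[X]) ^ n = (-1 : F[X]) * (X ^ 2 - C α : F[X]) ^ n := by ring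
        _ = (X ^ 2 - C α : F[X]) ^ n := by rw [h3, one_mul]
  rw [Matrix.det_eq_sign_charpoly_coeff, hcard, pow_mul, neg_one_sq, one_pow, one_mul, hchi,
    coeff_zero_eq_eval_zero]
  simp

end Cfsg.Agent.Lib.Helper39.GMCHARPOLY
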