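import Mathlib
import Cfsg.Agent.Lib.Helper52.ReflPair
import Cfsg.Agent.Lib.Helper39.H1Defs

set_option autoImplicit false

/-!
# Vanishing of first cohomology of `Ω` on the natural module over `F₂`, by certificate

`Ω` is generated by the products of two reflections.  A crossed homomorphism is normalised to vanish on a
fixed-point-free element `y`; then it is shown to vanish on generators one at a time, each time by relators in
the new generator and elements on which it is already known to vanish (a linear condition on the value at the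
new generator, checked on a bitmask model).
-/

namespace Cfsg.Agent.Lib.Helper39.H1

open Cfsg

/-! ### The bitmask model -/

/-- A bounded universal quantifier evaluated by the recursor. -/
def allN (f : ℕ → Bool) (n : ℕ) : Bool :=
  Nat.rec (motive := fun _ => Bool) true (fun n ih => Bool.rec false ih (f n)) n

theorem allN_spec (f : ℕ → Bool) (n : ℕ) (h : allN f n = true) : ∀ i < n, f i = true := by
  induction n with
  | zero => intro i hi; omega
  | succ n ih =>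
    have h1 : allN f (n + 1) = Bool.rec false (allN f n) (f n) := rfl
    rw [h1] at h
    cases hf : f n with
    | false => rw [hf] at h; exact absurd h Bool.false_ne_true
    | true =>
      rw [hf] at h
      intro i hi
      rcases Nat.lt_succ_iff_lt_or_eq.mp hi with h2 | h2
      · exact ih h i h2
      · rw [h2]; exact hf

/-- The polar form on masks. -/
def bfm (qf : ℕ → Bool) (a b : ℕ) : Bool := (qf (a ^^^ b) ^^ qf a) ^^ qf b

/-- The reflection in a non-singular mask. -/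
def T (qf : ℕ → Bool) (u x : ℕ) : ℕ := cond (bfm qf u x) (x ^^^ u) x

/-- The parity table of the numbers below 256. -/
def PAR : ℕ := 47758914269546354982683078068829456704164423862093743397580034411621752859030

/-- A fast reflection: `ST` is the table of the masks of the linear forms `B(u, ·)`, of width `d`. -/
def Tg (ST d mask u x : ℕ) : ℕ :=
  Nat.xor x (Nat.mul u
    (Nat.land (Nat.shiftRight PAR (Nat.land (Nat.land (Nat.shiftRight ST (Nat.mul u d)) mask) x)) 1))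

/-- The action of a product of pairs of reflections. -/
def actL (Tm : ℕ → ℕ → ℕ) : List (ℕ × ℕ) → ℕ → ℕ
  | [], x => x
  | p :: L, x => Tm p.1 (Tm p.2 (actL Tm L x))

/-- The action of the inverse of a product of pairs of reflections. -/
def actI (Tm : ℕ → ℕ → ℕ) : List (ℕ × ℕ) → ℕ → ℕ
  | [], x => x
  | p :: L, x => actI Tm L (Tm p.2 (Tm p.1 x))

/-- The affine run of a word: a letter is a product of pairs, a flag for the inverse, and a flag for the
unknown element (on which the crossed homomorphism takes the value `c`). -/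
def runA (Tm : ℕ → ℕ → ℕ) (c : ℕ) : List (List (ℕ × ℕ) × Bool × Bool) → ℕ → ℕ
  | [], s => s
  | l :: w, s =>
    cond l.2.1
      (actI Tm l.1 (cond l.2.2 (runA Tm c w s ^^^ c) (runA Tm c w s)))
      (cond l.2.2 (actL Tm l.1 (runA Tm c w s) ^^^ c) (actL Tm l.1 (runA Tm c w s)))

/-- Equality of lists of pairs, as a Boolean. -/
def eqL : List (ℕ × ℕ) → List (ℕ × ℕ) → Bool
  | [], [] => true
  | p :: L, q :: L' => Nat.beq p.1 q.1 && (Nat.beq p.2 q.2 && eqL L L')
  | _, _ => false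

theorem eqL_spec : ∀ (L L' : List (ℕ × ℕ)), eqL L L' = true → L = L'
  | [], [], _ => rfl
  | [], _ :: _, h => by simp [eqL] at h
  | _ :: _, [], h => by simp [eqL] at h
  | p :: L, q :: L', h => by
    have h' : (Nat.beq p.1 q.1 && (Nat.beq p.2 q.2 && eqL L L')) = true := h
    rw [Bool.and_eq_true, Bool.and_eq_true] at h'
    obtain ⟨h1, h2, h3⟩ := h'
    have e1 : p.1 = q.1 := Nat.eq_of_beq_eq_true h1
    have e2 : p.2 = q.2 := Nat.eq_of_beq_eq_true h2
    rw [eqL_spec L L' h3, Prod.ext e1 e2]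

/-- Membership in a list of lists of pairs, as a Boolean. -/
def memL (L : List (ℕ × ℕ)) : List (List (ℕ × ℕ)) → Bool
  | [] => false
  | L' :: r => eqL L L' || memL L r

theorem memL_spec (L : List (ℕ × ℕ)) : ∀ (r : List (List (ℕ × ℕ))), memL L r = true → L ∈ r
  | [], h => by simp [memL] at h
  | L' :: r, h => by
    have h' : (eqL L L' || memL L r) = true := h
    rw [Bool.or_eq_true] at h'
    rcases h' with h1 | h1
    · rw [eqL_spec L L' h1]; exact List.mem_cons_self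
    · exact List.mem_cons_of_mem _ (memL_spec L r h1)

/-- Well-formedness of a product of pairs: masks in range and non-singular. -/
def wfL (qf : ℕ → Bool) (d : ℕ) (L : List (ℕ × ℕ)) : Bool :=
  L.all fun p => Nat.blt p.1 (2 ^ d) && (Nat.blt p.2 (2 ^ d) && (qf p.1 && qf p.2))

/-- The check of one step: the new element `s.1` and its relators `s.2`, given the list `est` of the elements
already treated. -/
def chkStep (qf : ℕ → Bool) (Tm : ℕ → ℕ → ℕ) (d : ℕ) (est : List (List (ℕ × ℕ)))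
    (s : List (ℕ × ℕ) × List (List (List (ℕ × ℕ) × Bool × Bool))) : Bool :=
  wfL qf d s.1 &&
    (s.2.all (fun w =>
        w.all (fun l => wfL qf d l.1 && cond l.2.2 (eqL l.1 s.1) (memL l.1 est)) &&
          allN (fun n => Nat.beq (runA Tm 0 w n) n) (2 ^ d)) &&
      allN (fun c => Nat.beq c 0 || !(s.2.all fun w => Nat.beq (runA Tm c w 0) 0)) (2 ^ d))

/-- The check of a list of steps. -/
def chkSteps (qf : ℕ → Bool) (Tm : ℕ → ℕ → ℕ) (d : ℕ) : List (List (ℕ × ℕ)) →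
    List (List (ℕ × ℕ) × List (List (List (ℕ × ℕ) × Bool × Bool))) → Bool
  | _, [] => true
  | est, s :: r => chkStep qf Tm d est s && chkSteps qf Tm d (s.1 :: est) r

/-- The element `y` acts without fixed points. -/
def chkFpf (qf : ℕ → Bool) (Tm : ℕ → ℕ → ℕ) (d : ℕ) (Ly : List (ℕ × ℕ)) : Bool :=
  wfL qf d Ly && allN (fun n => Nat.beq n 0 || !(Nat.beq (actL Tm Ly n) n)) (2 ^ d)

/-- Every product of the base reflection `u0` with another reflection is among the steps. -/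
def chkCov (qf : ℕ → Bool) (d : ℕ) (u0 : ℕ) (els : List (List (ℕ × ℕ))) : Bool :=
  Nat.blt u0 (2 ^ d) && (qf u0 &&
    allN (fun v => !(qf v) || (Nat.beq v u0 || memL [(u0, v)] els)) (2 ^ d))

/-! ### The group side -/

section real

variable {ι : Type} [Fintype ι] [DecidableEq ι] (Q : QuadraticForm (ZMod 2) (ι → ZMod 2))

/-- The action of an element of `Ω` on vectors. -/
def mv (g : ↥(Cfsg.Omega (ZMod 2) ⇑Q)) (x : ι → ZMod 2) : ι → ZMod 2 :=
  Matrix.mulVec (((g : ↥(Cfsg.isometryGroup (ZMod 2) ⇑Q)) : Matrix.GeneralLinearGroup ι (ZMod 2)) :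
    Matrix ι ι (ZMod 2)) x

theorem mv_mul (g h : ↥(Cfsg.Omega (ZMod 2) ⇑Q)) (x : ι → ZMod 2) :
    mv Q (g * h) x = mv Q g (mv Q h x) := by
  unfold mv
  rw [Matrix.mulVec_mulVec]
  rfl

theorem mv_one (x : ι → ZMod 2) : mv Q 1 x = x := by
  unfold mv
  have h : ((((1 : ↥(Cfsg.Omega (ZMod 2) ⇑Q)) : ↥(Cfsg.isometryGroup (ZMod 2) ⇑Q)) :
      Matrix.GeneralLinearGroup ι (ZMod 2)) : Matrix ι ι (ZMod 2)) = 1 := rfl
  rw [h, Matrix.one_mulVec]

theorem mv_add (g : ↥(Cfsg.Omega (ZMod 2) ⇑Q)) (x y : ι → ZMod 2) :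
    mv Q g (x + y) = mv Q g x + mv Q g y := Matrix.mulVec_add _ _ _

theorem mv_zero (g : ↥(Cfsg.Omega (ZMod 2) ⇑Q)) : mv Q g 0 = 0 := Matrix.mulVec_zero _

theorem mv_sub (g : ↥(Cfsg.Omega (ZMod 2) ⇑Q)) (x y : ι → ZMod 2) :
    mv Q g (x - y) = mv Q g x - mv Q g y := Matrix.mulVec_sub _ _ _

theorem mv_inv (g : ↥(Cfsg.Omega (ZMod 2) ⇑Q)) (x : ι → ZMod 2) : mv Q g⁻¹ (mv Q g x) = x := by
  rw [← mv_mul, inv_mul_cancel, mv_one]

theorem vec_add_self (x : ι → ZMod 2) : x + x = 0 := by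
  funext i
  exact CharTwo.add_self_eq_zero (x i)

theorem vec_sub_eq_add (x y : ι → ZMod 2) : x - y = x + y := by
  funext i
  exact CharTwo.sub_eq_add (x i) (y i)

variable {Q}
variable {d : ℕ} {dec : ℕ → ι → ZMod 2} {qf : ℕ → Bool}

theorem Mdl.dec_zero (M : Mdl Q d dec qf) : dec 0 = 0 := by
  have h := M.dec_xor 0 0
  rw [Nat.xor_self] at h
  exact add_left_cancel (a := dec 0) (by rw [add_zero]; exact h.symm)

theorem Mdl.q_ne (M : Mdl Q d dec qf) {n : ℕ} (hn : n < 2 ^ d) (h : qf n = true) : Q (dec n) ≠ 0 := by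
  rw [M.hq n hn, if_pos h]
  exact one_ne_zero

theorem Mdl.q_one (M : Mdl Q d dec qf) {n : ℕ} (hn : n < 2 ^ d) (h : qf n = true) : Q (dec n) = 1 := by
  rw [M.hq n hn, if_pos h]

theorem Mdl.qf_of_ne (M : Mdl Q d dec qf) {n : ℕ} (hn : n < 2 ^ d) (h : Q (dec n) ≠ 0) : qf n = true := by
  by_contra hc
  rw [M.hq n hn, if_neg hc] at h
  exact h rfl

theorem bool3 (p q r : Bool) :
    ((if p = true then (1 : ZMod 2) else 0) - (if q = true then 1 else 0)) - (if r = true then 1 else 0) =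
      if ((p ^^ q) ^^ r) = true then 1 else 0 := by
  revert p q r
  decide

theorem Mdl.polar (M : Mdl Q d dec qf) {a b : ℕ} (ha : a < 2 ^ d) (hb : b < 2 ^ d) :
    QuadraticMap.polar ⇑Q (dec a) (dec b) = if bfm qf a b = true then 1 else 0 := by
  unfold QuadraticMap.polar bfm
  rw [← M.dec_xor, M.hq _ (Nat.xor_lt_two_pow ha hb), M.hq _ ha, M.hq _ hb]
  exact bool3 _ _ _

theorem T_lt {u x : ℕ} (hu : u < 2 ^ d) (hx : x < 2 ^ d) : T qf u x < 2 ^ d := by
  unfold T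
  cases bfm qf u x
  · exact hx
  · exact Nat.xor_lt_two_pow hx hu

theorem Mdl.refl_mulVec (M : Mdl Q d dec qf) {u x : ℕ} (hu : u < 2 ^ d) (hx : x < 2 ^ d)
    (hq : qf u = true) :
    (Cfsg.reflectionMatrix ⇑Q (dec u)).mulVec (dec x) = dec (T qf u x) := by
  rw [Cfsg.Agent.Lib.Helper51.reflectionMatrix_mulVec, M.q_one hu hq, M.polar hu hx]
  unfold T
  cases bfm qf u x
  · simp
  · simp only [if_true, inv_one, mul_one, one_smul, cond_true]
    rw [M.dec_xor, vec_sub_eq_add]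

variable (hΩ : commutator ↥(Cfsg.isometryGroup (ZMod 2) ⇑Q) =
  Subgroup.closure (Cfsg.Agent.Lib.Helper52.pairSet Q))

variable {Tm : ℕ → ℕ → ℕ}

theorem Tm_lt (hT : ∀ u x, u < 2 ^ d → x < 2 ^ d → qf u = true → Tm u x = T qf u x) {u x : ℕ}
    (hu : u < 2 ^ d) (hx : x < 2 ^ d) (hq : qf u = true) : Tm u x < 2 ^ d := by
  rw [hT u x hu hx hq]
  exact T_lt hu hx

/-- The product of two reflections, as an element of `Ω` (trivial if a vector is singular). -/
noncomputable def pr (u v : ι → ZMod 2) : ↥(Cfsg.Omega (ZMod 2) ⇑Q) :=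
  if h : Q u ≠ 0 ∧ Q v ≠ 0 then
    ⟨Cfsg.Agent.Lib.Helper51.refl Q u h.1 * Cfsg.Agent.Lib.Helper51.refl Q v h.2, by
      show _ ∈ commutator ↥(Cfsg.isometryGroup (ZMod 2) ⇑Q)
      rw [hΩ]
      exact Subgroup.subset_closure
        (Cfsg.Agent.Lib.Helper52.refl_mul_refl_mem_pairSet Q u v h.1 h.2)⟩
  else 1

theorem pr_val {u v : ι → ZMod 2} (hu : Q u ≠ 0) (hv : Q v ≠ 0) :
    ((pr hΩ u v : ↥(Cfsg.Omega (ZMod 2) ⇑Q)) : ↥(Cfsg.isometryGroup (ZMod 2) ⇑Q)) =
      Cfsg.Agent.Lib.Helper51.refl Q u hu * Cfsg.Agent.Lib.Helper51.refl Q v hv := by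
  unfold pr
  rw [dif_pos ⟨hu, hv⟩]

theorem pr_inv (u v : ι → ZMod 2) : (pr hΩ u v)⁻¹ = pr hΩ v u := by
  by_cases h : Q u ≠ 0 ∧ Q v ≠ 0
  · apply Subtype.ext
    rw [Subgroup.coe_inv, pr_val hΩ h.1 h.2, pr_val hΩ h.2 h.1, mul_inv_rev,
      Cfsg.Agent.Lib.Helper51.refl_inv, Cfsg.Agent.Lib.Helper51.refl_inv]
  · have h' : ¬ (Q v ≠ 0 ∧ Q u ≠ 0) := fun hh => h ⟨hh.2, hh.1⟩
    unfold pr
    rw [dif_neg h, dif_neg h', inv_one]

theorem pr_self (u : ι → ZMod 2) : pr hΩ u u = 1 := by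
  by_cases h : Q u ≠ 0
  · apply Subtype.ext
    rw [pr_val hΩ h h, Cfsg.Agent.Lib.Helper51.refl_mul_self]
    rfl
  · unfold pr
    rw [dif_neg (fun hh => h hh.1)]

theorem pr_mul_pr {u v w : ι → ZMod 2} (hu : Q u ≠ 0) (hv : Q v ≠ 0) (hw : Q w ≠ 0) :
    pr hΩ u v * pr hΩ v w = pr hΩ u w := by
  apply Subtype.ext
  rw [Subgroup.coe_mul, pr_val hΩ hu hv, pr_val hΩ hv hw, pr_val hΩ hu hw]
  have h := Cfsg.Agent.Lib.Helper51.refl_mul_self Q v hv
  calc Cfsg.Agent.Lib.Helper51.refl Q u hu * Cfsg.Agent.Lib.Helper51.refl Q v hv *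
        (Cfsg.Agent.Lib.Helper51.refl Q v hv * Cfsg.Agent.Lib.Helper51.refl Q w hw)
      = Cfsg.Agent.Lib.Helper51.refl Q u hu *
          (Cfsg.Agent.Lib.Helper51.refl Q v hv * Cfsg.Agent.Lib.Helper51.refl Q v hv) *
          Cfsg.Agent.Lib.Helper51.refl Q w hw := by group
    _ = Cfsg.Agent.Lib.Helper51.refl Q u hu * Cfsg.Agent.Lib.Helper51.refl Q w hw := by
        rw [h, mul_one]

theorem mv_pr (M : Mdl Q d dec qf)
    (hT : ∀ u x, u < 2 ^ d → x < 2 ^ d → qf u = true → Tm u x = T qf u x)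
    {u v x : ℕ} (hu : u < 2 ^ d) (hv : v < 2 ^ d) (hx : x < 2 ^ d)
    (hqu : qf u = true) (hqv : qf v = true) :
    mv Q (pr hΩ (dec u) (dec v)) (dec x) = dec (Tm u (Tm v x)) := by
  have h1 : Tm v x = T qf v x := hT v x hv hx hqv
  have h2 : T qf v x < 2 ^ d := T_lt hv hx
  have h3 : Tm u (T qf v x) = T qf u (T qf v x) := hT u _ hu h2 hqu
  rw [h1, h3]
  unfold mv
  rw [pr_val hΩ (M.q_ne hu hqu) (M.q_ne hv hqv), Cfsg.Agent.Lib.Helper51.coe_mul',
    Cfsg.Agent.Lib.Helper51.coe_refl, Cfsg.Agent.Lib.Helper51.coe_refl, ← Matrix.mulVec_mulVec,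
    M.refl_mulVec hv hx hqv, M.refl_mulVec hu (T_lt hv hx) hqu]

/-- The element of `Ω` given by a list of pairs of masks. -/
noncomputable def elt (dec : ℕ → ι → ZMod 2) (L : List (ℕ × ℕ)) : ↥(Cfsg.Omega (ZMod 2) ⇑Q) :=
  (L.map fun p => pr hΩ (dec p.1) (dec p.2)).prod

theorem elt_nil : elt hΩ dec [] = 1 := rfl

theorem elt_cons (p : ℕ × ℕ) (L : List (ℕ × ℕ)) :
    elt hΩ dec (p :: L) = pr hΩ (dec p.1) (dec p.2) * elt hΩ dec L := by
  unfold elt
  rw [List.map_cons, List.prod_cons]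

theorem wfL_spec {L : List (ℕ × ℕ)} (h : wfL qf d L = true) :
    ∀ p ∈ L, p.1 < 2 ^ d ∧ p.2 < 2 ^ d ∧ qf p.1 = true ∧ qf p.2 = true := by
  intro p hp
  have h1 := List.all_eq_true.mp h p hp
  rw [Bool.and_eq_true, Bool.and_eq_true, Bool.and_eq_true] at h1
  obtain ⟨h2, h3, h4, h5⟩ := h1
  exact ⟨Nat.blt_eq.mp h2, Nat.blt_eq.mp h3, h4, h5⟩

theorem wfL_tail {p : ℕ × ℕ} {L : List (ℕ × ℕ)} (h : wfL qf d (p :: L) = true) :
    wfL qf d L = true := by
  unfold wfL at h ⊢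
  rw [List.all_cons, Bool.and_eq_true] at h
  exact h.2

theorem actL_spec (M : Mdl Q d dec qf)
    (hT : ∀ u x, u < 2 ^ d → x < 2 ^ d → qf u = true → Tm u x = T qf u x) :
    ∀ (L : List (ℕ × ℕ)), wfL qf d L = true → ∀ x, x < 2 ^ d →
    mv Q (elt hΩ dec L) (dec x) = dec (actL Tm L x) ∧ actL Tm L x < 2 ^ d
  | [], _, x, hx => by
    rw [elt_nil, mv_one]
    exact ⟨rfl, hx⟩
  | p :: L, h, x, hx => by
    obtain ⟨h1, h2, h3, h4⟩ := wfL_spec h p List.mem_cons_self
    obtain ⟨e1, e2⟩ := actL_spec M hT L (wfL_tail h) x hx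
    rw [elt_cons, mv_mul, e1, mv_pr hΩ M hT h1 h2 e2 h3 h4]
    exact ⟨rfl, Tm_lt hT h1 (Tm_lt hT h2 e2 h4) h3⟩

theorem actI_spec (M : Mdl Q d dec qf)
    (hT : ∀ u x, u < 2 ^ d → x < 2 ^ d → qf u = true → Tm u x = T qf u x) :
    ∀ (L : List (ℕ × ℕ)), wfL qf d L = true → ∀ x, x < 2 ^ d →
    mv Q (elt hΩ dec L)⁻¹ (dec x) = dec (actI Tm L x) ∧ actI Tm L x < 2 ^ d
  | [], _, x, hx => by
    rw [elt_nil, inv_one, mv_one]
    exact ⟨rfl, hx⟩
  | p :: L, h, x, hx => by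
    obtain ⟨h1, h2, h3, h4⟩ := wfL_spec h p List.mem_cons_self
    have hx' : Tm p.2 (Tm p.1 x) < 2 ^ d := Tm_lt hT h2 (Tm_lt hT h1 hx h3) h4
    obtain ⟨e1, e2⟩ := actI_spec M hT L (wfL_tail h) _ hx'
    rw [elt_cons, mul_inv_rev, mv_mul, pr_inv, mv_pr hΩ M hT h2 h1 hx h4 h3, e1]
    exact ⟨rfl, e2⟩

/-- The value of a letter. -/
noncomputable def lv (dec : ℕ → ι → ZMod 2) (l : List (ℕ × ℕ) × Bool × Bool) :
    ↥(Cfsg.Omega (ZMod 2) ⇑Q) :=
  cond l.2.1 (elt hΩ dec l.1)⁻¹ (elt hΩ dec l.1)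

/-- The value of a word. -/
noncomputable def wrd (dec : ℕ → ι → ZMod 2) (w : List (List (ℕ × ℕ) × Bool × Bool)) :
    ↥(Cfsg.Omega (ZMod 2) ⇑Q) :=
  (w.map (lv hΩ dec)).prod

theorem wrd_nil : wrd hΩ dec [] = 1 := rfl

theorem wrd_cons (l : List (ℕ × ℕ) × Bool × Bool) (w : List (List (ℕ × ℕ) × Bool × Bool)) :
    wrd hΩ dec (l :: w) = lv hΩ dec l * wrd hΩ dec w := by
  unfold wrd
  rw [List.map_cons, List.prod_cons]

/-- The plain action of a word. -/
theorem wrd_spec (M : Mdl Q d dec qf)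
    (hT : ∀ u x, u < 2 ^ d → x < 2 ^ d → qf u = true → Tm u x = T qf u x) :
    ∀ (w : List (List (ℕ × ℕ) × Bool × Bool)),
    (∀ l ∈ w, wfL qf d l.1 = true) → ∀ s, s < 2 ^ d →
    mv Q (wrd hΩ dec w) (dec s) = dec (runA Tm 0 w s) ∧ runA Tm 0 w s < 2 ^ d
  | [], _, s, hs => by
    rw [wrd_nil, mv_one]
    exact ⟨rfl, hs⟩
  | l :: w, h, s, hs => by
    obtain ⟨e1, e2⟩ := wrd_spec M hT w (fun l' hl' => h l' (List.mem_cons_of_mem _ hl')) s hs
    have hl := h l List.mem_cons_self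
    rw [wrd_cons, mv_mul, e1]
    obtain ⟨L, i, k⟩ := l
    cases i <;> cases k
    · obtain ⟨a1, a2⟩ := actL_spec hΩ M hT L hl _ e2
      exact ⟨a1, a2⟩
    · obtain ⟨a1, a2⟩ := actL_spec hΩ M hT L hl _ e2
      refine ⟨?_, ?_⟩
      · show mv Q (elt hΩ dec L) (dec (runA Tm 0 w s)) = dec (actL Tm L (runA Tm 0 w s) ^^^ 0)
        rw [Nat.xor_zero]
        exact a1
      · show actL Tm L (runA Tm 0 w s) ^^^ 0 < 2 ^ d
        rw [Nat.xor_zero]
        exact a2
    · obtain ⟨a1, a2⟩ := actI_spec hΩ M hT L hl _ e2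
      exact ⟨a1, a2⟩
    · have e3 : runA Tm 0 w s ^^^ 0 < 2 ^ d := by rw [Nat.xor_zero]; exact e2
      obtain ⟨a1, a2⟩ := actI_spec hΩ M hT L hl _ e3
      refine ⟨?_, a2⟩
      show mv Q (elt hΩ dec L)⁻¹ (dec (runA Tm 0 w s)) = dec (actI Tm L (runA Tm 0 w s ^^^ 0))
      rw [← a1, Nat.xor_zero]

theorem eq_one_of_mv {g : ↥(Cfsg.Omega (ZMod 2) ⇑Q)} (h : ∀ x, mv Q g x = x) : g = 1 := by
  apply Subtype.ext
  apply Cfsg.Agent.Lib.Helper51.isometry_ext
  apply Cfsg.Agent.Lib.Helper51.matrix_ext_mulVec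
  intro x
  have h1 := h x
  unfold mv at h1
  rw [h1]
  exact (Matrix.one_mulVec x).symm

theorem wrd_eq_one (M : Mdl Q d dec qf)
    (hT : ∀ u x, u < 2 ^ d → x < 2 ^ d → qf u = true → Tm u x = T qf u x)
    (w : List (List (ℕ × ℕ) × Bool × Bool))
    (hw : ∀ l ∈ w, wfL qf d l.1 = true) (h : ∀ n, n < 2 ^ d → runA Tm 0 w n = n) :
    wrd hΩ dec w = 1 := by
  apply eq_one_of_mv
  intro x
  obtain ⟨n, hn, rfl⟩ := M.surj x
  rw [(wrd_spec hΩ M hT w hw n hn).1, h n hn]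

/-! ### Crossed homomorphisms -/

section crossed

variable (f : ↥(Cfsg.Omega (ZMod 2) ⇑Q) → (ι → ZMod 2))
  (hf : ∀ g h, f (g * h) = f g + mv Q g (f h))

include hf

theorem f_one : f 1 = 0 := by
  have h := hf 1 1
  rw [mul_one, mv_one] at h
  exact add_left_cancel (a := f 1) (by rw [add_zero]; exact h.symm)

theorem f_inv (g : ↥(Cfsg.Omega (ZMod 2) ⇑Q)) : f g⁻¹ = mv Q g⁻¹ (f g) := by
  have h := hf g⁻¹ g
  rw [inv_mul_cancel, f_one f hf] at h
  have h2 := congrArg (fun z => z + mv Q g⁻¹ (f g)) h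
  simp only [zero_add, add_assoc, vec_add_self, add_zero] at h2
  exact h2.symm

theorem f_inv_zero {g : ↥(Cfsg.Omega (ZMod 2) ⇑Q)} (h : f g = 0) : f g⁻¹ = 0 := by
  rw [f_inv f hf, h, mv_zero]

theorem f_mul_zero {g h : ↥(Cfsg.Omega (ZMod 2) ⇑Q)} (hg : f g = 0) (hh : f h = 0) :
    f (g * h) = 0 := by
  rw [hf, hg, hh, mv_zero, add_zero]

/-- The affine run computes the crossed homomorphism on a word. -/
theorem run_spec (M : Mdl Q d dec qf)
    (hT : ∀ u x, u < 2 ^ d → x < 2 ^ d → qf u = true → Tm u x = T qf u x)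
    (X : List (ℕ × ℕ)) (cn : ℕ) (hcn : cn < 2 ^ d)
    (hX : f (elt hΩ dec X) = dec cn) :
    ∀ (w : List (List (ℕ × ℕ) × Bool × Bool)),
      (∀ l ∈ w, wfL qf d l.1 = true ∧ (cond l.2.2 (l.1 = X) (f (elt hΩ dec l.1) = 0))) →
      f (wrd hΩ dec w) = dec (runA Tm cn w 0) ∧ runA Tm cn w 0 < 2 ^ d
  | [], _ => by
    rw [wrd_nil, f_one f hf]
    exact ⟨M.dec_zero.symm, Nat.pow_pos (by norm_num)⟩
  | l :: w, h => by
    obtain ⟨e1, e2⟩ := run_spec M hT X cn hcn hX w (fun l' hl' => h l' (List.mem_cons_of_mem _ hl'))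
    obtain ⟨hl, hk⟩ := h l List.mem_cons_self
    rw [wrd_cons, hf, e1]
    obtain ⟨L, i, k⟩ := l
    cases i <;> cases k
    · -- known, not inverted
      have hk' : f (elt hΩ dec L) = 0 := hk
      obtain ⟨a1, a2⟩ := actL_spec hΩ M hT L hl _ e2
      refine ⟨?_, a2⟩
      show f (elt hΩ dec L) + mv Q (elt hΩ dec L) (dec (runA Tm cn w 0)) = dec (actL Tm L (runA Tm cn w 0))
      rw [hk', zero_add, a1]
    · -- unknown, not inverted
      have hk' : L = X := hk
      obtain ⟨a1, a2⟩ := actL_spec hΩ M hT L hl _ e2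
      refine ⟨?_, Nat.xor_lt_two_pow a2 hcn⟩
      show f (elt hΩ dec L) + mv Q (elt hΩ dec L) (dec (runA Tm cn w 0)) =
        dec (actL Tm L (runA Tm cn w 0) ^^^ cn)
      rw [a1, M.dec_xor, hk', hX, add_comm]
    · -- known, inverted
      have hk' : f (elt hΩ dec L) = 0 := hk
      obtain ⟨a1, a2⟩ := actI_spec hΩ M hT L hl _ e2
      refine ⟨?_, a2⟩
      show f (elt hΩ dec L)⁻¹ + mv Q (elt hΩ dec L)⁻¹ (dec (runA Tm cn w 0)) =
        dec (actI Tm L (runA Tm cn w 0))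
      rw [f_inv_zero f hf hk', zero_add, a1]
    · -- unknown, inverted
      have hk' : L = X := hk
      have e3 : runA Tm cn w 0 ^^^ cn < 2 ^ d := Nat.xor_lt_two_pow e2 hcn
      obtain ⟨a1, a2⟩ := actI_spec hΩ M hT L hl _ e3
      refine ⟨?_, a2⟩
      show f (elt hΩ dec L)⁻¹ + mv Q (elt hΩ dec L)⁻¹ (dec (runA Tm cn w 0)) =
        dec (actI Tm L (runA Tm cn w 0 ^^^ cn))
      rw [← a1, f_inv f hf, ← mv_add, hk', hX, M.dec_xor, add_comm (dec cn)]

/-- One step. -/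
theorem step_spec (M : Mdl Q d dec qf)
    (hT : ∀ u x, u < 2 ^ d → x < 2 ^ d → qf u = true → Tm u x = T qf u x)
    (est : List (List (ℕ × ℕ)))
    (hest : ∀ L ∈ est, f (elt hΩ dec L) = 0)
    (s : List (ℕ × ℕ) × List (List (List (ℕ × ℕ) × Bool × Bool)))
    (h : chkStep qf Tm d est s = true) : f (elt hΩ dec s.1) = 0 := by
  unfold chkStep at h
  rw [Bool.and_eq_true, Bool.and_eq_true] at h
  obtain ⟨-, h2, h3⟩ := h
  obtain ⟨cn, hcn, hc⟩ := M.surj (f (elt hΩ dec s.1))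
  have hw : ∀ w ∈ s.2, runA Tm cn w 0 = 0 := by
    intro w hw
    have h4 := List.all_eq_true.mp h2 w hw
    rw [Bool.and_eq_true] at h4
    obtain ⟨h5, h6⟩ := h4
    have hwf : ∀ l ∈ w, wfL qf d l.1 = true := by
      intro l hl
      have h7 := List.all_eq_true.mp h5 l hl
      rw [Bool.and_eq_true] at h7
      exact h7.1
    have hone : wrd hΩ dec w = 1 := by
      apply wrd_eq_one hΩ M hT w hwf
      intro n hn
      exact Nat.eq_of_beq_eq_true (allN_spec _ _ h6 n hn)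
    have hrun := run_spec hΩ f hf M hT s.1 cn hcn hc.symm w (by
      intro l hl
      have h7 := List.all_eq_true.mp h5 l hl
      rw [Bool.and_eq_true] at h7
      refine ⟨h7.1, ?_⟩
      obtain ⟨L, i, k⟩ := l
      cases k
      · exact hest L (memL_spec L est h7.2)
      · exact eqL_spec L s.1 h7.2)
    rw [hone, f_one f hf] at hrun
    exact (M.inj _ _ hrun.2 (Nat.pow_pos (by norm_num)) (hrun.1.symm.trans M.dec_zero.symm))
  have h8 := allN_spec _ _ h3 cn hcn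
  rw [Bool.or_eq_true] at h8
  rcases h8 with h8 | h8
  · rw [← hc, Nat.eq_of_beq_eq_true h8, M.dec_zero]
  · exfalso
    rw [Bool.not_eq_true'] at h8
    have h9 : (s.2.all fun w => Nat.beq (runA Tm cn w 0) 0) = true := by
      rw [List.all_eq_true]
      intro w hw'
      rw [hw w hw']
      rfl
    rw [h9] at h8
    exact Bool.noConfusion h8

/-- All steps. -/
theorem steps_spec (M : Mdl Q d dec qf)
    (hT : ∀ u x, u < 2 ^ d → x < 2 ^ d → qf u = true → Tm u x = T qf u x) :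
    ∀ (S : List (List (ℕ × ℕ) × List (List (List (ℕ × ℕ) × Bool × Bool))))
      (est : List (List (ℕ × ℕ))), (∀ L ∈ est, f (elt hΩ dec L) = 0) →
      chkSteps qf Tm d est S = true → ∀ s ∈ S, f (elt hΩ dec s.1) = 0
  | [], _, _, _ => by
    intro s hs
    exact absurd hs List.not_mem_nil
  | s :: r, est, hest, h => by
    have h' : (chkStep qf Tm d est s && chkSteps qf Tm d (s.1 :: est) r) = true := h
    rw [Bool.and_eq_true] at h'
    have h1 := step_spec hΩ f hf M hT est hest s h'.1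
    have h2 := steps_spec M hT r (s.1 :: est) (by
      intro L hL
      rcases List.mem_cons.mp hL with rfl | hL
      · exact h1
      · exact hest L hL) h'.2
    intro s' hs'
    rcases List.mem_cons.mp hs' with rfl | hs'
    · exact h1
    · exact h2 s' hs'

/-- A crossed homomorphism vanishing on the products `t_{u0} t_v` vanishes. -/
theorem vanish_of_base (M : Mdl Q d dec qf) (u0 : ℕ) (hu0 : u0 < 2 ^ d) (hq0 : qf u0 = true)
    (hbase : ∀ v, v < 2 ^ d → qf v = true → f (pr hΩ (dec u0) (dec v)) = 0) :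
    ∀ g, f g = 0 := by
  have hpair : ∀ (a b : ι → ZMod 2), Q a ≠ 0 → Q b ≠ 0 → f (pr hΩ a b) = 0 := by
    intro a b ha hb
    obtain ⟨na, hna, rfl⟩ := M.surj a
    obtain ⟨nb, hnb, rfl⟩ := M.surj b
    have h0 := M.q_ne hu0 hq0
    rw [← pr_mul_pr hΩ ha h0 hb, ← pr_inv hΩ (dec u0) (dec na)]
    exact f_mul_zero f hf (f_inv_zero f hf (hbase na hna (M.qf_of_ne hna ha)))
      (hbase nb hnb (M.qf_of_ne hnb hb))
  have key : ∀ x : ↥(Cfsg.isometryGroup (ZMod 2) ⇑Q),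
      x ∈ Subgroup.closure (Cfsg.Agent.Lib.Helper52.pairSet Q) →
      ∀ hx : x ∈ Cfsg.Omega (ZMod 2) ⇑Q, f ⟨x, hx⟩ = 0 := by
    intro x hx
    induction hx using Subgroup.closure_induction with
    | mem x hx =>
      intro hx'
      obtain ⟨u, v, hu, hv, rfl⟩ := Cfsg.Agent.Lib.Helper52.eq_refl_mul_refl_of_mem_pairSet Q hx
      have e : (⟨Cfsg.Agent.Lib.Helper51.refl Q u hu * Cfsg.Agent.Lib.Helper51.refl Q v hv, hx'⟩ :
          ↥(Cfsg.Omega (ZMod 2) ⇑Q)) = pr hΩ u v := Subtype.ext (pr_val hΩ hu hv).symm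
      rw [e]
      exact hpair u v hu hv
    | one =>
      intro hx'
      exact f_one f hf
    | mul a b ha hb iha ihb =>
      intro hx'
      have ha' : a ∈ Cfsg.Omega (ZMod 2) ⇑Q := by
        show a ∈ commutator ↥(Cfsg.isometryGroup (ZMod 2) ⇑Q)
        rw [hΩ]; exact ha
      have hb' : b ∈ Cfsg.Omega (ZMod 2) ⇑Q := by
        show b ∈ commutator ↥(Cfsg.isometryGroup (ZMod 2) ⇑Q)
        rw [hΩ]; exact hb
      have e : (⟨a * b, hx'⟩ : ↥(Cfsg.Omega (ZMod 2) ⇑Q)) = ⟨a, ha'⟩ * ⟨b, hb'⟩ := rfl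
      rw [e]
      exact f_mul_zero f hf (iha ha') (ihb hb')
    | inv a ha iha =>
      intro hx'
      have ha' : a ∈ Cfsg.Omega (ZMod 2) ⇑Q := by
        show a ∈ commutator ↥(Cfsg.isometryGroup (ZMod 2) ⇑Q)
        rw [hΩ]; exact ha
      have e : (⟨a⁻¹, hx'⟩ : ↥(Cfsg.Omega (ZMod 2) ⇑Q)) = (⟨a, ha'⟩ : ↥(Cfsg.Omega (ZMod 2) ⇑Q))⁻¹ := rfl
      rw [e]
      exact f_inv_zero f hf (iha ha')
  intro g
  have hg : (g : ↥(Cfsg.isometryGroup (ZMod 2) ⇑Q)) ∈
      Subgroup.closure (Cfsg.Agent.Lib.Helper52.pairSet Q) := by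
    rw [← hΩ]; exact g.2
  exact key g.1 hg g.2

end crossed

/-- The full check of a certificate: `S` is the list of steps, the first one being the element `y`. -/
def chk (qf : ℕ → Bool) (Tm : ℕ → ℕ → ℕ) (d u0 : ℕ)
    (S : List (List (ℕ × ℕ) × List (List (List (ℕ × ℕ) × Bool × Bool)))) : Bool :=
  match S with
  | [] => false
  | s0 :: r => chkFpf qf Tm d s0.1 && (chkSteps qf Tm d [s0.1] r && chkCov qf d u0 (r.map Prod.fst))

/-- A crossed homomorphism vanishing on `y` vanishes. -/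
theorem vanish_of_chk (M : Mdl Q d dec qf)
    (hT : ∀ u x, u < 2 ^ d → x < 2 ^ d → qf u = true → Tm u x = T qf u x) (u0 : ℕ)
    (s0 : List (ℕ × ℕ) × List (List (List (ℕ × ℕ) × Bool × Bool)))
    (r : List (List (ℕ × ℕ) × List (List (List (ℕ × ℕ) × Bool × Bool))))
    (hsteps : chkSteps qf Tm d [s0.1] r = true) (hcov : chkCov qf d u0 (r.map Prod.fst) = true)
    (f : ↥(Cfsg.Omega (ZMod 2) ⇑Q) → (ι → ZMod 2))
    (hf : ∀ g h, f (g * h) = f g + mv Q g (f h)) (hy : f (elt hΩ dec s0.1) = 0) :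
    ∀ g, f g = 0 := by
  unfold chkCov at hcov
  rw [Bool.and_eq_true, Bool.and_eq_true] at hcov
  obtain ⟨c1, c2, c3⟩ := hcov
  have hu0 : u0 < 2 ^ d := Nat.blt_eq.mp c1
  have hall := steps_spec hΩ f hf M hT r [s0.1] (by
    intro L hL
    rw [List.mem_singleton] at hL
    rw [hL]; exact hy) hsteps
  apply vanish_of_base hΩ f hf M u0 hu0 c2
  intro v hv hqv
  have h1 := allN_spec _ _ c3 v hv
  rw [hqv, Bool.not_true, Bool.false_or, Bool.or_eq_true] at h1
  rcases h1 with h1 | h1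
  · rw [Nat.eq_of_beq_eq_true h1, pr_self]
    exact f_one f hf
  · have h2 := memL_spec _ _ h1
    rw [List.mem_map] at h2
    obtain ⟨s, hs, hs1⟩ := h2
    have h3 := hall s hs
    rw [hs1, elt_cons, elt_nil, mul_one] at h3
    exact h3

include hΩ in
/-- The main theorem: every crossed homomorphism of `Ω` into the natural module is principal. -/
theorem h1_vanish (M : Mdl Q d dec qf)
    (hT : ∀ u x, u < 2 ^ d → x < 2 ^ d → qf u = true → Tm u x = T qf u x) (u0 : ℕ)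
    (S : List (List (ℕ × ℕ) × List (List (List (ℕ × ℕ) × Bool × Bool))))
    (hchk : chk qf Tm d u0 S = true) :
    ∀ f : ↥(Cfsg.Omega (ZMod 2) ⇑Q) → (ι → ZMod 2),
      (∀ g h : ↥(Cfsg.Omega (ZMod 2) ⇑Q), f (g * h) = f g + Matrix.mulVec
        (((g : ↥(Cfsg.isometryGroup (ZMod 2) ⇑Q)) : Matrix.GeneralLinearGroup ι (ZMod 2)) :
          Matrix ι ι (ZMod 2)) (f h)) →
      ∃ v : ι → ZMod 2, ∀ g : ↥(Cfsg.Omega (ZMod 2) ⇑Q), f g = Matrix.mulVec
        (((g : ↥(Cfsg.isometryGroup (ZMod 2) ⇑Q)) : Matrix.GeneralLinearGroup ι (ZMod 2)) :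
          Matrix ι ι (ZMod 2)) v - v := by
  intro f hf
  cases S with
  | nil => exact absurd hchk Bool.false_ne_true
  | cons s0 r =>
    have hchk' : (chkFpf qf Tm d s0.1 && (chkSteps qf Tm d [s0.1] r && chkCov qf d u0 (r.map Prod.fst))) = true :=
      hchk
    rw [Bool.and_eq_true, Bool.and_eq_true] at hchk'
    obtain ⟨k1, k2, k3⟩ := hchk'
    unfold chkFpf at k1
    rw [Bool.and_eq_true] at k1
    obtain ⟨k0, k1⟩ := k1
    -- the map `x ↦ y x - x` is injective, hence surjective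
    have hinj : Function.Injective (fun x : ι → ZMod 2 => mv Q (elt hΩ dec s0.1) x - x) := by
      intro x x' hxx
      have h1 : mv Q (elt hΩ dec s0.1) (x - x') = x - x' := by
        have h2 : mv Q (elt hΩ dec s0.1) x - x = mv Q (elt hΩ dec s0.1) x' - x' := hxx
        rw [mv_sub]
        exact sub_eq_sub_iff_sub_eq_sub.mp h2
      obtain ⟨n, hn, hd⟩ := M.surj (x - x')
      rw [← hd, (actL_spec hΩ M hT s0.1 k0 n hn).1] at h1
      have h3 := M.inj _ _ (actL_spec hΩ M hT s0.1 k0 n hn).2 hn h1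
      have h4 := allN_spec _ _ k1 n hn
      rw [Bool.or_eq_true] at h4
      rcases h4 with h4 | h4
      · rw [Nat.eq_of_beq_eq_true h4, M.dec_zero] at hd
        exact sub_eq_zero.mp hd.symm
      · exfalso
        rw [Bool.not_eq_true'] at h4
        rw [h3] at h4
        have h5 : Nat.beq n n = true := Nat.beq_refl n
        rw [h5] at h4
        exact Bool.noConfusion h4
    obtain ⟨a, ha⟩ := (Finite.injective_iff_surjective.mp hinj) (f (elt hΩ dec s0.1))
    have ha' : mv Q (elt hΩ dec s0.1) a - a = f (elt hΩ dec s0.1) := ha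
    refine ⟨a, ?_⟩
    have hz := vanish_of_chk hΩ M hT u0 s0 r k2 k3 (fun g => f g - (mv Q g a - a)) (by
      intro g h
      show f (g * h) - (mv Q (g * h) a - a) = f g - (mv Q g a - a) + mv Q g (f h - (mv Q h a - a))
      have h1 : f (g * h) = f g + mv Q g (f h) := hf g h
      rw [h1, mv_mul, mv_sub, mv_sub]
      abel) (by
      show f (elt hΩ dec s0.1) - (mv Q (elt hΩ dec s0.1) a - a) = 0
      rw [ha', sub_self])
    intro g
    have h2 : f g - (mv Q g a - a) = 0 := hz g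
    exact sub_eq_zero.mp h2

/-- A model with another (pointwise equal) form on masks. -/
theorem Mdl.congr (M : Mdl Q d dec qf) {qf' : ℕ → Bool} (h : ∀ n, n < 2 ^ d → qf' n = qf n) :
    Mdl Q d dec qf' :=
  ⟨M.dec_xor, M.surj, M.inj, fun n hn => by rw [h n hn]; exact M.hq n hn⟩

end real

/-- The check that a fast reflection function agrees with the model reflection. -/
def chkT (qf : ℕ → Bool) (Tm : ℕ → ℕ → ℕ) (d : ℕ) : Bool :=
  allN (fun u => !(qf u) || allN (fun x => Nat.beq (Tm u x) (T qf u x)) (2 ^ d)) (2 ^ d)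

theorem chkT_spec {qf : ℕ → Bool} {Tm : ℕ → ℕ → ℕ} {d : ℕ} (h : chkT qf Tm d = true) :
    ∀ u x, u < 2 ^ d → x < 2 ^ d → qf u = true → Tm u x = T qf u x := by
  intro u x hu hx hq
  have h1 := allN_spec _ _ h u hu
  rw [hq, Bool.not_true, Bool.false_or] at h1
  exact Nat.eq_of_beq_eq_true (allN_spec _ _ h1 x hx)

end Cfsg.Agent.Lib.Helper39.H1
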