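import Mathlib
import Cfsg.Agent.Lib.Helper39.H1Core
import Cfsg.Agent.Lib.Helper39.H1Data4
import Cfsg.Agent.Lib.Helper39.H1Data6
import Cfsg.Agent.Lib.Helper39.H1Data8
import Cfsg.Agent.Lib.Helper20.H1MDL
import Cfsg.Agent.Lib.Helper54.H1HO4
import Cfsg.Agent.Lib.Helper52.ReflChar2
import Cfsg.Agent.Lib.Helper52.OmegaPlus
import Cfsg.Agent.Lib.Helper7.OmegaCenter
import Cfsg.Agent.Lib.Helper7.GOMinusOrder

set_option autoImplicit false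

/-!
# Vanishing of first cohomology of `Ω⁻(4,2)`, `Ω⁻(6,2)`, `Ω⁺(8,2)` on the natural module

The three instances of `h1_vanish`, transported to the frozen quadratic functions.
-/

namespace Cfsg.Agent.Lib.Helper39.H1

/-- Every crossed homomorphism of `Ω(q)` into the natural module is principal. -/
def H1Stmt (ι : Type) [Fintype ι] [DecidableEq ι] (q : (ι → ZMod 2) → ZMod 2) : Prop :=
  ∀ f : ↥(Cfsg.Omega (ZMod 2) q) → (ι → ZMod 2),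
    (∀ g h : ↥(Cfsg.Omega (ZMod 2) q), f (g * h) = f g + Matrix.mulVec
      (((g : ↥(Cfsg.isometryGroup (ZMod 2) q)) : Matrix.GeneralLinearGroup ι (ZMod 2)) :
        Matrix ι ι (ZMod 2)) (f h)) →
    ∃ v : ι → ZMod 2, ∀ g : ↥(Cfsg.Omega (ZMod 2) q), f g = Matrix.mulVec
      (((g : ↥(Cfsg.isometryGroup (ZMod 2) q)) : Matrix.GeneralLinearGroup ι (ZMod 2)) :
        Matrix ι ι (ZMod 2)) v - v

theorem two_eq_zero_zmod2 : (2 : ZMod 2) = 0 := by decide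

theorem hab_zmod2 : ∀ z₁ z₂ : ZMod 2, z₁ ^ 2 + 1 * z₁ * z₂ + 1 * z₂ ^ 2 = 0 → z₁ = 0 ∧ z₂ = 0 := by
  decide

theorem h1_stmt8' : H1Stmt (Fin 4 ⊕ Fin 4) ⇑(Cfsg.Agent.Lib.Helper51.QPlus 4 (ZMod 2)) :=
  h1_vanish
    (Cfsg.Agent.Lib.Helper52.commutator_eq_pair_two (Cfsg.Agent.Lib.Helper51.QPlus 4 (ZMod 2))
      two_eq_zero_zmod2 Cfsg.Agent.Lib.Helper52.QPlus_nondegenerate
      (Or.inr (by rw [Fintype.card_sum, Fintype.card_fin]; omega)))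
    mdl8 (chkT_spec hT8) 17 S8 chk8

theorem h1_stmt6' :
    H1Stmt ((Fin 2 ⊕ Fin 2) ⊕ Fin 2) ⇑(Cfsg.Agent.Lib.Helper51.QMinus 2 (ZMod 2) 1 1) :=
  h1_vanish
    (Cfsg.Agent.Lib.Helper52.commutator_eq_pair_two (Cfsg.Agent.Lib.Helper51.QMinus 2 (ZMod 2) 1 1)
      two_eq_zero_zmod2
      (Cfsg.Agent.Lib.Helper7.polarBilin_nondegenerate_of
        (Cfsg.Agent.Lib.Helper51.QMinus 2 (ZMod 2) 1 1)
        (Cfsg.Agent.Lib.Helper7.QMinus_nondeg 2 1 1 hab_zmod2))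
      (Or.inr (by rw [Fintype.card_sum, Fintype.card_sum, Fintype.card_fin]; omega)))
    mdl6 (chkT_spec hT6) 5 S6 chk6

theorem h1_stmt4' :
    H1Stmt ((Fin 1 ⊕ Fin 1) ⊕ Fin 2) ⇑(Cfsg.Agent.Lib.Helper51.QMinus 1 (ZMod 2) 1 1) :=
  h1_vanish comm_eq_pair_four mdl4 (chkT_spec hT4) 3 S4 chk4

theorem h1_stmt8 : H1Stmt (Fin 4 ⊕ Fin 4) (Cfsg.quadFormPlus 4 (ZMod 2)) :=
  Cfsg.Agent.Lib.Helper51.coe_QPlus 4 (ZMod 2) ▸ h1_stmt8'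

theorem h1_stmt6 : H1Stmt ((Fin 2 ⊕ Fin 2) ⊕ Fin 2) (Cfsg.quadFormMinus 2 (ZMod 2) 1 1) :=
  Cfsg.Agent.Lib.Helper51.coe_QMinus 2 (ZMod 2) 1 1 ▸ h1_stmt6'

theorem h1_stmt4 : H1Stmt ((Fin 1 ⊕ Fin 1) ⊕ Fin 2) (Cfsg.quadFormMinus 1 (ZMod 2) 1 1) :=
  Cfsg.Agent.Lib.Helper51.coe_QMinus 1 (ZMod 2) 1 1 ▸ h1_stmt4'

end Cfsg.Agent.Lib.Helper39.H1
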