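import Mathlib
import Cfsg.Agent.Lib.Helper22.HPDefs
import Cfsg.Agent.Lib.Helper31.HPETA

/-!
# S4504 piece HP-LOCAL-VAL (helper39, for helper4): the values of `χ` on the powers of `z`
are Gauss periods
-/

set_option autoImplicit false

namespace Cfsg.Agent.Lib.Helper39.HPT

open Cfsg Cfsg.Agent.Lib.Helper22.BFD Cfsg.Agent.Lib.Helper22.HPD
open scoped ComplexConjugate

universe u

theorem locval_mem_Ef {G : Type u} [Group G] [Fintype G] (p : ℕ) [Fact p.Prime] (z : G)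
    (k : ZMod p) : k ∈ Ef p z ↔ IsConj (z ^ k.val) z := by
  classical
  simp [Ef]

theorem locval_mem_Sq (p : ℕ) [Fact p.Prime] (k : ZMod p) :
    k ∈ Sq p ↔ k ≠ 0 ∧ IsSquare k := by
  classical
  simp [Sq]

/-- exponents may be multiplied modulo `p` -/
theorem locval_pow_mul {M : Type*} [Monoid M] (p : ℕ) [Fact p.Prime] (w : M) (hw : w ^ p = 1)
    (x y : ZMod p) : w ^ (x * y).val = w ^ (x.val * y.val) := by
  rw [ZMod.val_mul, ← pow_eq_pow_mod _ hw]

theorem local_val {G : Type u} [Group G] [Fintype G] (p : ℕ) [Fact p.Prime] (z : G)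
    (hz : orderOf z = p) (χ : G → ℂ) (e : ℕ) (hχ1 : χ 1 = (e : ℂ)) (he : 2 * e + 1 = p)
    (ζ : ℂ) (hζ : IsPrimitiveRoot ζ p) (a : ZMod p → ℕ) (u₀ : ZMod p) (hu₀ : u₀ ≠ 0)
    (ha : ∀ t : ZMod p, χ (z ^ t.val) = ∑ u : ZMod p, (a u : ℂ) * ζ ^ (u * t).val)
    (hst : ∀ k ∈ Ef p z, ∀ u : ZMod p, a (k * u) = a u)
    (hW : ∀ u : ZMod p, a u ≠ 0 → ∃ k ∈ Ef p z, u = k * u₀)
    (hEf : (Ef p z).card = e) :
    Ef p z = Sq p ∧ ∃ ζ' : ℂ, IsPrimitiveRoot ζ' p ∧ ∀ t : ZMod p, χ (z ^ t.val) = eta p ζ' t := by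
  classical
  have hp : p.Prime := Fact.out
  have hp2 : p ≠ 2 := by omega
  have hzp : z ^ p = 1 := by rw [← hz]; exact pow_orderOf_eq_one z
  have hζp : ζ ^ p = 1 := hζ.pow_eq_one
  have hz1 : z ≠ 1 := by
    intro h
    rw [h, orderOf_one] at hz
    exact hp.one_lt.ne hz
  -- basic properties of `Ef`
  have h1E : (1 : ZMod p) ∈ Ef p z := by
    rw [locval_mem_Ef]
    have h1 : (1 : ZMod p).val = 1 := by
      haveI : Fact (1 < p) := ⟨hp.one_lt⟩
      exact ZMod.val_one p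
    rw [h1, pow_one]
  have h0E : (0 : ZMod p) ∉ Ef p z := by
    rw [locval_mem_Ef, ZMod.val_zero, pow_zero, isConj_one_right]
    exact hz1
  have hmulE : ∀ k ∈ Ef p z, ∀ k' ∈ Ef p z, k * k' ∈ Ef p z := by
    intro k hk k' hk'
    rw [locval_mem_Ef] at hk hk' ⊢
    rw [locval_pow_mul p z hzp, pow_mul]
    obtain ⟨c, hc⟩ := isConj_iff.1 hk
    have h1 : IsConj ((z ^ k.val) ^ k'.val) (z ^ k'.val) := by
      refine isConj_iff.2 ⟨c, ?_⟩
      rw [← conj_pow, hc]
    exact h1.trans hk'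
  have he1 : 1 ≤ e := by
    rw [← hEf]
    exact Finset.card_pos.2 ⟨1, h1E⟩
  -- the support of `a`
  have hinj : Function.Injective (fun k : ZMod p => k * u₀) :=
    fun x y hxy => mul_right_cancel₀ hu₀ hxy
  have hout : ∀ u : ZMod p, u ∉ (Ef p z).image (fun k : ZMod p => k * u₀) → a u = 0 := by
    intro u hu
    by_contra h
    obtain ⟨k, hk, rfl⟩ := hW u h
    exact hu (Finset.mem_image.2 ⟨k, hk, rfl⟩)
  have hin : ∀ u ∈ (Ef p z).image (fun k : ZMod p => k * u₀), a u = a u₀ := by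
    intro u hu
    obtain ⟨k, hk, rfl⟩ := Finset.mem_image.1 hu
    exact hst k hk u₀
  have hsum : ∑ u : ZMod p, a u = e := by
    have h1 := ha 0
    rw [ZMod.val_zero, pow_zero, hχ1] at h1
    have h2 : ∑ u : ZMod p, (a u : ℂ) * ζ ^ (u * 0).val = ((∑ u : ZMod p, a u : ℕ) : ℂ) := by
      rw [Nat.cast_sum]
      refine Finset.sum_congr rfl (fun u _ => ?_)
      rw [mul_zero, ZMod.val_zero, pow_zero, mul_one]
    rw [h2] at h1
    exact_mod_cast h1.symm
  have hau0 : a u₀ = 1 := by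
    have h1 : ∑ u : ZMod p, a u = ∑ u ∈ (Ef p z).image (fun k : ZMod p => k * u₀), a u :=
      (Finset.sum_subset (Finset.subset_univ _) (fun u _ hu => hout u hu)).symm
    rw [hsum, Finset.sum_congr rfl hin, Finset.sum_const, Finset.card_image_of_injective _ hinj,
      hEf, smul_eq_mul] at h1
    have h2 : e * 1 = e * a u₀ := by rw [mul_one]; exact h1
    exact (Nat.eq_of_mul_eq_mul_left (by omega) h2).symm
  have hval : ∀ t : ZMod p, χ (z ^ t.val) = ∑ k ∈ Ef p z, ζ ^ ((k * u₀) * t).val := by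
    intro t
    rw [ha t]
    have h1 : ∑ u : ZMod p, (a u : ℂ) * ζ ^ (u * t).val =
        ∑ u ∈ (Ef p z).image (fun k : ZMod p => k * u₀), (a u : ℂ) * ζ ^ (u * t).val :=
      (Finset.sum_subset (Finset.subset_univ _)
        (fun u _ hu => by rw [hout u hu, Nat.cast_zero, zero_mul])).symm
    rw [h1, Finset.sum_image (fun x _ y _ hxy => hinj hxy)]
    refine Finset.sum_congr rfl (fun k hk => ?_)
    rw [hin _ (Finset.mem_image.2 ⟨k, hk, rfl⟩), hau0, Nat.cast_one, one_mul]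
  -- `Ef ⊆ Sq`
  have hsub : Ef p z ⊆ Sq p := by
    intro k hk
    have hk0 : k ≠ 0 := fun h => h0E (h ▸ hk)
    rw [locval_mem_Sq]
    refine ⟨hk0, ?_⟩
    have himg : (Ef p z).image (fun x : ZMod p => k * x) = Ef p z := by
      apply Finset.eq_of_subset_of_card_le
      · intro y hy
        obtain ⟨x, hx, rfl⟩ := Finset.mem_image.1 hy
        exact hmulE k hk x hx
      · rw [Finset.card_image_of_injective _ (fun x y hxy => mul_left_cancel₀ hk0 hxy)]
    have hprod : ∏ x ∈ Ef p z, x = k ^ e * ∏ x ∈ Ef p z, x := by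
      conv_lhs => rw [← himg]
      rw [Finset.prod_image (fun x _ y _ hxy => mul_left_cancel₀ hk0 hxy),
        Finset.prod_mul_distrib, Finset.prod_const, hEf]
    have hP0 : ∏ x ∈ Ef p z, x ≠ 0 := by
      rw [Finset.prod_ne_zero_iff]
      intro x hx h
      exact h0E (h ▸ hx)
    have hke : k ^ e = 1 := by
      have h2 : 1 * ∏ x ∈ Ef p z, x = k ^ e * ∏ x ∈ Ef p z, x := by rw [one_mul]; exact hprod
      exact (mul_right_cancel₀ hP0 h2).symm
    have hpe : p / 2 = e := by omega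
    rw [ZMod.euler_criterion p hk0, hpe]
    exact hke
  have hEq : Ef p z = Sq p := by
    apply Finset.eq_of_subset_of_card_le hsub
    rw [Cfsg.Agent.Lib.Helper31.HPT.eta_aux_card p hp2, hEf]
    omega
  refine ⟨hEq, ζ ^ u₀.val, ?_, ?_⟩
  · apply hζ.pow_of_coprime
    rw [Nat.coprime_comm, Nat.Prime.coprime_iff_not_dvd hp]
    intro hdvd
    have h1 : 0 < u₀.val := Nat.pos_of_ne_zero (fun h => hu₀ ((ZMod.val_eq_zero u₀).1 h))
    have h2 : u₀.val < p := ZMod.val_lt u₀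
    exact absurd (Nat.le_of_dvd h1 hdvd) (by omega)
  · intro t
    rw [hval t, hEq]
    unfold eta
    refine Finset.sum_congr rfl (fun k _ => ?_)
    have h1 : (k * u₀) * t = u₀ * (k * t) := by ring
    rw [h1, locval_pow_mul p ζ hζp, pow_mul]

end Cfsg.Agent.Lib.Helper39.HPT
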