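import Cfsg.Agent.Lib.Helper96.HyDefs
import Cfsg.Agent.Lib.Helper98.O72Defs

/-!
Project HY (S5992, helper96), piece TYPSUM: the type of an orthogonal sum of two nondegenerate
subspaces is the product of the types.
-/

set_option autoImplicit false
set_option linter.unusedSectionVars false
set_option linter.unusedVariables false

namespace Cfsg.Agent.Lib.Helper39.Hy

open Module Polynomial Cfsg.Agent.Lib.Helper96.Sp Cfsg.Agent.Lib.Helper96.Hy
  Cfsg.Agent.Lib.Helper47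

universe u

variable {F : Type u} [Field F] [Fintype F] {V : Type u} [AddCommGroup V] [Module F V]
  [FiniteDimensional F V] {B : LinearMap.BilinForm F V}

-- PIECE TYPSUM
theorem typ_sup (p : ℕ) [Fact p.Prime] [CharP F p] (hS : B.IsSymm) (h2 : (2 : F) ≠ 0)
    (X Y : Submodule F V) (ε₁ ε₂ : ℤ) (hX : ND B X) (hY : ND B Y) (hXY : Orth B X Y)
    (h₁ : Typ B X ε₁) (h₂ : Typ B Y ε₂) : Typ B (X ⊔ Y) (ε₁ * ε₂) := by
  classical
  obtain ⟨k₁, hk₁, hT₁⟩ := h₁
  obtain ⟨k₂, hk₂, hT₂⟩ := h₂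
  have : Finite V := Module.finite_of_finite F
  have hfr := (Cfsg.Agent.Lib.Helper98.O72.nd_sup hS h2 hX hY hXY).2
  refine ⟨k₁ + k₂ + 1, by rw [hfr, hk₁, hk₂]; ring, ?_⟩
  have hprod := (qfacts (F := F) p).typ_prod (fun w : X => B (w : V) (w : V))
    (fun w : Y => B (w : V) (w : V)) hT₁ hT₂
  have hdisj : ∀ z : V, z ∈ X → z ∈ Y → z = 0 := by
    intro z hzX hzY
    apply hX z hzX
    intro v hv
    rw [Cfsg.Agent.Lib.Helper98.O72.sym_swap hS h2]
    exact hXY v hv z hzY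
  let e : X × Y → ↥(X ⊔ Y) :=
    fun q => ⟨(q.1 : V) + (q.2 : V), Submodule.add_mem_sup q.1.2 q.2.2⟩
  have hinj : Function.Injective e := by
    rintro ⟨x, y⟩ ⟨x', y'⟩ hxy
    have h0 : (x : V) + (y : V) = (x' : V) + (y' : V) := congrArg Subtype.val hxy
    have h1 : (x : V) - (x' : V) = (y' : V) - (y : V) := by
      rw [sub_eq_sub_iff_add_eq_add, h0, add_comm]
    have h3 : (x : V) - (x' : V) = 0 :=
      hdisj _ (X.sub_mem x.2 x'.2) (by rw [h1]; exact Y.sub_mem y'.2 y.2)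
    have h4 : (y' : V) - (y : V) = 0 := by rw [← h1]; exact h3
    have hx : x = x' := Subtype.ext (sub_eq_zero.mp h3)
    have hy : y = y' := Subtype.ext (sub_eq_zero.mp h4).symm
    rw [hx, hy]
  have hsurj : Function.Surjective e := by
    rintro ⟨w, hw⟩
    obtain ⟨x, hx, y, hy, rfl⟩ := Submodule.mem_sup.mp hw
    exact ⟨(⟨x, hx⟩, ⟨y, hy⟩), rfl⟩
  refine IsTyp.of_equiv (Equiv.ofBijective e ⟨hinj, hsurj⟩) ?_ hprod
  rintro ⟨x, y⟩
  show B ((x : V) + (y : V)) ((x : V) + (y : V)) = B (x : V) (x : V) + B (y : V) (y : V)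
  have h5 : B (x : V) (y : V) = 0 := hXY x x.2 y y.2
  have h6 : B (y : V) (x : V) = 0 := by
    rw [Cfsg.Agent.Lib.Helper98.O72.sym_swap hS h2]
    exact h5
  simp only [map_add, LinearMap.add_apply, h5, h6]
  ring

end Cfsg.Agent.Lib.Helper39.Hy
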