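import Mathlib
import Cfsg.Agent.Lib.Helper58.JEDefs
import Cfsg.Agent.Lib.Helper94.JcTH

/-!
S2948 project JE (helper58), piece A4: a member `T` of `𝒯*(M)` contained in a 2-local subgroup
`L ≰ M` is a Sylow 2-subgroup of `L`.
-/

set_option autoImplicit false

namespace Cfsg.Agent.Lib.Helper39.JE

open Cfsg.Agent.Lib.Helper58.JE Cfsg.Agent.Lib.Helper72.JL Cfsg.Agent.Lib.Helper72.SC
  Cfsg.Agent.Lib.Helper78.Jc

universe u

/-- `a(S)` is the order of any elementary abelian 2-subgroup of `S` of largest order -/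
theorem a4_order_eq {G : Type*} [Group G] [Finite G] (S A : Subgroup G) (hA : IsMaxEA S A) :
    Cfsg.maxElemAbelianOrder S = Nat.card A := by
  have hmem := Cfsg.Agent.Lib.Helper94.Jc.th_mem_of S A hA
  obtain ⟨hea, hcard⟩ := Cfsg.Agent.Lib.Helper94.Jc.th_ea_of S A hA.1 hA.2.1 hA.2.2.1
  have himg : (fun B : Subgroup ↥S => Nat.card ↥B) '' Cfsg.maxElementaryAbelianSubgroups 2 ↥S =
      {Nat.card A} := by
    ext n
    rw [Set.mem_image, Set.mem_singleton_iff]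
    constructor
    · rintro ⟨B, hB, rfl⟩
      have h1 := hB.2 _ hea
      have h2 := hmem.2 B hB.1
      show Nat.card ↥B = Nat.card ↥A
      omega
    · intro hn
      exact ⟨A.subgroupOf S, hmem, by rw [hn, hcard]⟩
  unfold Cfsg.maxElemAbelianOrder
  rw [himg, csSup_singleton]

theorem a4 : A4Stmt.{u} := by
  intro G _ _ M T L hT hL hLM hTL hyp
  classical
  have hF : Fact (Nat.Prime 2) := ⟨Nat.prime_two⟩
  obtain ⟨hTs, hmax⟩ := hT
  obtain ⟨hT2, hTne, hTM, _⟩ := hTs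
  have hT2L : IsPGroup 2 ↥(T.subgroupOf L) := hT2.comap_subtype
  obtain ⟨Q, hQ⟩ := hT2L.exists_le_sylow
  have hTT₀ : T ≤ (Q : Subgroup ↥L).map L.subtype := by
    intro t ht
    exact ⟨⟨t, hTL ht⟩, hQ (Subgroup.mem_subgroupOf.mpr ht), rfl⟩
  have hT₀L : (Q : Subgroup ↥L).map L.subtype ≤ L := Subgroup.map_subtype_le _
  have hT₀2 : IsPGroup 2 ↥((Q : Subgroup ↥L).map L.subtype) := Q.2.map _
  have hT₀odd : Odd (((Q : Subgroup ↥L).map L.subtype).relIndex L) := by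
    have h1 : ((Q : Subgroup ↥L).map L.subtype).subgroupOf L = (Q : Subgroup ↥L) :=
      Subgroup.comap_map_eq_self_of_injective (Subgroup.subtype_injective L) _
    unfold Subgroup.relIndex
    rw [h1, ← Nat.not_even_iff_odd, even_iff_two_dvd]
    exact Q.not_dvd_index
  have hSyl : Cfsg.IsSylowTwoIn ((Q : Subgroup ↥L).map L.subtype) L := ⟨hT₀L, hT₀2, hT₀odd⟩
  obtain ⟨hJ, hT₀s⟩ := hyp _ hSyl ((Cfsg.Agent.Lib.Helper94.Jc.th_le_self T).trans hTT₀)
  obtain ⟨h1, h2⟩ := hmax _ hT₀s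
  obtain ⟨A, hA⟩ := Cfsg.Agent.Lib.Helper94.Jc.th_exists T
  obtain ⟨A₀, hA₀⟩ := Cfsg.Agent.Lib.Helper94.Jc.th_exists ((Q : Subgroup ↥L).map L.subtype)
  have h3 : Cfsg.maxElemAbelianOrder T ≤
      Cfsg.maxElemAbelianOrder ((Q : Subgroup ↥L).map L.subtype) := by
    rw [a4_order_eq T A hA, a4_order_eq _ A₀ hA₀]
    exact hA₀.2.2.2 A (hA.1.trans hTT₀) hA.2.1 hA.2.2.1
  have h4 := (h2 (le_antisymm h1 h3)).2 (by rw [hJ])
  have h5 : T = (Q : Subgroup ↥L).map L.subtype := Subgroup.eq_of_le_of_card_ge hTT₀ h4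
  rw [h5]
  exact hSyl

end Cfsg.Agent.Lib.Helper39.JE
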