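import Mathlib
import Cfsg.Agent.Lib.Helper72.JMDefs
import Cfsg.Agent.Lib.Helper82.JcOCPC

/-!
S2943 project JM, piece EXTD (helper39 for helper72): pull the 3-group `O_3(Hs 2 Gb)` back from
`V ⋊ Aut V` to `Aut V` (as in JL-EXTB), together with its commutativity (from JM-EXTC).
-/

set_option autoImplicit false

namespace Cfsg.Agent.Lib.Helper39.JM

open Cfsg.Agent.Lib.Helper72.JM Cfsg.Agent.Lib.Helper72.JL Cfsg.Agent.Lib.Helper72.SC
  Cfsg.Agent.Lib.Helper78.Jc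

open scoped commutatorElement

universe u

/-- the image of `O_p(K)` is stable under conjugation by the normalizer of `K` -/
theorem extd_aux_conj {G : Type*} [Group G] (p : ℕ) (K : Subgroup G) {g : G}
    (hg : g ∈ Subgroup.normalizer (K : Set G)) :
    ∀ y ∈ (Cfsg.pCore p ↥K).map K.subtype, g * y * g⁻¹ ∈ (Cfsg.pCore p ↥K).map K.subtype := by
  rintro _ ⟨y, hy, rfl⟩
  have hn : (Cfsg.pCore p ↥K).Normal := Cfsg.Agent.Lib.Helper82.Jc.pCore_normal_aux p ↥K
  have hle : (Cfsg.pCore p ↥K).map (Cfsg.Agent.Lib.Helper82.Jc.conjNorm K g hg).toMonoidHom ≤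
      Cfsg.pCore p ↥K :=
    le_sSup ⟨hn.map _ (Cfsg.Agent.Lib.Helper82.Jc.conjNorm K g hg).surjective,
      (Cfsg.Agent.Lib.Helper82.Jc.pCore_isPGroup_aux p ↥K).map _⟩
  exact ⟨Cfsg.Agent.Lib.Helper82.Jc.conjNorm K g hg y, hle (Subgroup.mem_map_of_mem _ hy), rfl⟩

theorem extd (h1 : FfaStmt.{u}) (h2 : FfbStmt.{u}) (h3 : ExtaStmt.{u}) (h4 : ExtcStmt.{u}) :
    Ext2Stmt.{u} := by
  intro V _ _ Gb hab hexp hsolv hcore
  have : Fact (Nat.Prime 2) := ⟨Nat.prime_two⟩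
  obtain ⟨hV, hHup, hupN, hHV, hf, hS3⟩ := h1 V 2 Gb hab hexp
  have hS1 := h2 V 2 Gb hab hexp hsolv hcore
  have hfinA : Finite (MulAut V) :=
    Finite.of_injective (fun (e : MulAut V) => (e : V → V)) DFunLike.coe_injective
  have hfinG : Finite (Gam V) :=
    Finite.of_equiv (V × MulAut V) SemidirectProduct.equivProd.symm
  have key := h3 (Gam V) (Vs V) (Hs 2 Gb) hV hHV hf hS1 hS3
  have key2 := h4 (Gam V) (Vs V) (Hs 2 Gb) hV hHV hf hS1 hS3
  have hinj : Function.Injective (SemidirectProduct.inr : MulAut V →* Gam V) :=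
    SemidirectProduct.inr_injective
  have hN3H : (Cfsg.pCore 3 ↥(Hs 2 Gb)).map (Hs 2 Gb).subtype ≤ Hs 2 Gb :=
    Subgroup.map_subtype_le _
  refine ⟨((Cfsg.pCore 3 ↥(Hs 2 Gb)).map (Hs 2 Gb).subtype).comap
    (SemidirectProduct.inr : MulAut V →* Gam V), ?_, ?_, ?_, ?_, ?_⟩
  · intro n hn
    have h5 : (SemidirectProduct.inr n : Gam V) ∈ up Gb := hHup (hN3H (Subgroup.mem_comap.mp hn))
    obtain ⟨g, hg, hgn⟩ := h5
    rw [← hinj hgn]
    exact hg
  · intro g hg n hn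
    rw [Subgroup.mem_comap] at hn ⊢
    have hgN : (SemidirectProduct.inr g : Gam V) ∈
        Subgroup.normalizer ((Hs 2 Gb : Subgroup (Gam V)) : Set (Gam V)) :=
      hupN (Subgroup.mem_map_of_mem _ hg)
    have h6 := extd_aux_conj 3 (Hs 2 Gb) hgN _ hn
    rw [map_mul, map_mul, map_inv]
    exact h6
  · exact ((Cfsg.Agent.Lib.Helper82.Jc.pCore_isPGroup_aux 3 ↥(Hs 2 Gb)).map _).comap_of_injective
      _ hinj
  · intro x hx
    rw [Subgroup.mem_comap, map_mul]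
    exact key _ hx
  · intro a ha b hb
    rw [Subgroup.mem_comap] at ha hb
    apply hinj
    rw [map_mul, map_mul]
    exact key2 _ ha _ hb

end Cfsg.Agent.Lib.Helper39.JM
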