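import Cfsg.Agent.Lib.Helper38.CosetCore

set_option maxRecDepth 100000
set_option maxHeartbeats 0

namespace Cfsg.Agent.Lib.Helper39.OJA
open Cfsg.Agent.Lib.Helper38

noncomputable def rT0 : BT := .leaf 0x1941511005e480002d280694821513000bc940001a8000b85305504818a80000da0000011018240000e10000b600000101c2080000c40003a280696800000040c54c0003480003c
noncomputable def nT0 : BT := .leaf 0x0

end Cfsg.Agent.Lib.Helper39.OJA
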