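import Cfsg.Agent.Lib.Helper39.OJBData

set_option maxRecDepth 100000
set_option maxHeartbeats 0

namespace Cfsg.Agent.Lib.Helper39.OJB
open Cfsg.Agent.Lib.Helper38 

theorem chkN_0 : allFrom 0 500 cert.chkN = true := by decide +kernel
theorem chkN_1 : allFrom 500 500 cert.chkN = true := by decide +kernel
theorem chkN_2 : allFrom 1000 463 cert.chkN = true := by decide +kernel

theorem chkN_f0 : allFrom 0 1463 cert.chkN = true :=
  (allFrom_join (lo := 0) (a := 1000) (b := 463) (allFrom_join (lo := 0) (a := 500) (b := 500) chkN_0 chkN_1) chkN_2)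

end Cfsg.Agent.Lib.Helper39.OJB
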