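import Cfsg.Agent.Lib.Helper39.OJBData

set_option maxRecDepth 100000
set_option maxHeartbeats 0

namespace Cfsg.Agent.Lib.Helper39.OJB
open Cfsg.Agent.Lib.Helper38 

theorem chkV_56 : allFrom 28000 500 cert.chkV = true := by decide +kernel
theorem chkV_57 : allFrom 28500 500 cert.chkV = true := by decide +kernel
theorem chkV_58 : allFrom 29000 500 cert.chkV = true := by decide +kernel
theorem chkV_59 : allFrom 29500 500 cert.chkV = true := by decide +kernel
theorem chkV_60 : allFrom 30000 500 cert.chkV = true := by decide +kernel
theorem chkV_61 : allFrom 30500 500 cert.chkV = true := by decide +kernel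
theorem chkV_62 : allFrom 31000 42 cert.chkV = true := by decide +kernel

theorem chkV_f7 : allFrom 28000 3042 cert.chkV = true :=
  (allFrom_join (lo := 28000) (a := 3000) (b := 42) (allFrom_join (lo := 28000) (a := 2500) (b := 500) (allFrom_join (lo := 28000) (a := 2000) (b := 500) (allFrom_join (lo := 28000) (a := 1500) (b := 500) (allFrom_join (lo := 28000) (a := 1000) (b := 500) (allFrom_join (lo := 28000) (a := 500) (b := 500) chkV_56 chkV_57) chkV_58) chkV_59) chkV_60) chkV_61) chkV_62)

end Cfsg.Agent.Lib.Helper39.OJB
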