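import Cfsg.Agent.Lib.Helper38.CosetCore

set_option maxRecDepth 100000
set_option maxHeartbeats 0

namespace Cfsg.Agent.Lib.Helper39.OJC
open Cfsg.Agent.Lib.Helper38

noncomputable def rT0 : BT := .node 3 (.node 2 (.node 1 (.leaf 0x6000000000004520700c7c70000c61a14000000000031c518032018000118704000000000004718500c8450000c8120c0000000000324310032210000120502000000000004910300c8c30000ca0a04000000000032c108032408000128300000000000004b08100c9410000cc0000000000010449e5000326000001301) (.leaf 0xe000000000003d40f00c5cf0000be3a3400000000002fcd380318380000f8f0c000000000003f38d00c64d0000c0322c0000000000304b30031a30000100d0a000000000004130b00c6cb0000c22a24000000000030c928031c28000108b08000000000004328900c7490000c4221c0000000000314720031e200001109)) (.leaf 0x16000000000003561700c3d70000b65a5400000000002dd5580310580000d9714000000000003759500c4550000b8524c00000000002e53500312500000e1512000000000003951300c4d30000ba4a4400000000002ed1480314480000e9310000000000003b49100c5510000bc423c00000000002f4f400316400000f11)) (.node 4 (.leaf 0x1e000000000002d81f00c1df0000ae7a7400000000002bdd780308780000b9f1c000000000002f79d00c25d0000b0726c00000000002c5b70030a700000c1d1a000000000003171b00c2db0000b26a6400000000002cd968030c680000c9b18000000000003369900c3590000b4625c00000000002d5760030e600000d19)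 (.leaf 0x24000000004112702500c0650000a8928c00000000002a63900302900000a2522000000000002992300c0e30000aa8a8400000000002ae1880304880000aa320000000000002b8a100c1610000ac827c00000000002b5f800306800000b21))
noncomputable def nT0 : BT := .node 2 (.node 1 (.leaf 0x7c69069e88003a31f30e40001a1639e696000c0a80e30a0005c48c49668002a22120a3000120e29648e00080688a2060003c28828e48001a12310620000a0618e2860004029061020001c08408628000a02500210000200086080000000002001) (.leaf 0xfcea0ebf08007a71771e80003a367beeb6001c1a61e71a000dcc9ccb6e8006a61961a7000322e6b6cae00181669a616000bca98aaec8005a51b51660002a265aeaa60014127165120009c8948a6a8004a41d4125000221e4a689e00100e79240e)) (.leaf 0x4a469c92c60024225259220011d0a50c728008a8158229000423e8c70be00201e5a281e)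

end Cfsg.Agent.Lib.Helper39.OJC
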