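import Cfsg.Agent.Lib.Helper39.OJCD0

set_option maxRecDepth 100000
set_option maxHeartbeats 0

namespace Cfsg.Agent.Lib.Helper39.OJC
open Cfsg.Agent.Lib.Helper38

noncomputable def rTRoot : BT := rT0
noncomputable def nTRoot : BT := nT0

/-- the certificate -/
noncomputable def cert : Cert where
  g := 3
  m := 38
  n := 38
  R := 77
  fuel := 2
  nw := 5
  nrel := 2
  nsub := 5
  lg := 3
  lmask := 7
  rW := 126
  eW := 30
  mv := 63
  mr := 127
  mw := 7
  mt := 63
  ml := 3
  oR := 6
  oK := 13
  oW := 15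
  oT := 18
  oU := 24
  oM := 90
  oMR := 96
  oMW := 103
  oMT := 106
  oMU := 112
  oP := 118
  oL := 124
  rows := rTRoot
  wW := 82
  wt := 6
  wl := 2
  WD := 0x2820000000000000000005080000000000000000000200000000000000000010622222222222222222226
  lgN := 4
  lmaskN := 15
  nW := 49
  wv := 6
  oCan := 18
  oPN := 24
  oLN := 30
  oComp := 32
  mc := 63
  oOP := 38
  oOW := 44
  oOD := 47
  md := 1
  oODir := 48
  ncomp := 38
  ROOTS := 0x9648e28607de75c6da6585d65544d24503ce34c2ca2481c61440c2040
  nrows := nTRoot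

end Cfsg.Agent.Lib.Helper39.OJC
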