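import Cfsg.Agent.Lib.Helper39.OJSData

set_option maxRecDepth 100000
set_option maxHeartbeats 0

namespace Cfsg.Agent.Lib.Helper39.OJS
open Cfsg.Agent.Lib.Helper38 

theorem chkN_8 : allFrom 4000 500 cert.chkN = true := by decide +kernel
theorem chkN_9 : allFrom 4500 120 cert.chkN = true := by decide +kernel

theorem chkN_f1 : allFrom 4000 620 cert.chkN = true :=
  (allFrom_join (lo := 4000) (a := 500) (b := 120) chkN_8 chkN_9)

end Cfsg.Agent.Lib.Helper39.OJS
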