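import Cfsg.Agent.Lib.Helper39.OJSData

set_option maxRecDepth 100000
set_option maxHeartbeats 0

namespace Cfsg.Agent.Lib.Helper39.OJS
open Cfsg.Agent.Lib.Helper38 

theorem chkV_16 : allFrom 8000 500 cert.chkV = true := by decide +kernel
theorem chkV_17 : allFrom 8500 500 cert.chkV = true := by decide +kernel
theorem chkV_18 : allFrom 9000 500 cert.chkV = true := by decide +kernel
theorem chkV_19 : allFrom 9500 45 cert.chkV = true := by decide +kernel

theorem chkV_f2 : allFrom 8000 1545 cert.chkV = true :=
  (allFrom_join (lo := 8000) (a := 1500) (b := 45) (allFrom_join (lo := 8000) (a := 1000) (b := 500) (allFrom_join (lo := 8000) (a := 500) (b := 500) chkV_16 chkV_17) chkV_18) chkV_19)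

end Cfsg.Agent.Lib.Helper39.OJS
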