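import Cfsg.Agent.Lib.Helper39.OJSV0
import Cfsg.Agent.Lib.Helper39.OJSV1
import Cfsg.Agent.Lib.Helper39.OJSV2

set_option maxRecDepth 100000
set_option maxHeartbeats 0

namespace Cfsg.Agent.Lib.Helper39.OJS
open Cfsg.Agent.Lib.Helper38 

theorem chkV_all : ∀ v < 9545, cert.chkV v = true := by
  have h : allFrom 0 9545 cert.chkV = true :=
    (allFrom_join (lo := 0) (a := 8000) (b := 1545) (allFrom_join (lo := 0) (a := 4000) (b := 4000) chkV_f0 chkV_f1) chkV_f2)
  intro v hv
  exact allFrom_iff.mp h v (Nat.zero_le _) (by omega)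

end Cfsg.Agent.Lib.Helper39.OJS
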