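import Cfsg.Agent.Lib.Helper38.CosetCore

set_option maxRecDepth 100000
set_option maxHeartbeats 0

namespace Cfsg.Agent.Lib.Helper39.OJT
open Cfsg.Agent.Lib.Helper38

noncomputable def rT0 : BT := .node 1 (.leaf 0x9c0b20800000000000000002920180b28000000000000000002b05000a1c04084c00000b500000008d0141840002e3000035400000048c149480000e40000bc8000000840a888000030100003cc000097408140400001020000c40000048000000004084c500004440000b6) (.leaf 0x600b0c40000000000000000241)
noncomputable def nT0 : BT := .leaf 0x0

end Cfsg.Agent.Lib.Helper39.OJT
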