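import Cfsg.Agent.Lib.Helper39.OJTData

set_option maxRecDepth 100000
set_option maxHeartbeats 0

namespace Cfsg.Agent.Lib.Helper39.OJT
open Cfsg.Agent.Lib.Helper38 

theorem chkN_0 : allFrom 0 1 cert.chkN = true := by decide +kernel

theorem chkN_f0 : allFrom 0 1 cert.chkN = true :=
  chkN_0

end Cfsg.Agent.Lib.Helper39.OJT
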