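import Cfsg.Agent.Lib.Helper39.OJTData

set_option maxRecDepth 100000
set_option maxHeartbeats 0

namespace Cfsg.Agent.Lib.Helper39.OJT
open Cfsg.Agent.Lib.Helper38 

theorem chkV_0 : allFrom 0 9 cert.chkV = true := by decide +kernel

theorem chkV_f0 : allFrom 0 9 cert.chkV = true :=
  chkV_0

end Cfsg.Agent.Lib.Helper39.OJT
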