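import Cfsg.Agent.Lib.Helper38.CosetCore

set_option maxRecDepth 100000
set_option maxHeartbeats 0

namespace Cfsg.Agent.Lib.Helper39.OMA
open Cfsg.Agent.Lib.Helper38

noncomputable def rT0 : BT := .leaf 0x1221590800142c044760000022a11320002a200000280f25a585256000000000b0c01a5a8374c68000b460223ea03c9a84f2040000460002e1006970042a100000aa000190000bc00000000001ac00039000079
noncomputable def nT0 : BT := .leaf 0x0

end Cfsg.Agent.Lib.Helper39.OMA
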