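import Cfsg.Agent.Lib.Helper39.OMAD0

set_option maxRecDepth 100000
set_option maxHeartbeats 0

namespace Cfsg.Agent.Lib.Helper39.OMA
open Cfsg.Agent.Lib.Helper38

noncomputable def rTRoot : BT := rT0
noncomputable def nTRoot : BT := nT0

/-- the certificate -/
noncomputable def cert : Cert where
  g := 3
  m := 7
  n := 1
  R := 16
  fuel := 5
  nw := 12
  nrel := 9
  nsub := 12
  lg := 3
  lmask := 7
  rW := 95
  eW := 23
  mv := 7
  mr := 31
  mw := 15
  mt := 63
  ml := 3
  oR := 3
  oK := 8
  oW := 10
  oT := 14
  oU := 20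
  oM := 69
  oMR := 72
  oMW := 77
  oMT := 81
  oMU := 87
  oP := 90
  oL := 93
  rows := rTRoot
  wW := 72
  wt := 6
  wl := 2
  WD := 0x28200000000000000014200000000000000000200000000000000264400000000000000220400000000000000110400000000001111110c00618619899249249e00618918992462491d02649926499264991e924924924924924921000000000000266648
  lgN := 4
  lmaskN := 15
  nW := 27
  wv := 3
  oCan := 9
  oPN := 12
  oLN := 15
  oComp := 17
  mc := 1
  oOP := 18
  oOW := 21
  oOD := 25
  md := 1
  oODir := 26
  ncomp := 1
  ROOTS := 0x0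
  nrows := nTRoot

end Cfsg.Agent.Lib.Helper39.OMA
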