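import Cfsg.Agent.Lib.Helper39.OMBData

set_option maxRecDepth 100000
set_option maxHeartbeats 0

namespace Cfsg.Agent.Lib.Helper39.OMB
open Cfsg.Agent.Lib.Helper38 

theorem chkV_24 : allFrom 12000 500 cert.chkV = true := by decide +kernel
theorem chkV_25 : allFrom 12500 500 cert.chkV = true := by decide +kernel
theorem chkV_26 : allFrom 13000 500 cert.chkV = true := by decide +kernel
theorem chkV_27 : allFrom 13500 500 cert.chkV = true := by decide +kernel
theorem chkV_28 : allFrom 14000 500 cert.chkV = true := by decide +kernel
theorem chkV_29 : allFrom 14500 500 cert.chkV = true := by decide +kernel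
theorem chkV_30 : allFrom 15000 500 cert.chkV = true := by decide +kernel
theorem chkV_31 : allFrom 15500 500 cert.chkV = true := by decide +kernel

theorem chkV_f3 : allFrom 12000 4000 cert.chkV = true :=
  (allFrom_join (lo := 12000) (a := 3500) (b := 500) (allFrom_join (lo := 12000) (a := 3000) (b := 500) (allFrom_join (lo := 12000) (a := 2500) (b := 500) (allFrom_join (lo := 12000) (a := 2000) (b := 500) (allFrom_join (lo := 12000) (a := 1500) (b := 500) (allFrom_join (lo := 12000) (a := 1000) (b := 500) (allFrom_join (lo := 12000) (a := 500) (b := 500) chkV_24 chkV_25) chkV_26) chkV_27) chkV_28) chkV_29) chkV_30) chkV_31)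

end Cfsg.Agent.Lib.Helper39.OMB
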