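import Cfsg.Agent.Lib.Helper39.OMBData

set_option maxRecDepth 100000
set_option maxHeartbeats 0

namespace Cfsg.Agent.Lib.Helper39.OMB
open Cfsg.Agent.Lib.Helper38 

theorem chkV_40 : allFrom 20000 500 cert.chkV = true := by decide +kernel
theorem chkV_41 : allFrom 20500 500 cert.chkV = true := by decide +kernel
theorem chkV_42 : allFrom 21000 500 cert.chkV = true := by decide +kernel
theorem chkV_43 : allFrom 21500 500 cert.chkV = true := by decide +kernel
theorem chkV_44 : allFrom 22000 500 cert.chkV = true := by decide +kernel
theorem chkV_45 : allFrom 22500 500 cert.chkV = true := by decide +kernel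
theorem chkV_46 : allFrom 23000 101 cert.chkV = true := by decide +kernel

theorem chkV_f5 : allFrom 20000 3101 cert.chkV = true :=
  (allFrom_join (lo := 20000) (a := 3000) (b := 101) (allFrom_join (lo := 20000) (a := 2500) (b := 500) (allFrom_join (lo := 20000) (a := 2000) (b := 500) (allFrom_join (lo := 20000) (a := 1500) (b := 500) (allFrom_join (lo := 20000) (a := 1000) (b := 500) (allFrom_join (lo := 20000) (a := 500) (b := 500) chkV_40 chkV_41) chkV_42) chkV_43) chkV_44) chkV_45) chkV_46)

end Cfsg.Agent.Lib.Helper39.OMB
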