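import Cfsg.Agent.Lib.Helper38.CosetCore

set_option maxRecDepth 100000
set_option maxHeartbeats 0

namespace Cfsg.Agent.Lib.Helper39.OMC
open Cfsg.Agent.Lib.Helper38

noncomputable def rT0 : BT := .node 2 (.node 1 (.leaf 0x84712d88001704000000000000020000000002cb0001750002e8a0944bc10005f0800000000000084000000000ca400180200034880313080001880000000000000200000000003870006300000e9800000000001f280010100019000000000000110c0008c4000481) (.leaf 0x94f127a80014140000000000000a0000000001530000b900028aa4344a480005340000000000000a00000000006c40015100001d08cb12a9800158c0000000000002600000000020f00057300008ba2244b040005920000000000000100000000009b4000518000b44)) (.leaf 0xa97120d00010a800000000000052b090e4000892000000000000285448b00004680000000000000c000000000015c0012214010f29d3124b800129c0000000000002e0000000000960004b750043d2644498c0004d60000000000000300000000003540002280009cc)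
noncomputable def nT0 : BT := .leaf 0x2d4d16950014a24a42c0090f04ace0040672146001d2b0e54800c914622000506829c600202310c2000d0906128004804201000100108c00000000041

end Cfsg.Agent.Lib.Helper39.OMC
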