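import Cfsg.Agent.Lib.Helper39.OMCD0

set_option maxRecDepth 100000
set_option maxHeartbeats 0

namespace Cfsg.Agent.Lib.Helper39.OMC
open Cfsg.Agent.Lib.Helper38

noncomputable def rTRoot : BT := rT0
noncomputable def nTRoot : BT := nT0

/-- the certificate -/
noncomputable def cert : Cert where
  g := 3
  m := 24
  n := 12
  R := 37
  fuel := 3
  nw := 5
  nrel := 2
  nsub := 5
  lg := 3
  lmask := 7
  rW := 105
  eW := 25
  mv := 31
  mr := 63
  mw := 7
  mt := 15
  ml := 3
  oR := 5
  oK := 11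
  oW := 13
  oT := 16
  oU := 20
  oM := 75
  oMR := 80
  oMW := 86
  oMT := 89
  oMU := 93
  oP := 98
  oL := 103
  rows := rTRoot
  wW := 28
  wt := 4
  wl := 2
  WD := 0xa2000005200000020000021444444c
  lgN := 4
  lmaskN := 15
  nW := 41
  wv := 5
  oCan := 15
  oPN := 20
  oLN := 25
  oComp := 27
  mc := 15
  oOP := 31
  oOW := 36
  oOD := 39
  md := 1
  oODir := 40
  ncomp := 12
  ROOTS := 0x5a928398a418820
  nrows := nTRoot

end Cfsg.Agent.Lib.Helper39.OMC
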