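import Cfsg.Agent.Lib.Helper39.OMSData

set_option maxRecDepth 100000
set_option maxHeartbeats 0

namespace Cfsg.Agent.Lib.Helper39.OMS
open Cfsg.Agent.Lib.Helper38 

theorem chkV_128 : allFrom 64000 500 cert.chkV = true := by decide +kernel
theorem chkV_129 : allFrom 64500 500 cert.chkV = true := by decide +kernel
theorem chkV_130 : allFrom 65000 500 cert.chkV = true := by decide +kernel
theorem chkV_131 : allFrom 65500 500 cert.chkV = true := by decide +kernel
theorem chkV_132 : allFrom 66000 500 cert.chkV = true := by decide +kernel
theorem chkV_133 : allFrom 66500 500 cert.chkV = true := by decide +kernel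
theorem chkV_134 : allFrom 67000 500 cert.chkV = true := by decide +kernel
theorem chkV_135 : allFrom 67500 500 cert.chkV = true := by decide +kernel

theorem chkV_f16 : allFrom 64000 4000 cert.chkV = true :=
  (allFrom_join (lo := 64000) (a := 3500) (b := 500) (allFrom_join (lo := 64000) (a := 3000) (b := 500) (allFrom_join (lo := 64000) (a := 2500) (b := 500) (allFrom_join (lo := 64000) (a := 2000) (b := 500) (allFrom_join (lo := 64000) (a := 1500) (b := 500) (allFrom_join (lo := 64000) (a := 1000) (b := 500) (allFrom_join (lo := 64000) (a := 500) (b := 500) chkV_128 chkV_129) chkV_130) chkV_131) chkV_132) chkV_133) chkV_134) chkV_135)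

end Cfsg.Agent.Lib.Helper39.OMS
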