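import Cfsg.Agent.Lib.Helper39.OMSData

set_option maxRecDepth 100000
set_option maxHeartbeats 0

namespace Cfsg.Agent.Lib.Helper39.OMS
open Cfsg.Agent.Lib.Helper38 

theorem chkV_152 : allFrom 76000 500 cert.chkV = true := by decide +kernel
theorem chkV_153 : allFrom 76500 500 cert.chkV = true := by decide +kernel
theorem chkV_154 : allFrom 77000 500 cert.chkV = true := by decide +kernel
theorem chkV_155 : allFrom 77500 265 cert.chkV = true := by decide +kernel

theorem chkV_f19 : allFrom 76000 1765 cert.chkV = true :=
  (allFrom_join (lo := 76000) (a := 1500) (b := 265) (allFrom_join (lo := 76000) (a := 1000) (b := 500) (allFrom_join (lo := 76000) (a := 500) (b := 500) chkV_152 chkV_153) chkV_154) chkV_155)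

end Cfsg.Agent.Lib.Helper39.OMS
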