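import Cfsg.Agent.Lib.Helper39.OMSV0
import Cfsg.Agent.Lib.Helper39.OMSV1
import Cfsg.Agent.Lib.Helper39.OMSV2
import Cfsg.Agent.Lib.Helper39.OMSV3
import Cfsg.Agent.Lib.Helper39.OMSV4
import Cfsg.Agent.Lib.Helper39.OMSV5
import Cfsg.Agent.Lib.Helper39.OMSV6
import Cfsg.Agent.Lib.Helper39.OMSV7
import Cfsg.Agent.Lib.Helper39.OMSV8
import Cfsg.Agent.Lib.Helper39.OMSV9
import Cfsg.Agent.Lib.Helper39.OMSV10
import Cfsg.Agent.Lib.Helper39.OMSV11
import Cfsg.Agent.Lib.Helper39.OMSV12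
import Cfsg.Agent.Lib.Helper39.OMSV13
import Cfsg.Agent.Lib.Helper39.OMSV14
import Cfsg.Agent.Lib.Helper39.OMSV15
import Cfsg.Agent.Lib.Helper39.OMSV16
import Cfsg.Agent.Lib.Helper39.OMSV17
import Cfsg.Agent.Lib.Helper39.OMSV18
import Cfsg.Agent.Lib.Helper39.OMSV19

set_option maxRecDepth 100000
set_option maxHeartbeats 0

namespace Cfsg.Agent.Lib.Helper39.OMS
open Cfsg.Agent.Lib.Helper38 

theorem chkV_all : ∀ v < 77765, cert.chkV v = true := by
  have h : allFrom 0 77765 cert.chkV = true :=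
    (allFrom_join (lo := 0) (a := 76000) (b := 1765) (allFrom_join (lo := 0) (a := 72000) (b := 4000) (allFrom_join (lo := 0) (a := 68000) (b := 4000) (allFrom_join (lo := 0) (a := 64000) (b := 4000) (allFrom_join (lo := 0) (a := 60000) (b := 4000) (allFrom_join (lo := 0) (a := 56000) (b := 4000) (allFrom_join (lo := 0) (a := 52000) (b := 4000) (allFrom_join (lo := 0) (a := 48000) (b := 4000) (allFrom_join (lo := 0) (a := 44000) (b := 4000) (allFrom_join (lo := 0) (a := 40000) (b := 4000) (allFrom_join (lo := 0) (a := 36000) (b := 4000) (allFrom_join (lo := 0) (a := 32000) (b := 4000) (allFrom_join (lo := 0) (a := 28000) (b := 4000) (allFrom_join (lo := 0) (a := 24000) (b := 4000) (allFrom_join (lo := 0) (a := 20000) (b := 4000) (allFrom_join (lo := 0) (a := 16000) (b := 4000) (allFrom_join (lo := 0) (a := 12000) (b := 4000) (allFrom_join (lo := 0) (a := 8000) (b := 4000) (allFrom_join (lo := 0) (a := 4000) (b := 4000) chkV_f0 chkV_f1) chkV_f2)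 chkV_f3) chkV_f4) chkV_f5) chkV_f6) chkV_f7) chkV_f8) chkV_f9) chkV_f10) chkV_f11) chkV_f12) chkV_f13) chkV_f14) chkV_f15) chkV_f16) chkV_f17) chkV_f18) chkV_f19)
  intro v hv
  exact allFrom_iff.mp h v (Nat.zero_le _) (by omega)

end Cfsg.Agent.Lib.Helper39.OMS
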