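import Cfsg.Agent.Lib.Helper39.ONSub
import Cfsg.Agent.Lib.Helper39.OMData
import Cfsg.Agent.Lib.Helper39.OMSV
import Cfsg.Agent.Lib.Helper39.OMSN
import Cfsg.Agent.Lib.Helper39.OMCV
import Cfsg.Agent.Lib.Helper39.OMCN
import Cfsg.Agent.Lib.Helper39.OMBV
import Cfsg.Agent.Lib.Helper39.OMBN
import Cfsg.Agent.Lib.Helper39.OMTV
import Cfsg.Agent.Lib.Helper39.OMTN
import Cfsg.Agent.Lib.Helper39.OMAV
import Cfsg.Agent.Lib.Helper39.OMAN
import Cfsg.Agent.Lib.Helper39.OMBO

/-!
A subgroup of the presented O'Nan group isomorphic to the Mathieu group M₁₁: simple of order 7920.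

* `Q` is the group presented by three involutions and the relators `WQ`; its order is at most
  7920 by the enumerations over a dihedral subgroup (index 660) and of the dihedral group
  (order 12), and at least 7920 by a base on the 165 cosets of the centraliser `B` of
  the involution `t`.
* `Q` is simple by Iwasawa's criterion: `B` is maximal of trivial core and centralises `t`, the
  normal closure of `t` is `Q`, and `Q` is perfect (both by enumerations giving the trivial
  group).
* The generators are mapped to products of words in the O'Nan group; the relators are checked by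
  tracing a base of the O'Nan group on the 122760 cosets of `⟨a, …, f⟩`.
-/

set_option maxRecDepth 100000
set_option maxHeartbeats 0
set_option linter.unusedSimpArgs false
set_option linter.unusedVariables false

namespace Cfsg.Agent.Lib.Helper39.OMOrd

open Cfsg.Agent.Lib.Helper38 Cfsg.Agent.Lib.Helper39 Cfsg.Agent.Lib.Helper39.Ord

/-- the group presented by three involutions -/
abbrev Q : Type := WP 3 WQ

/-- its generators -/
noncomputable abbrev δ : ℕ → Q := WP.gen 3 WQ

theorem hδ : ∀ s, δ s * δ s = 1 := WP.gen_mul_self 3 WQ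

theorem wordsS : (List.range OMS.cert.nrel).map OMS.cert.wordL = WQ := by decide +kernel
theorem wordsB : (List.range OMB.cert.nrel).map OMB.cert.wordL = WQ := by decide +kernel
theorem wordsC : (List.range OMC.cert.nrel).map OMC.cert.wordL = WC := by decide +kernel
theorem wordsT : (List.range OMT.cert.nrel).map OMT.cert.wordL = WQ ++ [tw] := by decide +kernel
theorem wordsA : (List.range OMA.cert.nrel).map OMA.cert.wordL = WQ ++ WA := by decide +kernel

theorem chkGS : OMS.cert.chkG = true := by decide +kernel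
theorem chkGB : OMB.cert.chkG = true := by decide +kernel
theorem chkGC : OMC.cert.chkG = true := by decide +kernel
theorem chkGT : OMT.cert.chkG = true := by decide +kernel
theorem chkGA : OMA.cert.chkG = true := by decide +kernel

/-- the centraliser of `t` -/
noncomputable abbrev B : Subgroup Q := OMB.cert.subgp δ

theorem hPS : Cert.Pres OMS.cert δ (OMS.cert.subgp δ) := WP.pres OMS.cert WQ wordsS OMS.chkN_all
theorem hCS : Cert.Checks OMS.cert := ⟨OMS.chkV_all, OMS.chkN_all, chkGS⟩
theorem hPB : Cert.Pres OMB.cert δ B := WP.pres OMB.cert WQ wordsB OMB.chkN_all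
theorem hCB : Cert.Checks OMB.cert := ⟨OMB.chkV_all, OMB.chkN_all, chkGB⟩
theorem chkRootsB : OMB.cert.chkRoots = true := by decide +kernel
theorem hOB : Cert.OChecks OMB.cert := ⟨OMB.chkO_all, chkRootsB⟩
theorem hPC : Cert.Pres OMC.cert (WP.gen OMC.cert.g WC) (OMC.cert.subgp (WP.gen OMC.cert.g WC)) :=
  WP.pres OMC.cert WC wordsC OMC.chkN_all
theorem hCC : Cert.Checks OMC.cert := ⟨OMC.chkV_all, OMC.chkN_all, chkGC⟩
theorem hPT : Cert.Pres OMT.cert (WP.gen OMT.cert.g (WQ ++ [tw]))
    (OMT.cert.subgp (WP.gen OMT.cert.g (WQ ++ [tw]))) :=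
  WP.pres OMT.cert (WQ ++ [tw]) wordsT OMT.chkN_all
theorem hCT : Cert.Checks OMT.cert := ⟨OMT.chkV_all, OMT.chkN_all, chkGT⟩
theorem hPA : Cert.Pres OMA.cert (WP.gen OMA.cert.g (WQ ++ WA))
    (OMA.cert.subgp (WP.gen OMA.cert.g (WQ ++ WA))) :=
  WP.pres OMA.cert (WQ ++ WA) wordsA OMA.chkN_all
theorem hCA : Cert.Checks OMA.cert := ⟨OMA.chkV_all, OMA.chkN_all, chkGA⟩

theorem cardC : Finite (WP 3 WC) ∧ Nat.card (WP 3 WC) = 12 := ub_bot hPC hCC (by decide)
theorem cardT : Finite (WP 3 (WQ ++ [tw])) ∧ Nat.card (WP 3 (WQ ++ [tw])) = 1 :=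
  ub_bot hPT hCT (by decide)
theorem cardA : Finite (WP 3 (WQ ++ WA)) ∧ Nat.card (WP 3 (WQ ++ WA)) = 1 :=
  ub_bot hPA hCA (by decide)

theorem okS : ∀ w ∈ WC, okw WQ (actL [0, 1]) w = true := by decide +kernel

theorem subS : allFrom OMS.cert.nsub (Nat.sub OMS.cert.nw OMS.cert.nsub)
    (fun wid => (OMS.cert.wordL wid).all (actL [0, 1])) = true := by decide +kernel

theorem cardQ_le : Finite Q ∧ Nat.card Q ≤ 7920 := by
  haveI : Finite (WP 3 WC) := cardC.1
  have h := ub_step hPS hCS WQ (fun w hw => WP.gen_word 3 WQ hw) 3 WC (actL [0, 1])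
    (actL_ge [0, 1] 3 (by decide)) okS (Cert.hsub_of subS)
  refine ⟨h.1, ?_⟩
  have h2 : Nat.card Q ≤ 660 * Nat.card (WP 3 WC) := h.2
  rw [cardC.2] at h2
  omega

instance finQ : Finite Q := cardQ_le.1

/-! ### A base on the cosets of `B` -/

theorem hAB : TAct OMB.cert δ (OMB.cert.F δ B) := tact_of hPB hCB

/-- the labelling of the cosets of `B` -/
noncomputable abbrev FB : ℕ → Q ⧸ B := OMB.cert.F δ B

/-- the base points with their orbit lengths -/
def chainL : List (ℕ × ℕ) := [(0, 165), (33, 8), (17, 3), (1, 2)]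

theorem lv0 : 165 ≤ (MulAction.orbit (PSt Q FB []) (FB 0)).ncard := top_orbit hAB 0
theorem lv1 : 8 ≤ (MulAction.orbit (PSt Q FB [0]) (FB 33)).ncard :=
  reach_tree hAB [0] cw1 (by decide +kernel) 33 (by decide +kernel) ct1 (by decide +kernel)
    (by decide +kernel)
theorem lv2 : 3 ≤ (MulAction.orbit (PSt Q FB [33, 0]) (FB 17)).ncard :=
  reach_tree hAB [33, 0] cw2 (by decide +kernel) 17 (by decide +kernel) ct2 (by decide +kernel)
    (by decide +kernel)
theorem lv3 : 2 ≤ (MulAction.orbit (PSt Q FB [17, 33, 0]) (FB 1)).ncard :=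
  reach_tree hAB [17, 33, 0] cw3 (by decide +kernel) 1 (by decide +kernel) ct3 (by decide +kernel)
    (by decide +kernel)

theorem chain : ChainF Q FB [] chainL := by
  simp only [chainL, ChainF]
  exact ⟨lv0, lv1, lv2, lv3, trivial⟩

theorem prodL : (chainL.map Prod.snd).prod = 7920 := by decide +kernel

theorem obQ : Nat.card Q = (chainL.map Prod.snd).prod ∧
    ∀ g : Q, (∀ p ∈ chainL.map Prod.fst, g • FB p = FB p) → g = 1 :=
  order_baseF FB chainL chain (by rw [prodL]; exact cardQ_le.2)

/-- the order of `Q` -/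
theorem cardQ : Nat.card Q = 7920 := obQ.1.trans prodL

/-- the word `w` fixes the base points -/
noncomputable def chkB (w : List ℕ) : Bool :=
  (chainL.map Prod.fst).all (fun p => fixB OMB.cert w p)

/-- a word fixing the base points is trivial -/
theorem word_oneQ (w : List ℕ) (h : chkB w = true) : (w.map δ).prod = 1 := by
  apply obQ.2
  intro p hp
  exact fix_of hAB (List.all_eq_true.mp h p hp)

/-! ### Simplicity -/

/-- the involution `t` -/
noncomputable abbrev t : Q := (tw.map δ).prod

theorem wB0 : OMB.cert.wordL 9 = bw0 := by decide +kernel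
theorem wB1 : OMB.cert.wordL 10 = bw1 := by decide +kernel
theorem wB2 : OMB.cert.wordL 11 = bw2 := by decide +kernel

theorem nrm (bw : List ℕ) (k1 k2 : ℕ)
    (h1 : chkB (bw ++ (tw ++ (bw.reverse ++ (List.replicate k1 tw.reverse).flatten))) = true)
    (h2 : chkB (bw.reverse ++ (tw ++ (bw.reverse.reverse ++
      (List.replicate k2 tw.reverse).flatten))) = true) :
    (bw.map δ).prod * t * ((bw.map δ).prod)⁻¹ ∈ Subgroup.zpowers t ∧
      ((bw.map δ).prod)⁻¹ * t * (bw.map δ).prod ∈ Subgroup.zpowers t := by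
  constructor
  · rw [ONOrd.conj_pow_of_word hδ bw tw k1 (word_oneQ _ h1)]
    exact pow_mem (Subgroup.mem_zpowers _) _
  · have e := ONOrd.conj_pow_of_word hδ bw.reverse tw k2 (word_oneQ _ h2)
    rw [prod_reverse_inv hδ, inv_inv] at e
    rw [e]
    exact pow_mem (Subgroup.mem_zpowers _) _

theorem hzB : ∀ b ∈ B, b * t * b⁻¹ ∈ Subgroup.zpowers t := by
  refine conj_mem_zpowers_of_closure' ?_
  rintro _ ⟨wid, h1, h2, rfl⟩
  have h1' : 9 ≤ wid := h1
  have h2' : wid < 12 := h2
  interval_cases wid
  · rw [wB0]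
    exact nrm bw0 1 1 (by decide +kernel) (by decide +kernel)
  · rw [wB1]
    exact nrm bw1 1 1 (by decide +kernel) (by decide +kernel)
  · rw [wB2]
    exact nrm bw2 1 1 (by decide +kernel) (by decide +kernel)

theorem rootB : OMB.cert.root 0 = 0 := by decide +kernel

theorem chkMDB : allB OMB.cert.ncomp (fun j => bor (Nat.beq j 0)
    (chkMaxJ OMB.cert j (MDB.getD j ([], [])).1 (MDB.getD j ([], [])).2)) = true := by
  decide +kernel

theorem maxB (M : Subgroup Q) (hM : B ≤ M) : M = B ∨ M = ⊤ :=
  maximal_of_reach hPB hCB hOB rootB MDB chkMDB M hM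

theorem coreB (K : Subgroup Q) (hK : K.Normal) (hKB : K ≤ B) : K = ⊥ := by
  have := hK
  rw [eq_bot_iff]
  intro k hk
  rw [Subgroup.mem_bot]
  exact obQ.2 k (fun p _ => normal_le_fix K B hKB hk _)

theorem nclT : Subgroup.normalClosure ({t} : Set Q) = ⊤ :=
  top_of_quotient_cert 3 WQ [tw] _ (by
    intro w hw
    rw [List.mem_singleton] at hw
    subst hw
    exact Subgroup.subset_normalClosure (Set.mem_singleton _)) cardT.2

theorem perfQ (N : Subgroup Q) (hN : N.Normal) (hcomm : ∀ a b : Q, a * b * a⁻¹ * b⁻¹ ∈ N) :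
    N = ⊤ := by
  have := hN
  refine top_of_quotient_cert 3 WQ WA N ?_ cardA.2
  intro w hw
  have key : ∀ i j : ℕ, ([i, j, i, j].map δ).prod ∈ N := by
    intro i j
    have h := hcomm (δ i) (δ j)
    have e : ([i, j, i, j].map δ).prod = δ i * δ j * (δ i)⁻¹ * (δ j)⁻¹ := by
      rw [inv_eq_of_mul_eq_one_left (hδ i), inv_eq_of_mul_eq_one_left (hδ j)]
      simp only [List.map_cons, List.map_nil, List.prod_cons, List.prod_nil, mul_one, mul_assoc]
    rw [e]
    exact h
  simp only [WA, List.mem_cons, List.not_mem_nil, or_false] at hw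
  rcases hw with rfl | rfl | rfl <;> exact key _ _

instance ntQ : Nontrivial Q := by
  rw [← Finite.one_lt_card_iff_nontrivial, cardQ]
  norm_num

/-- **Simplicity.** -/
theorem simpleQ : IsSimpleGroup Q :=
  simple_of_iwasawa' B (Subgroup.zpowers t) maxB (zpowers_conj hzB) (zpowers_comm t)
    (normalClosure_zpowers_top t nclT) perfQ coreB

/-! ### The embedding into the O'Nan group -/

theorem relG_0 : ONSub.chkRel OW (WQ.getD 0 []) = true := by decide +kernel
theorem relG_1 : ONSub.chkRel OW (WQ.getD 1 []) = true := by decide +kernel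
theorem relG_2 : ONSub.chkRel OW (WQ.getD 2 []) = true := by decide +kernel
theorem relG_3 : ONSub.chkRel OW (WQ.getD 3 []) = true := by decide +kernel
theorem relG_4 : ONSub.chkRel OW (WQ.getD 4 []) = true := by decide +kernel
theorem relG_5 : ONSub.chkRel OW (WQ.getD 5 []) = true := by decide +kernel

theorem relsG : ∀ r ∈ WQ, ONSub.chkRel OW r = true := by
  intro r hr
  obtain ⟨k, hk, rfl⟩ := List.getElem_of_mem hr
  have hk' : k < 6 := hk
  rw [← List.getD_eq_getElem WQ [] hk]
  interval_cases k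
  · exact relG_0
  · exact relG_1
  · exact relG_2
  · exact relG_3
  · exact relG_4
  · exact relG_5

theorem sqG_0 : ONSub.chkRel OW [0, 0] = true := by decide +kernel
theorem sqG_1 : ONSub.chkRel OW [1, 1] = true := by decide +kernel
theorem sqG_2 : ONSub.chkRel OW [2, 2] = true := by decide +kernel

/-- the images of the generators -/
noncomputable abbrev fG : ℕ → ONOrd.G := ONSub.fW OW

theorem fG_sq (s : ℕ) : fG s * fG s = 1 := by
  by_cases hs : s < 3
  · have h := ONSub.rel_one OW [s, s] (by
      interval_cases s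
      · exact sqG_0
      · exact sqG_1
      · exact sqG_2)
    rw [List.map_cons, List.map_cons, List.map_nil, List.prod_cons, List.prod_cons, List.prod_nil,
      mul_one] at h
    exact h
  · have e : fG s = 1 := ONSub.fW_ge OW s (by
      have hl : OW.length = 3 := rfl
      omega)
    rw [e, one_mul]

/-- the homomorphism into the O'Nan group -/
noncomputable def φ : Q →* ONOrd.G :=
  WP.lift 3 WQ fG fG_sq (fun s hs => ONSub.fW_ge OW s (by
    have hl : OW.length = 3 := rfl
    omega)) (fun w hw => ONSub.rel_one OW w (relsG w hw))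

theorem φ_gen (s : ℕ) : φ (δ s) = fG s := WP.lift_gen 3 WQ fG _ _ _ s

theorem fG0_ne : fG 0 ≠ 1 := ONSub.fW_ne_one OW 0 2 (by decide +kernel)

/-- **The subgroup.** The image of `Q` in the O'Nan group is simple of order 7920. -/
theorem range_spec : IsSimpleGroup φ.range ∧ Nat.card φ.range = 7920 := by
  obtain ⟨-, h1, h2⟩ := simple_card_range simpleQ φ (δ 0) (by rw [φ_gen]; exact fG0_ne)
  exact ⟨h1, h2.trans cardQ⟩

end Cfsg.Agent.Lib.Helper39.OMOrd
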