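import Cfsg.Agent.Lib.Helper39.OMSData

set_option maxRecDepth 100000
set_option maxHeartbeats 0

namespace Cfsg.Agent.Lib.Helper39.OMS
open Cfsg.Agent.Lib.Helper38 

theorem chkV_96 : allFrom 48000 500 cert.chkV = true := by decide +kernel
theorem chkV_97 : allFrom 48500 500 cert.chkV = true := by decide +kernel
theorem chkV_98 : allFrom 49000 500 cert.chkV = true := by decide +kernel
theorem chkV_99 : allFrom 49500 500 cert.chkV = true := by decide +kernel
theorem chkV_100 : allFrom 50000 500 cert.chkV = true := by decide +kernel
theorem chkV_101 : allFrom 50500 500 cert.chkV = true := by decide +kernel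
theorem chkV_102 : allFrom 51000 500 cert.chkV = true := by decide +kernel
theorem chkV_103 : allFrom 51500 500 cert.chkV = true := by decide +kernel

theorem chkV_f12 : allFrom 48000 4000 cert.chkV = true :=
  (allFrom_join (lo := 48000) (a := 3500) (b := 500) (allFrom_join (lo := 48000) (a := 3000) (b := 500) (allFrom_join (lo := 48000) (a := 2500) (b := 500) (allFrom_join (lo := 48000) (a := 2000) (b := 500) (allFrom_join (lo := 48000) (a := 1500) (b := 500) (allFrom_join (lo := 48000) (a := 1000) (b := 500) (allFrom_join (lo := 48000) (a := 500) (b := 500) chkV_96 chkV_97) chkV_98) chkV_99) chkV_100) chkV_101) chkV_102) chkV_103)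

end Cfsg.Agent.Lib.Helper39.OMS
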