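import Cfsg.Agent.Lib.Helper38.CosetCore

set_option maxRecDepth 100000
set_option maxHeartbeats 0

namespace Cfsg.Agent.Lib.Helper39.OMT
open Cfsg.Agent.Lib.Helper38

noncomputable def rT0 : BT := .node 1 (.leaf 0x4d42822800000000056600007a0d8166180000000000000002d388211180000b880001120000a80901679000000000000000030280c28110000c4000016e0000d6401e4080000394000640000104004169800000000000000003400000000000044c000244000141) (.leaf 0x1e81633800000000000000027755ce329800000000050a000000160164a80000000000000002a5)
noncomputable def nT0 : BT := .leaf 0x0

end Cfsg.Agent.Lib.Helper39.OMT
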