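import Cfsg.Agent.Lib.Helper39.OMTD0

set_option maxRecDepth 100000
set_option maxHeartbeats 0

namespace Cfsg.Agent.Lib.Helper39.OMT
open Cfsg.Agent.Lib.Helper38

noncomputable def rTRoot : BT := rT0
noncomputable def nTRoot : BT := nT0

/-- the certificate -/
noncomputable def cert : Cert where
  g := 3
  m := 11
  n := 1
  R := 21
  fuel := 5
  nw := 10
  nrel := 7
  nsub := 10
  lg := 3
  lmask := 7
  rW := 104
  eW := 25
  mv := 15
  mr := 31
  mw := 15
  mt := 63
  ml := 3
  oR := 4
  oK := 9
  oW := 11
  oT := 15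
  oU := 21
  oM := 75
  oMR := 79
  oMW := 84
  oMT := 88
  oMU := 94
  oP := 98
  oL := 102
  rows := rTRoot
  wW := 72
  wt := 6
  wl := 2
  WD := 0x28200000000000000014200000000000000000200000000000000000100000000001111110c00618619899249249e00618918992462491d02649926499264991e924924924924924921000000000000266648
  lgN := 4
  lmaskN := 15
  nW := 33
  wv := 4
  oCan := 12
  oPN := 16
  oLN := 20
  oComp := 22
  mc := 1
  oOP := 23
  oOW := 27
  oOD := 31
  md := 1
  oODir := 32
  ncomp := 1
  ROOTS := 0x0
  nrows := nTRoot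

end Cfsg.Agent.Lib.Helper39.OMT
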