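import Cfsg.Agent.Lib.Helper39.ONBData

set_option maxRecDepth 100000
set_option maxHeartbeats 0

namespace Cfsg.Agent.Lib.Helper39.ONB
open Cfsg.Agent.Lib.Helper38 

theorem chkO_0 : allFrom 0 456 cert.chkO = true := by decide +kernel

theorem chkO_f0 : allFrom 0 456 cert.chkO = true :=
  chkO_0

end Cfsg.Agent.Lib.Helper39.ONB
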