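import Cfsg.Agent.Lib.Helper39.ONBData

set_option maxRecDepth 100000
set_option maxHeartbeats 0

namespace Cfsg.Agent.Lib.Helper39.ONB
open Cfsg.Agent.Lib.Helper38 

theorem chkV_0 : allFrom 0 500 cert.chkV = true := by decide +kernel
theorem chkV_1 : allFrom 500 500 cert.chkV = true := by decide +kernel
theorem chkV_2 : allFrom 1000 500 cert.chkV = true := by decide +kernel
theorem chkV_3 : allFrom 1500 500 cert.chkV = true := by decide +kernel
theorem chkV_4 : allFrom 2000 500 cert.chkV = true := by decide +kernel
theorem chkV_5 : allFrom 2500 500 cert.chkV = true := by decide +kernel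
theorem chkV_6 : allFrom 3000 143 cert.chkV = true := by decide +kernel

theorem chkV_f0 : allFrom 0 3143 cert.chkV = true :=
  (allFrom_join (lo := 0) (a := 3000) (b := 143) (allFrom_join (lo := 0) (a := 2500) (b := 500) (allFrom_join (lo := 0) (a := 2000) (b := 500) (allFrom_join (lo := 0) (a := 1500) (b := 500) (allFrom_join (lo := 0) (a := 1000) (b := 500) (allFrom_join (lo := 0) (a := 500) (b := 500) chkV_0 chkV_1) chkV_2) chkV_3) chkV_4) chkV_5) chkV_6)

end Cfsg.Agent.Lib.Helper39.ONB
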