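import Cfsg.Agent.Lib.Helper39.ONCData

set_option maxRecDepth 100000
set_option maxHeartbeats 0

namespace Cfsg.Agent.Lib.Helper39.ONC
open Cfsg.Agent.Lib.Helper38 

theorem chkN_0 : allFrom 0 500 cert.chkN = true := by decide +kernel
theorem chkN_1 : allFrom 500 172 cert.chkN = true := by decide +kernel

theorem chkN_f0 : allFrom 0 672 cert.chkN = true :=
  (allFrom_join (lo := 0) (a := 500) (b := 172) chkN_0 chkN_1)

end Cfsg.Agent.Lib.Helper39.ONC
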