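import Cfsg.Agent.Lib.Helper39.ONLData
import Cfsg.Agent.Lib.Helper39.CosetICore

set_option maxRecDepth 100000
set_option maxHeartbeats 0

namespace Cfsg.Agent.Lib.Helper39.ONL
open Cfsg.Agent.Lib.Helper38 Cfsg.Agent.Lib.Helper39

theorem chkN_8 : allFrom 4000 500 (chkNI cert 1) = true := by decide +kernel
theorem chkN_9 : allFrom 4500 500 (chkNI cert 1) = true := by decide +kernel
theorem chkN_10 : allFrom 5000 500 (chkNI cert 1) = true := by decide +kernel
theorem chkN_11 : allFrom 5500 500 (chkNI cert 1) = true := by decide +kernel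
theorem chkN_12 : allFrom 6000 500 (chkNI cert 1) = true := by decide +kernel
theorem chkN_13 : allFrom 6500 500 (chkNI cert 1) = true := by decide +kernel
theorem chkN_14 : allFrom 7000 500 (chkNI cert 1) = true := by decide +kernel
theorem chkN_15 : allFrom 7500 500 (chkNI cert 1) = true := by decide +kernel

theorem chkN_f1 : allFrom 4000 4000 (chkNI cert 1) = true :=
  (allFrom_join (lo := 4000) (a := 3500) (b := 500) (allFrom_join (lo := 4000) (a := 3000) (b := 500) (allFrom_join (lo := 4000) (a := 2500) (b := 500) (allFrom_join (lo := 4000) (a := 2000) (b := 500) (allFrom_join (lo := 4000) (a := 1500) (b := 500) (allFrom_join (lo := 4000) (a := 1000) (b := 500) (allFrom_join (lo := 4000) (a := 500) (b := 500) chkN_8 chkN_9) chkN_10) chkN_11) chkN_12) chkN_13) chkN_14) chkN_15)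

end Cfsg.Agent.Lib.Helper39.ONL
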