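import Cfsg.Agent.Lib.Helper39.ONLData
import Cfsg.Agent.Lib.Helper39.CosetICore

set_option maxRecDepth 100000
set_option maxHeartbeats 0

namespace Cfsg.Agent.Lib.Helper39.ONL
open Cfsg.Agent.Lib.Helper38 Cfsg.Agent.Lib.Helper39

theorem chkN_96 : allFrom 48000 500 (chkNI cert 1) = true := by decide +kernel
theorem chkN_97 : allFrom 48500 500 (chkNI cert 1) = true := by decide +kernel
theorem chkN_98 : allFrom 49000 500 (chkNI cert 1) = true := by decide +kernel
theorem chkN_99 : allFrom 49500 500 (chkNI cert 1) = true := by decide +kernel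
theorem chkN_100 : allFrom 50000 500 (chkNI cert 1) = true := by decide +kernel
theorem chkN_101 : allFrom 50500 500 (chkNI cert 1) = true := by decide +kernel
theorem chkN_102 : allFrom 51000 500 (chkNI cert 1) = true := by decide +kernel
theorem chkN_103 : allFrom 51500 500 (chkNI cert 1) = true := by decide +kernel

theorem chkN_f12 : allFrom 48000 4000 (chkNI cert 1) = true :=
  (allFrom_join (lo := 48000) (a := 3500) (b := 500) (allFrom_join (lo := 48000) (a := 3000) (b := 500) (allFrom_join (lo := 48000) (a := 2500) (b := 500) (allFrom_join (lo := 48000) (a := 2000) (b := 500) (allFrom_join (lo := 48000) (a := 1500) (b := 500) (allFrom_join (lo := 48000) (a := 1000) (b := 500) (allFrom_join (lo := 48000) (a := 500) (b := 500) chkN_96 chkN_97) chkN_98) chkN_99) chkN_100) chkN_101) chkN_102) chkN_103)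

end Cfsg.Agent.Lib.Helper39.ONL
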