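import Cfsg.Agent.Lib.Helper39.ONLData
import Cfsg.Agent.Lib.Helper39.CosetICore

set_option maxRecDepth 100000
set_option maxHeartbeats 0

namespace Cfsg.Agent.Lib.Helper39.ONL
open Cfsg.Agent.Lib.Helper38 Cfsg.Agent.Lib.Helper39

theorem chkN_104 : allFrom 52000 500 (chkNI cert 1) = true := by decide +kernel
theorem chkN_105 : allFrom 52500 500 (chkNI cert 1) = true := by decide +kernel
theorem chkN_106 : allFrom 53000 500 (chkNI cert 1) = true := by decide +kernel
theorem chkN_107 : allFrom 53500 500 (chkNI cert 1) = true := by decide +kernel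
theorem chkN_108 : allFrom 54000 500 (chkNI cert 1) = true := by decide +kernel
theorem chkN_109 : allFrom 54500 500 (chkNI cert 1) = true := by decide +kernel
theorem chkN_110 : allFrom 55000 500 (chkNI cert 1) = true := by decide +kernel
theorem chkN_111 : allFrom 55500 500 (chkNI cert 1) = true := by decide +kernel

theorem chkN_f13 : allFrom 52000 4000 (chkNI cert 1) = true :=
  (allFrom_join (lo := 52000) (a := 3500) (b := 500) (allFrom_join (lo := 52000) (a := 3000) (b := 500) (allFrom_join (lo := 52000) (a := 2500) (b := 500) (allFrom_join (lo := 52000) (a := 2000) (b := 500) (allFrom_join (lo := 52000) (a := 1500) (b := 500) (allFrom_join (lo := 52000) (a := 1000) (b := 500) (allFrom_join (lo := 52000) (a := 500) (b := 500) chkN_104 chkN_105) chkN_106) chkN_107) chkN_108) chkN_109) chkN_110) chkN_111)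

end Cfsg.Agent.Lib.Helper39.ONL
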