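import Cfsg.Agent.Lib.Helper39.ONLData
import Cfsg.Agent.Lib.Helper39.CosetICore

set_option maxRecDepth 100000
set_option maxHeartbeats 0

namespace Cfsg.Agent.Lib.Helper39.ONL
open Cfsg.Agent.Lib.Helper38 Cfsg.Agent.Lib.Helper39

theorem chkN_112 : allFrom 56000 500 (chkNI cert 1) = true := by decide +kernel
theorem chkN_113 : allFrom 56500 500 (chkNI cert 1) = true := by decide +kernel
theorem chkN_114 : allFrom 57000 500 (chkNI cert 1) = true := by decide +kernel
theorem chkN_115 : allFrom 57500 500 (chkNI cert 1) = true := by decide +kernel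
theorem chkN_116 : allFrom 58000 500 (chkNI cert 1) = true := by decide +kernel
theorem chkN_117 : allFrom 58500 500 (chkNI cert 1) = true := by decide +kernel
theorem chkN_118 : allFrom 59000 500 (chkNI cert 1) = true := by decide +kernel
theorem chkN_119 : allFrom 59500 500 (chkNI cert 1) = true := by decide +kernel

theorem chkN_f14 : allFrom 56000 4000 (chkNI cert 1) = true :=
  (allFrom_join (lo := 56000) (a := 3500) (b := 500) (allFrom_join (lo := 56000) (a := 3000) (b := 500) (allFrom_join (lo := 56000) (a := 2500) (b := 500) (allFrom_join (lo := 56000) (a := 2000) (b := 500) (allFrom_join (lo := 56000) (a := 1500) (b := 500) (allFrom_join (lo := 56000) (a := 1000) (b := 500) (allFrom_join (lo := 56000) (a := 500) (b := 500) chkN_112 chkN_113) chkN_114) chkN_115) chkN_116) chkN_117) chkN_118) chkN_119)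

end Cfsg.Agent.Lib.Helper39.ONL
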