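import Cfsg.Agent.Lib.Helper39.ONLData
import Cfsg.Agent.Lib.Helper39.CosetICore

set_option maxRecDepth 100000
set_option maxHeartbeats 0

namespace Cfsg.Agent.Lib.Helper39.ONL
open Cfsg.Agent.Lib.Helper38 Cfsg.Agent.Lib.Helper39

theorem chkN_136 : allFrom 68000 500 (chkNI cert 1) = true := by decide +kernel
theorem chkN_137 : allFrom 68500 500 (chkNI cert 1) = true := by decide +kernel
theorem chkN_138 : allFrom 69000 500 (chkNI cert 1) = true := by decide +kernel
theorem chkN_139 : allFrom 69500 500 (chkNI cert 1) = true := by decide +kernel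
theorem chkN_140 : allFrom 70000 500 (chkNI cert 1) = true := by decide +kernel
theorem chkN_141 : allFrom 70500 500 (chkNI cert 1) = true := by decide +kernel
theorem chkN_142 : allFrom 71000 500 (chkNI cert 1) = true := by decide +kernel
theorem chkN_143 : allFrom 71500 500 (chkNI cert 1) = true := by decide +kernel

theorem chkN_f17 : allFrom 68000 4000 (chkNI cert 1) = true :=
  (allFrom_join (lo := 68000) (a := 3500) (b := 500) (allFrom_join (lo := 68000) (a := 3000) (b := 500) (allFrom_join (lo := 68000) (a := 2500) (b := 500) (allFrom_join (lo := 68000) (a := 2000) (b := 500) (allFrom_join (lo := 68000) (a := 1500) (b := 500) (allFrom_join (lo := 68000) (a := 1000) (b := 500) (allFrom_join (lo := 68000) (a := 500) (b := 500) chkN_136 chkN_137) chkN_138) chkN_139) chkN_140) chkN_141) chkN_142) chkN_143)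

end Cfsg.Agent.Lib.Helper39.ONL
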