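import Cfsg.Agent.Lib.Helper39.ONLData
import Cfsg.Agent.Lib.Helper39.CosetICore

set_option maxRecDepth 100000
set_option maxHeartbeats 0

namespace Cfsg.Agent.Lib.Helper39.ONL
open Cfsg.Agent.Lib.Helper38 Cfsg.Agent.Lib.Helper39

theorem chkN_144 : allFrom 72000 500 (chkNI cert 1) = true := by decide +kernel
theorem chkN_145 : allFrom 72500 500 (chkNI cert 1) = true := by decide +kernel
theorem chkN_146 : allFrom 73000 500 (chkNI cert 1) = true := by decide +kernel
theorem chkN_147 : allFrom 73500 500 (chkNI cert 1) = true := by decide +kernel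
theorem chkN_148 : allFrom 74000 500 (chkNI cert 1) = true := by decide +kernel
theorem chkN_149 : allFrom 74500 500 (chkNI cert 1) = true := by decide +kernel
theorem chkN_150 : allFrom 75000 500 (chkNI cert 1) = true := by decide +kernel
theorem chkN_151 : allFrom 75500 500 (chkNI cert 1) = true := by decide +kernel

theorem chkN_f18 : allFrom 72000 4000 (chkNI cert 1) = true :=
  (allFrom_join (lo := 72000) (a := 3500) (b := 500) (allFrom_join (lo := 72000) (a := 3000) (b := 500) (allFrom_join (lo := 72000) (a := 2500) (b := 500) (allFrom_join (lo := 72000) (a := 2000) (b := 500) (allFrom_join (lo := 72000) (a := 1500) (b := 500) (allFrom_join (lo := 72000) (a := 1000) (b := 500) (allFrom_join (lo := 72000) (a := 500) (b := 500) chkN_144 chkN_145) chkN_146) chkN_147) chkN_148) chkN_149) chkN_150) chkN_151)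

end Cfsg.Agent.Lib.Helper39.ONL
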