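import Cfsg.Agent.Lib.Helper39.ONLData
import Cfsg.Agent.Lib.Helper39.CosetICore

set_option maxRecDepth 100000
set_option maxHeartbeats 0

namespace Cfsg.Agent.Lib.Helper39.ONL
open Cfsg.Agent.Lib.Helper38 Cfsg.Agent.Lib.Helper39

theorem chkN_16 : allFrom 8000 500 (chkNI cert 1) = true := by decide +kernel
theorem chkN_17 : allFrom 8500 500 (chkNI cert 1) = true := by decide +kernel
theorem chkN_18 : allFrom 9000 500 (chkNI cert 1) = true := by decide +kernel
theorem chkN_19 : allFrom 9500 500 (chkNI cert 1) = true := by decide +kernel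
theorem chkN_20 : allFrom 10000 500 (chkNI cert 1) = true := by decide +kernel
theorem chkN_21 : allFrom 10500 500 (chkNI cert 1) = true := by decide +kernel
theorem chkN_22 : allFrom 11000 500 (chkNI cert 1) = true := by decide +kernel
theorem chkN_23 : allFrom 11500 500 (chkNI cert 1) = true := by decide +kernel

theorem chkN_f2 : allFrom 8000 4000 (chkNI cert 1) = true :=
  (allFrom_join (lo := 8000) (a := 3500) (b := 500) (allFrom_join (lo := 8000) (a := 3000) (b := 500) (allFrom_join (lo := 8000) (a := 2500) (b := 500) (allFrom_join (lo := 8000) (a := 2000) (b := 500) (allFrom_join (lo := 8000) (a := 1500) (b := 500) (allFrom_join (lo := 8000) (a := 1000) (b := 500) (allFrom_join (lo := 8000) (a := 500) (b := 500) chkN_16 chkN_17) chkN_18) chkN_19) chkN_20) chkN_21) chkN_22) chkN_23)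

end Cfsg.Agent.Lib.Helper39.ONL
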