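import Cfsg.Agent.Lib.Helper39.ONLData
import Cfsg.Agent.Lib.Helper39.CosetICore

set_option maxRecDepth 100000
set_option maxHeartbeats 0

namespace Cfsg.Agent.Lib.Helper39.ONL
open Cfsg.Agent.Lib.Helper38 Cfsg.Agent.Lib.Helper39

theorem chkN_160 : allFrom 80000 500 (chkNI cert 1) = true := by decide +kernel
theorem chkN_161 : allFrom 80500 500 (chkNI cert 1) = true := by decide +kernel
theorem chkN_162 : allFrom 81000 500 (chkNI cert 1) = true := by decide +kernel
theorem chkN_163 : allFrom 81500 500 (chkNI cert 1) = true := by decide +kernel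
theorem chkN_164 : allFrom 82000 500 (chkNI cert 1) = true := by decide +kernel
theorem chkN_165 : allFrom 82500 500 (chkNI cert 1) = true := by decide +kernel
theorem chkN_166 : allFrom 83000 500 (chkNI cert 1) = true := by decide +kernel
theorem chkN_167 : allFrom 83500 500 (chkNI cert 1) = true := by decide +kernel

theorem chkN_f20 : allFrom 80000 4000 (chkNI cert 1) = true :=
  (allFrom_join (lo := 80000) (a := 3500) (b := 500) (allFrom_join (lo := 80000) (a := 3000) (b := 500) (allFrom_join (lo := 80000) (a := 2500) (b := 500) (allFrom_join (lo := 80000) (a := 2000) (b := 500) (allFrom_join (lo := 80000) (a := 1500) (b := 500) (allFrom_join (lo := 80000) (a := 1000) (b := 500) (allFrom_join (lo := 80000) (a := 500) (b := 500) chkN_160 chkN_161) chkN_162) chkN_163) chkN_164) chkN_165) chkN_166) chkN_167)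

end Cfsg.Agent.Lib.Helper39.ONL
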