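import Cfsg.Agent.Lib.Helper39.ONLData
import Cfsg.Agent.Lib.Helper39.CosetICore

set_option maxRecDepth 100000
set_option maxHeartbeats 0

namespace Cfsg.Agent.Lib.Helper39.ONL
open Cfsg.Agent.Lib.Helper38 Cfsg.Agent.Lib.Helper39

theorem chkN_168 : allFrom 84000 500 (chkNI cert 1) = true := by decide +kernel
theorem chkN_169 : allFrom 84500 500 (chkNI cert 1) = true := by decide +kernel
theorem chkN_170 : allFrom 85000 500 (chkNI cert 1) = true := by decide +kernel
theorem chkN_171 : allFrom 85500 500 (chkNI cert 1) = true := by decide +kernel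
theorem chkN_172 : allFrom 86000 500 (chkNI cert 1) = true := by decide +kernel
theorem chkN_173 : allFrom 86500 500 (chkNI cert 1) = true := by decide +kernel
theorem chkN_174 : allFrom 87000 500 (chkNI cert 1) = true := by decide +kernel
theorem chkN_175 : allFrom 87500 500 (chkNI cert 1) = true := by decide +kernel

theorem chkN_f21 : allFrom 84000 4000 (chkNI cert 1) = true :=
  (allFrom_join (lo := 84000) (a := 3500) (b := 500) (allFrom_join (lo := 84000) (a := 3000) (b := 500) (allFrom_join (lo := 84000) (a := 2500) (b := 500) (allFrom_join (lo := 84000) (a := 2000) (b := 500) (allFrom_join (lo := 84000) (a := 1500) (b := 500) (allFrom_join (lo := 84000) (a := 1000) (b := 500) (allFrom_join (lo := 84000) (a := 500) (b := 500) chkN_168 chkN_169) chkN_170) chkN_171) chkN_172) chkN_173) chkN_174) chkN_175)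

end Cfsg.Agent.Lib.Helper39.ONL
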