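import Cfsg.Agent.Lib.Helper39.ONLData
import Cfsg.Agent.Lib.Helper39.CosetICore

set_option maxRecDepth 100000
set_option maxHeartbeats 0

namespace Cfsg.Agent.Lib.Helper39.ONL
open Cfsg.Agent.Lib.Helper38 Cfsg.Agent.Lib.Helper39

theorem chkN_176 : allFrom 88000 500 (chkNI cert 1) = true := by decide +kernel
theorem chkN_177 : allFrom 88500 500 (chkNI cert 1) = true := by decide +kernel
theorem chkN_178 : allFrom 89000 500 (chkNI cert 1) = true := by decide +kernel
theorem chkN_179 : allFrom 89500 500 (chkNI cert 1) = true := by decide +kernel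
theorem chkN_180 : allFrom 90000 500 (chkNI cert 1) = true := by decide +kernel
theorem chkN_181 : allFrom 90500 500 (chkNI cert 1) = true := by decide +kernel
theorem chkN_182 : allFrom 91000 500 (chkNI cert 1) = true := by decide +kernel
theorem chkN_183 : allFrom 91500 500 (chkNI cert 1) = true := by decide +kernel

theorem chkN_f22 : allFrom 88000 4000 (chkNI cert 1) = true :=
  (allFrom_join (lo := 88000) (a := 3500) (b := 500) (allFrom_join (lo := 88000) (a := 3000) (b := 500) (allFrom_join (lo := 88000) (a := 2500) (b := 500) (allFrom_join (lo := 88000) (a := 2000) (b := 500) (allFrom_join (lo := 88000) (a := 1500) (b := 500) (allFrom_join (lo := 88000) (a := 1000) (b := 500) (allFrom_join (lo := 88000) (a := 500) (b := 500) chkN_176 chkN_177) chkN_178) chkN_179) chkN_180) chkN_181) chkN_182) chkN_183)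

end Cfsg.Agent.Lib.Helper39.ONL
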