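import Cfsg.Agent.Lib.Helper39.ONLData
import Cfsg.Agent.Lib.Helper39.CosetICore

set_option maxRecDepth 100000
set_option maxHeartbeats 0

namespace Cfsg.Agent.Lib.Helper39.ONL
open Cfsg.Agent.Lib.Helper38 Cfsg.Agent.Lib.Helper39

theorem chkN_192 : allFrom 96000 500 (chkNI cert 1) = true := by decide +kernel
theorem chkN_193 : allFrom 96500 500 (chkNI cert 1) = true := by decide +kernel
theorem chkN_194 : allFrom 97000 500 (chkNI cert 1) = true := by decide +kernel
theorem chkN_195 : allFrom 97500 500 (chkNI cert 1) = true := by decide +kernel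
theorem chkN_196 : allFrom 98000 500 (chkNI cert 1) = true := by decide +kernel
theorem chkN_197 : allFrom 98500 500 (chkNI cert 1) = true := by decide +kernel
theorem chkN_198 : allFrom 99000 500 (chkNI cert 1) = true := by decide +kernel
theorem chkN_199 : allFrom 99500 500 (chkNI cert 1) = true := by decide +kernel

theorem chkN_f24 : allFrom 96000 4000 (chkNI cert 1) = true :=
  (allFrom_join (lo := 96000) (a := 3500) (b := 500) (allFrom_join (lo := 96000) (a := 3000) (b := 500) (allFrom_join (lo := 96000) (a := 2500) (b := 500) (allFrom_join (lo := 96000) (a := 2000) (b := 500) (allFrom_join (lo := 96000) (a := 1500) (b := 500) (allFrom_join (lo := 96000) (a := 1000) (b := 500) (allFrom_join (lo := 96000) (a := 500) (b := 500) chkN_192 chkN_193) chkN_194) chkN_195) chkN_196) chkN_197) chkN_198) chkN_199)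

end Cfsg.Agent.Lib.Helper39.ONL
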