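import Cfsg.Agent.Lib.Helper39.ONLData
import Cfsg.Agent.Lib.Helper39.CosetICore

set_option maxRecDepth 100000
set_option maxHeartbeats 0

namespace Cfsg.Agent.Lib.Helper39.ONL
open Cfsg.Agent.Lib.Helper38 Cfsg.Agent.Lib.Helper39

theorem chkN_200 : allFrom 100000 500 (chkNI cert 1) = true := by decide +kernel
theorem chkN_201 : allFrom 100500 500 (chkNI cert 1) = true := by decide +kernel
theorem chkN_202 : allFrom 101000 500 (chkNI cert 1) = true := by decide +kernel
theorem chkN_203 : allFrom 101500 500 (chkNI cert 1) = true := by decide +kernel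
theorem chkN_204 : allFrom 102000 500 (chkNI cert 1) = true := by decide +kernel
theorem chkN_205 : allFrom 102500 500 (chkNI cert 1) = true := by decide +kernel
theorem chkN_206 : allFrom 103000 500 (chkNI cert 1) = true := by decide +kernel
theorem chkN_207 : allFrom 103500 500 (chkNI cert 1) = true := by decide +kernel

theorem chkN_f25 : allFrom 100000 4000 (chkNI cert 1) = true :=
  (allFrom_join (lo := 100000) (a := 3500) (b := 500) (allFrom_join (lo := 100000) (a := 3000) (b := 500) (allFrom_join (lo := 100000) (a := 2500) (b := 500) (allFrom_join (lo := 100000) (a := 2000) (b := 500) (allFrom_join (lo := 100000) (a := 1500) (b := 500) (allFrom_join (lo := 100000) (a := 1000) (b := 500) (allFrom_join (lo := 100000) (a := 500) (b := 500) chkN_200 chkN_201) chkN_202) chkN_203) chkN_204) chkN_205) chkN_206) chkN_207)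

end Cfsg.Agent.Lib.Helper39.ONL
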