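import Cfsg.Agent.Lib.Helper39.ONLData
import Cfsg.Agent.Lib.Helper39.CosetICore

set_option maxRecDepth 100000
set_option maxHeartbeats 0

namespace Cfsg.Agent.Lib.Helper39.ONL
open Cfsg.Agent.Lib.Helper38 Cfsg.Agent.Lib.Helper39

theorem chkN_208 : allFrom 104000 500 (chkNI cert 1) = true := by decide +kernel
theorem chkN_209 : allFrom 104500 500 (chkNI cert 1) = true := by decide +kernel
theorem chkN_210 : allFrom 105000 500 (chkNI cert 1) = true := by decide +kernel
theorem chkN_211 : allFrom 105500 500 (chkNI cert 1) = true := by decide +kernel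
theorem chkN_212 : allFrom 106000 500 (chkNI cert 1) = true := by decide +kernel
theorem chkN_213 : allFrom 106500 500 (chkNI cert 1) = true := by decide +kernel
theorem chkN_214 : allFrom 107000 500 (chkNI cert 1) = true := by decide +kernel
theorem chkN_215 : allFrom 107500 500 (chkNI cert 1) = true := by decide +kernel

theorem chkN_f26 : allFrom 104000 4000 (chkNI cert 1) = true :=
  (allFrom_join (lo := 104000) (a := 3500) (b := 500) (allFrom_join (lo := 104000) (a := 3000) (b := 500) (allFrom_join (lo := 104000) (a := 2500) (b := 500) (allFrom_join (lo := 104000) (a := 2000) (b := 500) (allFrom_join (lo := 104000) (a := 1500) (b := 500) (allFrom_join (lo := 104000) (a := 1000) (b := 500) (allFrom_join (lo := 104000) (a := 500) (b := 500) chkN_208 chkN_209) chkN_210) chkN_211) chkN_212) chkN_213) chkN_214) chkN_215)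

end Cfsg.Agent.Lib.Helper39.ONL
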