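import Cfsg.Agent.Lib.Helper39.ONLData
import Cfsg.Agent.Lib.Helper39.CosetICore

set_option maxRecDepth 100000
set_option maxHeartbeats 0

namespace Cfsg.Agent.Lib.Helper39.ONL
open Cfsg.Agent.Lib.Helper38 Cfsg.Agent.Lib.Helper39

theorem chkN_224 : allFrom 112000 500 (chkNI cert 1) = true := by decide +kernel
theorem chkN_225 : allFrom 112500 500 (chkNI cert 1) = true := by decide +kernel
theorem chkN_226 : allFrom 113000 500 (chkNI cert 1) = true := by decide +kernel
theorem chkN_227 : allFrom 113500 500 (chkNI cert 1) = true := by decide +kernel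
theorem chkN_228 : allFrom 114000 500 (chkNI cert 1) = true := by decide +kernel
theorem chkN_229 : allFrom 114500 500 (chkNI cert 1) = true := by decide +kernel
theorem chkN_230 : allFrom 115000 500 (chkNI cert 1) = true := by decide +kernel
theorem chkN_231 : allFrom 115500 500 (chkNI cert 1) = true := by decide +kernel

theorem chkN_f28 : allFrom 112000 4000 (chkNI cert 1) = true :=
  (allFrom_join (lo := 112000) (a := 3500) (b := 500) (allFrom_join (lo := 112000) (a := 3000) (b := 500) (allFrom_join (lo := 112000) (a := 2500) (b := 500) (allFrom_join (lo := 112000) (a := 2000) (b := 500) (allFrom_join (lo := 112000) (a := 1500) (b := 500) (allFrom_join (lo := 112000) (a := 1000) (b := 500) (allFrom_join (lo := 112000) (a := 500) (b := 500) chkN_224 chkN_225) chkN_226) chkN_227) chkN_228) chkN_229) chkN_230) chkN_231)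

end Cfsg.Agent.Lib.Helper39.ONL
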