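import Cfsg.Agent.Lib.Helper39.ONLData
import Cfsg.Agent.Lib.Helper39.CosetICore

set_option maxRecDepth 100000
set_option maxHeartbeats 0

namespace Cfsg.Agent.Lib.Helper39.ONL
open Cfsg.Agent.Lib.Helper38 Cfsg.Agent.Lib.Helper39

theorem chkN_24 : allFrom 12000 500 (chkNI cert 1) = true := by decide +kernel
theorem chkN_25 : allFrom 12500 500 (chkNI cert 1) = true := by decide +kernel
theorem chkN_26 : allFrom 13000 500 (chkNI cert 1) = true := by decide +kernel
theorem chkN_27 : allFrom 13500 500 (chkNI cert 1) = true := by decide +kernel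
theorem chkN_28 : allFrom 14000 500 (chkNI cert 1) = true := by decide +kernel
theorem chkN_29 : allFrom 14500 500 (chkNI cert 1) = true := by decide +kernel
theorem chkN_30 : allFrom 15000 500 (chkNI cert 1) = true := by decide +kernel
theorem chkN_31 : allFrom 15500 500 (chkNI cert 1) = true := by decide +kernel

theorem chkN_f3 : allFrom 12000 4000 (chkNI cert 1) = true :=
  (allFrom_join (lo := 12000) (a := 3500) (b := 500) (allFrom_join (lo := 12000) (a := 3000) (b := 500) (allFrom_join (lo := 12000) (a := 2500) (b := 500) (allFrom_join (lo := 12000) (a := 2000) (b := 500) (allFrom_join (lo := 12000) (a := 1500) (b := 500) (allFrom_join (lo := 12000) (a := 1000) (b := 500) (allFrom_join (lo := 12000) (a := 500) (b := 500) chkN_24 chkN_25) chkN_26) chkN_27) chkN_28) chkN_29) chkN_30) chkN_31)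

end Cfsg.Agent.Lib.Helper39.ONL
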