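import Cfsg.Agent.Lib.Helper39.ONLData
import Cfsg.Agent.Lib.Helper39.CosetICore

set_option maxRecDepth 100000
set_option maxHeartbeats 0

namespace Cfsg.Agent.Lib.Helper39.ONL
open Cfsg.Agent.Lib.Helper38 Cfsg.Agent.Lib.Helper39

theorem chkN_40 : allFrom 20000 500 (chkNI cert 1) = true := by decide +kernel
theorem chkN_41 : allFrom 20500 500 (chkNI cert 1) = true := by decide +kernel
theorem chkN_42 : allFrom 21000 500 (chkNI cert 1) = true := by decide +kernel
theorem chkN_43 : allFrom 21500 500 (chkNI cert 1) = true := by decide +kernel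
theorem chkN_44 : allFrom 22000 500 (chkNI cert 1) = true := by decide +kernel
theorem chkN_45 : allFrom 22500 500 (chkNI cert 1) = true := by decide +kernel
theorem chkN_46 : allFrom 23000 500 (chkNI cert 1) = true := by decide +kernel
theorem chkN_47 : allFrom 23500 500 (chkNI cert 1) = true := by decide +kernel

theorem chkN_f5 : allFrom 20000 4000 (chkNI cert 1) = true :=
  (allFrom_join (lo := 20000) (a := 3500) (b := 500) (allFrom_join (lo := 20000) (a := 3000) (b := 500) (allFrom_join (lo := 20000) (a := 2500) (b := 500) (allFrom_join (lo := 20000) (a := 2000) (b := 500) (allFrom_join (lo := 20000) (a := 1500) (b := 500) (allFrom_join (lo := 20000) (a := 1000) (b := 500) (allFrom_join (lo := 20000) (a := 500) (b := 500) chkN_40 chkN_41) chkN_42) chkN_43) chkN_44) chkN_45) chkN_46) chkN_47)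

end Cfsg.Agent.Lib.Helper39.ONL
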