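import Cfsg.Agent.Lib.Helper39.ONLData
import Cfsg.Agent.Lib.Helper39.CosetICore

set_option maxRecDepth 100000
set_option maxHeartbeats 0

namespace Cfsg.Agent.Lib.Helper39.ONL
open Cfsg.Agent.Lib.Helper38 Cfsg.Agent.Lib.Helper39

theorem chkN_48 : allFrom 24000 500 (chkNI cert 1) = true := by decide +kernel
theorem chkN_49 : allFrom 24500 500 (chkNI cert 1) = true := by decide +kernel
theorem chkN_50 : allFrom 25000 500 (chkNI cert 1) = true := by decide +kernel
theorem chkN_51 : allFrom 25500 500 (chkNI cert 1) = true := by decide +kernel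
theorem chkN_52 : allFrom 26000 500 (chkNI cert 1) = true := by decide +kernel
theorem chkN_53 : allFrom 26500 500 (chkNI cert 1) = true := by decide +kernel
theorem chkN_54 : allFrom 27000 500 (chkNI cert 1) = true := by decide +kernel
theorem chkN_55 : allFrom 27500 500 (chkNI cert 1) = true := by decide +kernel

theorem chkN_f6 : allFrom 24000 4000 (chkNI cert 1) = true :=
  (allFrom_join (lo := 24000) (a := 3500) (b := 500) (allFrom_join (lo := 24000) (a := 3000) (b := 500) (allFrom_join (lo := 24000) (a := 2500) (b := 500) (allFrom_join (lo := 24000) (a := 2000) (b := 500) (allFrom_join (lo := 24000) (a := 1500) (b := 500) (allFrom_join (lo := 24000) (a := 1000) (b := 500) (allFrom_join (lo := 24000) (a := 500) (b := 500) chkN_48 chkN_49) chkN_50) chkN_51) chkN_52) chkN_53) chkN_54) chkN_55)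

end Cfsg.Agent.Lib.Helper39.ONL
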