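import Cfsg.Agent.Lib.Helper39.ONLData
import Cfsg.Agent.Lib.Helper39.CosetICore

set_option maxRecDepth 100000
set_option maxHeartbeats 0

namespace Cfsg.Agent.Lib.Helper39.ONL
open Cfsg.Agent.Lib.Helper38 Cfsg.Agent.Lib.Helper39

theorem chkN_56 : allFrom 28000 500 (chkNI cert 1) = true := by decide +kernel
theorem chkN_57 : allFrom 28500 500 (chkNI cert 1) = true := by decide +kernel
theorem chkN_58 : allFrom 29000 500 (chkNI cert 1) = true := by decide +kernel
theorem chkN_59 : allFrom 29500 500 (chkNI cert 1) = true := by decide +kernel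
theorem chkN_60 : allFrom 30000 500 (chkNI cert 1) = true := by decide +kernel
theorem chkN_61 : allFrom 30500 500 (chkNI cert 1) = true := by decide +kernel
theorem chkN_62 : allFrom 31000 500 (chkNI cert 1) = true := by decide +kernel
theorem chkN_63 : allFrom 31500 500 (chkNI cert 1) = true := by decide +kernel

theorem chkN_f7 : allFrom 28000 4000 (chkNI cert 1) = true :=
  (allFrom_join (lo := 28000) (a := 3500) (b := 500) (allFrom_join (lo := 28000) (a := 3000) (b := 500) (allFrom_join (lo := 28000) (a := 2500) (b := 500) (allFrom_join (lo := 28000) (a := 2000) (b := 500) (allFrom_join (lo := 28000) (a := 1500) (b := 500) (allFrom_join (lo := 28000) (a := 1000) (b := 500) (allFrom_join (lo := 28000) (a := 500) (b := 500) chkN_56 chkN_57) chkN_58) chkN_59) chkN_60) chkN_61) chkN_62) chkN_63)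

end Cfsg.Agent.Lib.Helper39.ONL
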