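import Cfsg.Agent.Lib.Helper39.ONLData
import Cfsg.Agent.Lib.Helper39.CosetICore

set_option maxRecDepth 100000
set_option maxHeartbeats 0

namespace Cfsg.Agent.Lib.Helper39.ONL
open Cfsg.Agent.Lib.Helper38 Cfsg.Agent.Lib.Helper39

theorem chkN_72 : allFrom 36000 500 (chkNI cert 1) = true := by decide +kernel
theorem chkN_73 : allFrom 36500 500 (chkNI cert 1) = true := by decide +kernel
theorem chkN_74 : allFrom 37000 500 (chkNI cert 1) = true := by decide +kernel
theorem chkN_75 : allFrom 37500 500 (chkNI cert 1) = true := by decide +kernel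
theorem chkN_76 : allFrom 38000 500 (chkNI cert 1) = true := by decide +kernel
theorem chkN_77 : allFrom 38500 500 (chkNI cert 1) = true := by decide +kernel
theorem chkN_78 : allFrom 39000 500 (chkNI cert 1) = true := by decide +kernel
theorem chkN_79 : allFrom 39500 500 (chkNI cert 1) = true := by decide +kernel

theorem chkN_f9 : allFrom 36000 4000 (chkNI cert 1) = true :=
  (allFrom_join (lo := 36000) (a := 3500) (b := 500) (allFrom_join (lo := 36000) (a := 3000) (b := 500) (allFrom_join (lo := 36000) (a := 2500) (b := 500) (allFrom_join (lo := 36000) (a := 2000) (b := 500) (allFrom_join (lo := 36000) (a := 1500) (b := 500) (allFrom_join (lo := 36000) (a := 1000) (b := 500) (allFrom_join (lo := 36000) (a := 500) (b := 500) chkN_72 chkN_73) chkN_74) chkN_75) chkN_76) chkN_77) chkN_78) chkN_79)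

end Cfsg.Agent.Lib.Helper39.ONL
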