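import Cfsg.Agent.Lib.Helper39.ONLData

set_option maxRecDepth 100000
set_option maxHeartbeats 0

namespace Cfsg.Agent.Lib.Helper39.ONL
open Cfsg.Agent.Lib.Helper38 

theorem chkO_8 : allFrom 4000 500 cert.chkO = true := by decide +kernel
theorem chkO_9 : allFrom 4500 500 cert.chkO = true := by decide +kernel
theorem chkO_10 : allFrom 5000 500 cert.chkO = true := by decide +kernel
theorem chkO_11 : allFrom 5500 500 cert.chkO = true := by decide +kernel
theorem chkO_12 : allFrom 6000 500 cert.chkO = true := by decide +kernel
theorem chkO_13 : allFrom 6500 500 cert.chkO = true := by decide +kernel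
theorem chkO_14 : allFrom 7000 500 cert.chkO = true := by decide +kernel
theorem chkO_15 : allFrom 7500 500 cert.chkO = true := by decide +kernel

theorem chkO_f1 : allFrom 4000 4000 cert.chkO = true :=
  (allFrom_join (lo := 4000) (a := 3500) (b := 500) (allFrom_join (lo := 4000) (a := 3000) (b := 500) (allFrom_join (lo := 4000) (a := 2500) (b := 500) (allFrom_join (lo := 4000) (a := 2000) (b := 500) (allFrom_join (lo := 4000) (a := 1500) (b := 500) (allFrom_join (lo := 4000) (a := 1000) (b := 500) (allFrom_join (lo := 4000) (a := 500) (b := 500) chkO_8 chkO_9) chkO_10) chkO_11) chkO_12) chkO_13) chkO_14) chkO_15)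

end Cfsg.Agent.Lib.Helper39.ONL
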