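import Cfsg.Agent.Lib.Helper39.ONLData

set_option maxRecDepth 100000
set_option maxHeartbeats 0

namespace Cfsg.Agent.Lib.Helper39.ONL
open Cfsg.Agent.Lib.Helper38 

theorem chkO_80 : allFrom 40000 500 cert.chkO = true := by decide +kernel
theorem chkO_81 : allFrom 40500 500 cert.chkO = true := by decide +kernel
theorem chkO_82 : allFrom 41000 500 cert.chkO = true := by decide +kernel
theorem chkO_83 : allFrom 41500 500 cert.chkO = true := by decide +kernel
theorem chkO_84 : allFrom 42000 500 cert.chkO = true := by decide +kernel
theorem chkO_85 : allFrom 42500 500 cert.chkO = true := by decide +kernel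
theorem chkO_86 : allFrom 43000 500 cert.chkO = true := by decide +kernel
theorem chkO_87 : allFrom 43500 500 cert.chkO = true := by decide +kernel

theorem chkO_f10 : allFrom 40000 4000 cert.chkO = true :=
  (allFrom_join (lo := 40000) (a := 3500) (b := 500) (allFrom_join (lo := 40000) (a := 3000) (b := 500) (allFrom_join (lo := 40000) (a := 2500) (b := 500) (allFrom_join (lo := 40000) (a := 2000) (b := 500) (allFrom_join (lo := 40000) (a := 1500) (b := 500) (allFrom_join (lo := 40000) (a := 1000) (b := 500) (allFrom_join (lo := 40000) (a := 500) (b := 500) chkO_80 chkO_81) chkO_82) chkO_83) chkO_84) chkO_85) chkO_86) chkO_87)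

end Cfsg.Agent.Lib.Helper39.ONL
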