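import Cfsg.Agent.Lib.Helper39.ONLData

set_option maxRecDepth 100000
set_option maxHeartbeats 0

namespace Cfsg.Agent.Lib.Helper39.ONL
open Cfsg.Agent.Lib.Helper38 

theorem chkO_136 : allFrom 68000 500 cert.chkO = true := by decide +kernel
theorem chkO_137 : allFrom 68500 500 cert.chkO = true := by decide +kernel
theorem chkO_138 : allFrom 69000 500 cert.chkO = true := by decide +kernel
theorem chkO_139 : allFrom 69500 500 cert.chkO = true := by decide +kernel
theorem chkO_140 : allFrom 70000 500 cert.chkO = true := by decide +kernel
theorem chkO_141 : allFrom 70500 500 cert.chkO = true := by decide +kernel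
theorem chkO_142 : allFrom 71000 500 cert.chkO = true := by decide +kernel
theorem chkO_143 : allFrom 71500 500 cert.chkO = true := by decide +kernel

theorem chkO_f17 : allFrom 68000 4000 cert.chkO = true :=
  (allFrom_join (lo := 68000) (a := 3500) (b := 500) (allFrom_join (lo := 68000) (a := 3000) (b := 500) (allFrom_join (lo := 68000) (a := 2500) (b := 500) (allFrom_join (lo := 68000) (a := 2000) (b := 500) (allFrom_join (lo := 68000) (a := 1500) (b := 500) (allFrom_join (lo := 68000) (a := 1000) (b := 500) (allFrom_join (lo := 68000) (a := 500) (b := 500) chkO_136 chkO_137) chkO_138) chkO_139) chkO_140) chkO_141) chkO_142) chkO_143)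

end Cfsg.Agent.Lib.Helper39.ONL
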