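import Cfsg.Agent.Lib.Helper39.ONLData

set_option maxRecDepth 100000
set_option maxHeartbeats 0

namespace Cfsg.Agent.Lib.Helper39.ONL
open Cfsg.Agent.Lib.Helper38 

theorem chkO_144 : allFrom 72000 500 cert.chkO = true := by decide +kernel
theorem chkO_145 : allFrom 72500 500 cert.chkO = true := by decide +kernel
theorem chkO_146 : allFrom 73000 500 cert.chkO = true := by decide +kernel
theorem chkO_147 : allFrom 73500 500 cert.chkO = true := by decide +kernel
theorem chkO_148 : allFrom 74000 500 cert.chkO = true := by decide +kernel
theorem chkO_149 : allFrom 74500 500 cert.chkO = true := by decide +kernel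
theorem chkO_150 : allFrom 75000 500 cert.chkO = true := by decide +kernel
theorem chkO_151 : allFrom 75500 500 cert.chkO = true := by decide +kernel

theorem chkO_f18 : allFrom 72000 4000 cert.chkO = true :=
  (allFrom_join (lo := 72000) (a := 3500) (b := 500) (allFrom_join (lo := 72000) (a := 3000) (b := 500) (allFrom_join (lo := 72000) (a := 2500) (b := 500) (allFrom_join (lo := 72000) (a := 2000) (b := 500) (allFrom_join (lo := 72000) (a := 1500) (b := 500) (allFrom_join (lo := 72000) (a := 1000) (b := 500) (allFrom_join (lo := 72000) (a := 500) (b := 500) chkO_144 chkO_145) chkO_146) chkO_147) chkO_148) chkO_149) chkO_150) chkO_151)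

end Cfsg.Agent.Lib.Helper39.ONL
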