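import Cfsg.Agent.Lib.Helper39.ONLData

set_option maxRecDepth 100000
set_option maxHeartbeats 0

namespace Cfsg.Agent.Lib.Helper39.ONL
open Cfsg.Agent.Lib.Helper38 

theorem chkO_152 : allFrom 76000 500 cert.chkO = true := by decide +kernel
theorem chkO_153 : allFrom 76500 500 cert.chkO = true := by decide +kernel
theorem chkO_154 : allFrom 77000 500 cert.chkO = true := by decide +kernel
theorem chkO_155 : allFrom 77500 500 cert.chkO = true := by decide +kernel
theorem chkO_156 : allFrom 78000 500 cert.chkO = true := by decide +kernel
theorem chkO_157 : allFrom 78500 500 cert.chkO = true := by decide +kernel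
theorem chkO_158 : allFrom 79000 500 cert.chkO = true := by decide +kernel
theorem chkO_159 : allFrom 79500 500 cert.chkO = true := by decide +kernel

theorem chkO_f19 : allFrom 76000 4000 cert.chkO = true :=
  (allFrom_join (lo := 76000) (a := 3500) (b := 500) (allFrom_join (lo := 76000) (a := 3000) (b := 500) (allFrom_join (lo := 76000) (a := 2500) (b := 500) (allFrom_join (lo := 76000) (a := 2000) (b := 500) (allFrom_join (lo := 76000) (a := 1500) (b := 500) (allFrom_join (lo := 76000) (a := 1000) (b := 500) (allFrom_join (lo := 76000) (a := 500) (b := 500) chkO_152 chkO_153) chkO_154) chkO_155) chkO_156) chkO_157) chkO_158) chkO_159)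

end Cfsg.Agent.Lib.Helper39.ONL
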