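import Cfsg.Agent.Lib.Helper39.ONLData

set_option maxRecDepth 100000
set_option maxHeartbeats 0

namespace Cfsg.Agent.Lib.Helper39.ONL
open Cfsg.Agent.Lib.Helper38 

theorem chkO_160 : allFrom 80000 500 cert.chkO = true := by decide +kernel
theorem chkO_161 : allFrom 80500 500 cert.chkO = true := by decide +kernel
theorem chkO_162 : allFrom 81000 500 cert.chkO = true := by decide +kernel
theorem chkO_163 : allFrom 81500 500 cert.chkO = true := by decide +kernel
theorem chkO_164 : allFrom 82000 500 cert.chkO = true := by decide +kernel
theorem chkO_165 : allFrom 82500 500 cert.chkO = true := by decide +kernel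
theorem chkO_166 : allFrom 83000 500 cert.chkO = true := by decide +kernel
theorem chkO_167 : allFrom 83500 500 cert.chkO = true := by decide +kernel

theorem chkO_f20 : allFrom 80000 4000 cert.chkO = true :=
  (allFrom_join (lo := 80000) (a := 3500) (b := 500) (allFrom_join (lo := 80000) (a := 3000) (b := 500) (allFrom_join (lo := 80000) (a := 2500) (b := 500) (allFrom_join (lo := 80000) (a := 2000) (b := 500) (allFrom_join (lo := 80000) (a := 1500) (b := 500) (allFrom_join (lo := 80000) (a := 1000) (b := 500) (allFrom_join (lo := 80000) (a := 500) (b := 500) chkO_160 chkO_161) chkO_162) chkO_163) chkO_164) chkO_165) chkO_166) chkO_167)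

end Cfsg.Agent.Lib.Helper39.ONL
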