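import Cfsg.Agent.Lib.Helper39.ONLData

set_option maxRecDepth 100000
set_option maxHeartbeats 0

namespace Cfsg.Agent.Lib.Helper39.ONL
open Cfsg.Agent.Lib.Helper38 

theorem chkO_184 : allFrom 92000 500 cert.chkO = true := by decide +kernel
theorem chkO_185 : allFrom 92500 500 cert.chkO = true := by decide +kernel
theorem chkO_186 : allFrom 93000 500 cert.chkO = true := by decide +kernel
theorem chkO_187 : allFrom 93500 500 cert.chkO = true := by decide +kernel
theorem chkO_188 : allFrom 94000 500 cert.chkO = true := by decide +kernel
theorem chkO_189 : allFrom 94500 500 cert.chkO = true := by decide +kernel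
theorem chkO_190 : allFrom 95000 500 cert.chkO = true := by decide +kernel
theorem chkO_191 : allFrom 95500 500 cert.chkO = true := by decide +kernel

theorem chkO_f23 : allFrom 92000 4000 cert.chkO = true :=
  (allFrom_join (lo := 92000) (a := 3500) (b := 500) (allFrom_join (lo := 92000) (a := 3000) (b := 500) (allFrom_join (lo := 92000) (a := 2500) (b := 500) (allFrom_join (lo := 92000) (a := 2000) (b := 500) (allFrom_join (lo := 92000) (a := 1500) (b := 500) (allFrom_join (lo := 92000) (a := 1000) (b := 500) (allFrom_join (lo := 92000) (a := 500) (b := 500) chkO_184 chkO_185) chkO_186) chkO_187) chkO_188) chkO_189) chkO_190) chkO_191)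

end Cfsg.Agent.Lib.Helper39.ONL
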