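import Cfsg.Agent.Lib.Helper39.ONLData

set_option maxRecDepth 100000
set_option maxHeartbeats 0

namespace Cfsg.Agent.Lib.Helper39.ONL
open Cfsg.Agent.Lib.Helper38 

theorem chkO_192 : allFrom 96000 500 cert.chkO = true := by decide +kernel
theorem chkO_193 : allFrom 96500 500 cert.chkO = true := by decide +kernel
theorem chkO_194 : allFrom 97000 500 cert.chkO = true := by decide +kernel
theorem chkO_195 : allFrom 97500 500 cert.chkO = true := by decide +kernel
theorem chkO_196 : allFrom 98000 500 cert.chkO = true := by decide +kernel
theorem chkO_197 : allFrom 98500 500 cert.chkO = true := by decide +kernel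
theorem chkO_198 : allFrom 99000 500 cert.chkO = true := by decide +kernel
theorem chkO_199 : allFrom 99500 500 cert.chkO = true := by decide +kernel

theorem chkO_f24 : allFrom 96000 4000 cert.chkO = true :=
  (allFrom_join (lo := 96000) (a := 3500) (b := 500) (allFrom_join (lo := 96000) (a := 3000) (b := 500) (allFrom_join (lo := 96000) (a := 2500) (b := 500) (allFrom_join (lo := 96000) (a := 2000) (b := 500) (allFrom_join (lo := 96000) (a := 1500) (b := 500) (allFrom_join (lo := 96000) (a := 1000) (b := 500) (allFrom_join (lo := 96000) (a := 500) (b := 500) chkO_192 chkO_193) chkO_194) chkO_195) chkO_196) chkO_197) chkO_198) chkO_199)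

end Cfsg.Agent.Lib.Helper39.ONL
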