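import Cfsg.Agent.Lib.Helper39.ONLData

set_option maxRecDepth 100000
set_option maxHeartbeats 0

namespace Cfsg.Agent.Lib.Helper39.ONL
open Cfsg.Agent.Lib.Helper38 

theorem chkO_200 : allFrom 100000 500 cert.chkO = true := by decide +kernel
theorem chkO_201 : allFrom 100500 500 cert.chkO = true := by decide +kernel
theorem chkO_202 : allFrom 101000 500 cert.chkO = true := by decide +kernel
theorem chkO_203 : allFrom 101500 500 cert.chkO = true := by decide +kernel
theorem chkO_204 : allFrom 102000 500 cert.chkO = true := by decide +kernel
theorem chkO_205 : allFrom 102500 500 cert.chkO = true := by decide +kernel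
theorem chkO_206 : allFrom 103000 500 cert.chkO = true := by decide +kernel
theorem chkO_207 : allFrom 103500 500 cert.chkO = true := by decide +kernel

theorem chkO_f25 : allFrom 100000 4000 cert.chkO = true :=
  (allFrom_join (lo := 100000) (a := 3500) (b := 500) (allFrom_join (lo := 100000) (a := 3000) (b := 500) (allFrom_join (lo := 100000) (a := 2500) (b := 500) (allFrom_join (lo := 100000) (a := 2000) (b := 500) (allFrom_join (lo := 100000) (a := 1500) (b := 500) (allFrom_join (lo := 100000) (a := 1000) (b := 500) (allFrom_join (lo := 100000) (a := 500) (b := 500) chkO_200 chkO_201) chkO_202) chkO_203) chkO_204) chkO_205) chkO_206) chkO_207)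

end Cfsg.Agent.Lib.Helper39.ONL
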