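import Cfsg.Agent.Lib.Helper39.ONLData

set_option maxRecDepth 100000
set_option maxHeartbeats 0

namespace Cfsg.Agent.Lib.Helper39.ONL
open Cfsg.Agent.Lib.Helper38 

theorem chkO_232 : allFrom 116000 500 cert.chkO = true := by decide +kernel
theorem chkO_233 : allFrom 116500 500 cert.chkO = true := by decide +kernel
theorem chkO_234 : allFrom 117000 500 cert.chkO = true := by decide +kernel
theorem chkO_235 : allFrom 117500 500 cert.chkO = true := by decide +kernel
theorem chkO_236 : allFrom 118000 500 cert.chkO = true := by decide +kernel
theorem chkO_237 : allFrom 118500 500 cert.chkO = true := by decide +kernel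
theorem chkO_238 : allFrom 119000 500 cert.chkO = true := by decide +kernel
theorem chkO_239 : allFrom 119500 500 cert.chkO = true := by decide +kernel

theorem chkO_f29 : allFrom 116000 4000 cert.chkO = true :=
  (allFrom_join (lo := 116000) (a := 3500) (b := 500) (allFrom_join (lo := 116000) (a := 3000) (b := 500) (allFrom_join (lo := 116000) (a := 2500) (b := 500) (allFrom_join (lo := 116000) (a := 2000) (b := 500) (allFrom_join (lo := 116000) (a := 1500) (b := 500) (allFrom_join (lo := 116000) (a := 1000) (b := 500) (allFrom_join (lo := 116000) (a := 500) (b := 500) chkO_232 chkO_233) chkO_234) chkO_235) chkO_236) chkO_237) chkO_238) chkO_239)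

end Cfsg.Agent.Lib.Helper39.ONL
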