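import Cfsg.Agent.Lib.Helper39.ONLData

set_option maxRecDepth 100000
set_option maxHeartbeats 0

namespace Cfsg.Agent.Lib.Helper39.ONL
open Cfsg.Agent.Lib.Helper38 

theorem chkO_240 : allFrom 120000 500 cert.chkO = true := by decide +kernel
theorem chkO_241 : allFrom 120500 500 cert.chkO = true := by decide +kernel
theorem chkO_242 : allFrom 121000 500 cert.chkO = true := by decide +kernel
theorem chkO_243 : allFrom 121500 500 cert.chkO = true := by decide +kernel
theorem chkO_244 : allFrom 122000 500 cert.chkO = true := by decide +kernel
theorem chkO_245 : allFrom 122500 260 cert.chkO = true := by decide +kernel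

theorem chkO_f30 : allFrom 120000 2760 cert.chkO = true :=
  (allFrom_join (lo := 120000) (a := 2500) (b := 260) (allFrom_join (lo := 120000) (a := 2000) (b := 500) (allFrom_join (lo := 120000) (a := 1500) (b := 500) (allFrom_join (lo := 120000) (a := 1000) (b := 500) (allFrom_join (lo := 120000) (a := 500) (b := 500) chkO_240 chkO_241) chkO_242) chkO_243) chkO_244) chkO_245)

end Cfsg.Agent.Lib.Helper39.ONL
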