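import Cfsg.Agent.Lib.Helper39.ONLData

set_option maxRecDepth 100000
set_option maxHeartbeats 0

namespace Cfsg.Agent.Lib.Helper39.ONL
open Cfsg.Agent.Lib.Helper38 

theorem chkO_32 : allFrom 16000 500 cert.chkO = true := by decide +kernel
theorem chkO_33 : allFrom 16500 500 cert.chkO = true := by decide +kernel
theorem chkO_34 : allFrom 17000 500 cert.chkO = true := by decide +kernel
theorem chkO_35 : allFrom 17500 500 cert.chkO = true := by decide +kernel
theorem chkO_36 : allFrom 18000 500 cert.chkO = true := by decide +kernel
theorem chkO_37 : allFrom 18500 500 cert.chkO = true := by decide +kernel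
theorem chkO_38 : allFrom 19000 500 cert.chkO = true := by decide +kernel
theorem chkO_39 : allFrom 19500 500 cert.chkO = true := by decide +kernel

theorem chkO_f4 : allFrom 16000 4000 cert.chkO = true :=
  (allFrom_join (lo := 16000) (a := 3500) (b := 500) (allFrom_join (lo := 16000) (a := 3000) (b := 500) (allFrom_join (lo := 16000) (a := 2500) (b := 500) (allFrom_join (lo := 16000) (a := 2000) (b := 500) (allFrom_join (lo := 16000) (a := 1500) (b := 500) (allFrom_join (lo := 16000) (a := 1000) (b := 500) (allFrom_join (lo := 16000) (a := 500) (b := 500) chkO_32 chkO_33) chkO_34) chkO_35) chkO_36) chkO_37) chkO_38) chkO_39)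

end Cfsg.Agent.Lib.Helper39.ONL
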