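import Cfsg.Agent.Lib.Helper39.ONLData

set_option maxRecDepth 100000
set_option maxHeartbeats 0

namespace Cfsg.Agent.Lib.Helper39.ONL
open Cfsg.Agent.Lib.Helper38 

theorem chkO_40 : allFrom 20000 500 cert.chkO = true := by decide +kernel
theorem chkO_41 : allFrom 20500 500 cert.chkO = true := by decide +kernel
theorem chkO_42 : allFrom 21000 500 cert.chkO = true := by decide +kernel
theorem chkO_43 : allFrom 21500 500 cert.chkO = true := by decide +kernel
theorem chkO_44 : allFrom 22000 500 cert.chkO = true := by decide +kernel
theorem chkO_45 : allFrom 22500 500 cert.chkO = true := by decide +kernel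
theorem chkO_46 : allFrom 23000 500 cert.chkO = true := by decide +kernel
theorem chkO_47 : allFrom 23500 500 cert.chkO = true := by decide +kernel

theorem chkO_f5 : allFrom 20000 4000 cert.chkO = true :=
  (allFrom_join (lo := 20000) (a := 3500) (b := 500) (allFrom_join (lo := 20000) (a := 3000) (b := 500) (allFrom_join (lo := 20000) (a := 2500) (b := 500) (allFrom_join (lo := 20000) (a := 2000) (b := 500) (allFrom_join (lo := 20000) (a := 1500) (b := 500) (allFrom_join (lo := 20000) (a := 1000) (b := 500) (allFrom_join (lo := 20000) (a := 500) (b := 500) chkO_40 chkO_41) chkO_42) chkO_43) chkO_44) chkO_45) chkO_46) chkO_47)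

end Cfsg.Agent.Lib.Helper39.ONL
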