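import Cfsg.Agent.Lib.Helper39.ONLData

set_option maxRecDepth 100000
set_option maxHeartbeats 0

namespace Cfsg.Agent.Lib.Helper39.ONL
open Cfsg.Agent.Lib.Helper38 

theorem chkO_48 : allFrom 24000 500 cert.chkO = true := by decide +kernel
theorem chkO_49 : allFrom 24500 500 cert.chkO = true := by decide +kernel
theorem chkO_50 : allFrom 25000 500 cert.chkO = true := by decide +kernel
theorem chkO_51 : allFrom 25500 500 cert.chkO = true := by decide +kernel
theorem chkO_52 : allFrom 26000 500 cert.chkO = true := by decide +kernel
theorem chkO_53 : allFrom 26500 500 cert.chkO = true := by decide +kernel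
theorem chkO_54 : allFrom 27000 500 cert.chkO = true := by decide +kernel
theorem chkO_55 : allFrom 27500 500 cert.chkO = true := by decide +kernel

theorem chkO_f6 : allFrom 24000 4000 cert.chkO = true :=
  (allFrom_join (lo := 24000) (a := 3500) (b := 500) (allFrom_join (lo := 24000) (a := 3000) (b := 500) (allFrom_join (lo := 24000) (a := 2500) (b := 500) (allFrom_join (lo := 24000) (a := 2000) (b := 500) (allFrom_join (lo := 24000) (a := 1500) (b := 500) (allFrom_join (lo := 24000) (a := 1000) (b := 500) (allFrom_join (lo := 24000) (a := 500) (b := 500) chkO_48 chkO_49) chkO_50) chkO_51) chkO_52) chkO_53) chkO_54) chkO_55)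

end Cfsg.Agent.Lib.Helper39.ONL
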