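import Cfsg.Agent.Lib.Helper39.ONLData

set_option maxRecDepth 100000
set_option maxHeartbeats 0

namespace Cfsg.Agent.Lib.Helper39.ONL
open Cfsg.Agent.Lib.Helper38 

theorem chkO_56 : allFrom 28000 500 cert.chkO = true := by decide +kernel
theorem chkO_57 : allFrom 28500 500 cert.chkO = true := by decide +kernel
theorem chkO_58 : allFrom 29000 500 cert.chkO = true := by decide +kernel
theorem chkO_59 : allFrom 29500 500 cert.chkO = true := by decide +kernel
theorem chkO_60 : allFrom 30000 500 cert.chkO = true := by decide +kernel
theorem chkO_61 : allFrom 30500 500 cert.chkO = true := by decide +kernel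
theorem chkO_62 : allFrom 31000 500 cert.chkO = true := by decide +kernel
theorem chkO_63 : allFrom 31500 500 cert.chkO = true := by decide +kernel

theorem chkO_f7 : allFrom 28000 4000 cert.chkO = true :=
  (allFrom_join (lo := 28000) (a := 3500) (b := 500) (allFrom_join (lo := 28000) (a := 3000) (b := 500) (allFrom_join (lo := 28000) (a := 2500) (b := 500) (allFrom_join (lo := 28000) (a := 2000) (b := 500) (allFrom_join (lo := 28000) (a := 1500) (b := 500) (allFrom_join (lo := 28000) (a := 1000) (b := 500) (allFrom_join (lo := 28000) (a := 500) (b := 500) chkO_56 chkO_57) chkO_58) chkO_59) chkO_60) chkO_61) chkO_62) chkO_63)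

end Cfsg.Agent.Lib.Helper39.ONL
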