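import Cfsg.Agent.Lib.Helper39.ONLData

set_option maxRecDepth 100000
set_option maxHeartbeats 0

namespace Cfsg.Agent.Lib.Helper39.ONL
open Cfsg.Agent.Lib.Helper38 

theorem chkO_64 : allFrom 32000 500 cert.chkO = true := by decide +kernel
theorem chkO_65 : allFrom 32500 500 cert.chkO = true := by decide +kernel
theorem chkO_66 : allFrom 33000 500 cert.chkO = true := by decide +kernel
theorem chkO_67 : allFrom 33500 500 cert.chkO = true := by decide +kernel
theorem chkO_68 : allFrom 34000 500 cert.chkO = true := by decide +kernel
theorem chkO_69 : allFrom 34500 500 cert.chkO = true := by decide +kernel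
theorem chkO_70 : allFrom 35000 500 cert.chkO = true := by decide +kernel
theorem chkO_71 : allFrom 35500 500 cert.chkO = true := by decide +kernel

theorem chkO_f8 : allFrom 32000 4000 cert.chkO = true :=
  (allFrom_join (lo := 32000) (a := 3500) (b := 500) (allFrom_join (lo := 32000) (a := 3000) (b := 500) (allFrom_join (lo := 32000) (a := 2500) (b := 500) (allFrom_join (lo := 32000) (a := 2000) (b := 500) (allFrom_join (lo := 32000) (a := 1500) (b := 500) (allFrom_join (lo := 32000) (a := 1000) (b := 500) (allFrom_join (lo := 32000) (a := 500) (b := 500) chkO_64 chkO_65) chkO_66) chkO_67) chkO_68) chkO_69) chkO_70) chkO_71)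

end Cfsg.Agent.Lib.Helper39.ONL
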