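import Cfsg.Agent.Lib.Helper39.ONLData

set_option maxRecDepth 100000
set_option maxHeartbeats 0

namespace Cfsg.Agent.Lib.Helper39.ONL
open Cfsg.Agent.Lib.Helper38 

theorem chkO_72 : allFrom 36000 500 cert.chkO = true := by decide +kernel
theorem chkO_73 : allFrom 36500 500 cert.chkO = true := by decide +kernel
theorem chkO_74 : allFrom 37000 500 cert.chkO = true := by decide +kernel
theorem chkO_75 : allFrom 37500 500 cert.chkO = true := by decide +kernel
theorem chkO_76 : allFrom 38000 500 cert.chkO = true := by decide +kernel
theorem chkO_77 : allFrom 38500 500 cert.chkO = true := by decide +kernel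
theorem chkO_78 : allFrom 39000 500 cert.chkO = true := by decide +kernel
theorem chkO_79 : allFrom 39500 500 cert.chkO = true := by decide +kernel

theorem chkO_f9 : allFrom 36000 4000 cert.chkO = true :=
  (allFrom_join (lo := 36000) (a := 3500) (b := 500) (allFrom_join (lo := 36000) (a := 3000) (b := 500) (allFrom_join (lo := 36000) (a := 2500) (b := 500) (allFrom_join (lo := 36000) (a := 2000) (b := 500) (allFrom_join (lo := 36000) (a := 1500) (b := 500) (allFrom_join (lo := 36000) (a := 1000) (b := 500) (allFrom_join (lo := 36000) (a := 500) (b := 500) chkO_72 chkO_73) chkO_74) chkO_75) chkO_76) chkO_77) chkO_78) chkO_79)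

end Cfsg.Agent.Lib.Helper39.ONL
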