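import Cfsg.Agent.Lib.Helper39.ONLData
import Cfsg.Agent.Lib.Helper39.CosetICore

set_option maxRecDepth 100000
set_option maxHeartbeats 0

namespace Cfsg.Agent.Lib.Helper39.ONL
open Cfsg.Agent.Lib.Helper38 Cfsg.Agent.Lib.Helper39

theorem chkV_0 : allFrom 0 500 (chkVI cert 1) = true := by decide +kernel
theorem chkV_1 : allFrom 500 500 (chkVI cert 1) = true := by decide +kernel
theorem chkV_2 : allFrom 1000 500 (chkVI cert 1) = true := by decide +kernel
theorem chkV_3 : allFrom 1500 500 (chkVI cert 1) = true := by decide +kernel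
theorem chkV_4 : allFrom 2000 500 (chkVI cert 1) = true := by decide +kernel
theorem chkV_5 : allFrom 2500 500 (chkVI cert 1) = true := by decide +kernel
theorem chkV_6 : allFrom 3000 500 (chkVI cert 1) = true := by decide +kernel
theorem chkV_7 : allFrom 3500 500 (chkVI cert 1) = true := by decide +kernel

theorem chkV_f0 : allFrom 0 4000 (chkVI cert 1) = true :=
  (allFrom_join (lo := 0) (a := 3500) (b := 500) (allFrom_join (lo := 0) (a := 3000) (b := 500) (allFrom_join (lo := 0) (a := 2500) (b := 500) (allFrom_join (lo := 0) (a := 2000) (b := 500) (allFrom_join (lo := 0) (a := 1500) (b := 500) (allFrom_join (lo := 0) (a := 1000) (b := 500) (allFrom_join (lo := 0) (a := 500) (b := 500) chkV_0 chkV_1) chkV_2) chkV_3) chkV_4) chkV_5) chkV_6) chkV_7)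

end Cfsg.Agent.Lib.Helper39.ONL
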