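import Cfsg.Agent.Lib.Helper39.ONLData
import Cfsg.Agent.Lib.Helper39.CosetICore

set_option maxRecDepth 100000
set_option maxHeartbeats 0

namespace Cfsg.Agent.Lib.Helper39.ONL
open Cfsg.Agent.Lib.Helper38 Cfsg.Agent.Lib.Helper39

theorem chkV_88 : allFrom 44000 500 (chkVI cert 1) = true := by decide +kernel
theorem chkV_89 : allFrom 44500 500 (chkVI cert 1) = true := by decide +kernel
theorem chkV_90 : allFrom 45000 500 (chkVI cert 1) = true := by decide +kernel
theorem chkV_91 : allFrom 45500 500 (chkVI cert 1) = true := by decide +kernel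
theorem chkV_92 : allFrom 46000 500 (chkVI cert 1) = true := by decide +kernel
theorem chkV_93 : allFrom 46500 500 (chkVI cert 1) = true := by decide +kernel
theorem chkV_94 : allFrom 47000 500 (chkVI cert 1) = true := by decide +kernel
theorem chkV_95 : allFrom 47500 500 (chkVI cert 1) = true := by decide +kernel

theorem chkV_f11 : allFrom 44000 4000 (chkVI cert 1) = true :=
  (allFrom_join (lo := 44000) (a := 3500) (b := 500) (allFrom_join (lo := 44000) (a := 3000) (b := 500) (allFrom_join (lo := 44000) (a := 2500) (b := 500) (allFrom_join (lo := 44000) (a := 2000) (b := 500) (allFrom_join (lo := 44000) (a := 1500) (b := 500) (allFrom_join (lo := 44000) (a := 1000) (b := 500) (allFrom_join (lo := 44000) (a := 500) (b := 500) chkV_88 chkV_89) chkV_90) chkV_91) chkV_92) chkV_93) chkV_94) chkV_95)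

end Cfsg.Agent.Lib.Helper39.ONL
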