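import Cfsg.Agent.Lib.Helper39.ONLData
import Cfsg.Agent.Lib.Helper39.CosetICore

set_option maxRecDepth 100000
set_option maxHeartbeats 0

namespace Cfsg.Agent.Lib.Helper39.ONL
open Cfsg.Agent.Lib.Helper38 Cfsg.Agent.Lib.Helper39

theorem chkV_120 : allFrom 60000 500 (chkVI cert 1) = true := by decide +kernel
theorem chkV_121 : allFrom 60500 500 (chkVI cert 1) = true := by decide +kernel
theorem chkV_122 : allFrom 61000 500 (chkVI cert 1) = true := by decide +kernel
theorem chkV_123 : allFrom 61500 500 (chkVI cert 1) = true := by decide +kernel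
theorem chkV_124 : allFrom 62000 500 (chkVI cert 1) = true := by decide +kernel
theorem chkV_125 : allFrom 62500 500 (chkVI cert 1) = true := by decide +kernel
theorem chkV_126 : allFrom 63000 500 (chkVI cert 1) = true := by decide +kernel
theorem chkV_127 : allFrom 63500 500 (chkVI cert 1) = true := by decide +kernel

theorem chkV_f15 : allFrom 60000 4000 (chkVI cert 1) = true :=
  (allFrom_join (lo := 60000) (a := 3500) (b := 500) (allFrom_join (lo := 60000) (a := 3000) (b := 500) (allFrom_join (lo := 60000) (a := 2500) (b := 500) (allFrom_join (lo := 60000) (a := 2000) (b := 500) (allFrom_join (lo := 60000) (a := 1500) (b := 500) (allFrom_join (lo := 60000) (a := 1000) (b := 500) (allFrom_join (lo := 60000) (a := 500) (b := 500) chkV_120 chkV_121) chkV_122) chkV_123) chkV_124) chkV_125) chkV_126) chkV_127)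

end Cfsg.Agent.Lib.Helper39.ONL
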