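import Cfsg.Agent.Lib.Helper39.ONLData
import Cfsg.Agent.Lib.Helper39.CosetICore

set_option maxRecDepth 100000
set_option maxHeartbeats 0

namespace Cfsg.Agent.Lib.Helper39.ONL
open Cfsg.Agent.Lib.Helper38 Cfsg.Agent.Lib.Helper39

theorem chkV_136 : allFrom 68000 500 (chkVI cert 1) = true := by decide +kernel
theorem chkV_137 : allFrom 68500 500 (chkVI cert 1) = true := by decide +kernel
theorem chkV_138 : allFrom 69000 500 (chkVI cert 1) = true := by decide +kernel
theorem chkV_139 : allFrom 69500 500 (chkVI cert 1) = true := by decide +kernel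
theorem chkV_140 : allFrom 70000 500 (chkVI cert 1) = true := by decide +kernel
theorem chkV_141 : allFrom 70500 500 (chkVI cert 1) = true := by decide +kernel
theorem chkV_142 : allFrom 71000 500 (chkVI cert 1) = true := by decide +kernel
theorem chkV_143 : allFrom 71500 500 (chkVI cert 1) = true := by decide +kernel

theorem chkV_f17 : allFrom 68000 4000 (chkVI cert 1) = true :=
  (allFrom_join (lo := 68000) (a := 3500) (b := 500) (allFrom_join (lo := 68000) (a := 3000) (b := 500) (allFrom_join (lo := 68000) (a := 2500) (b := 500) (allFrom_join (lo := 68000) (a := 2000) (b := 500) (allFrom_join (lo := 68000) (a := 1500) (b := 500) (allFrom_join (lo := 68000) (a := 1000) (b := 500) (allFrom_join (lo := 68000) (a := 500) (b := 500) chkV_136 chkV_137) chkV_138) chkV_139) chkV_140) chkV_141) chkV_142) chkV_143)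

end Cfsg.Agent.Lib.Helper39.ONL
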