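import Cfsg.Agent.Lib.Helper39.ONLData
import Cfsg.Agent.Lib.Helper39.CosetICore

set_option maxRecDepth 100000
set_option maxHeartbeats 0

namespace Cfsg.Agent.Lib.Helper39.ONL
open Cfsg.Agent.Lib.Helper38 Cfsg.Agent.Lib.Helper39

theorem chkV_192 : allFrom 96000 500 (chkVI cert 1) = true := by decide +kernel
theorem chkV_193 : allFrom 96500 500 (chkVI cert 1) = true := by decide +kernel
theorem chkV_194 : allFrom 97000 500 (chkVI cert 1) = true := by decide +kernel
theorem chkV_195 : allFrom 97500 500 (chkVI cert 1) = true := by decide +kernel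
theorem chkV_196 : allFrom 98000 500 (chkVI cert 1) = true := by decide +kernel
theorem chkV_197 : allFrom 98500 500 (chkVI cert 1) = true := by decide +kernel
theorem chkV_198 : allFrom 99000 500 (chkVI cert 1) = true := by decide +kernel
theorem chkV_199 : allFrom 99500 500 (chkVI cert 1) = true := by decide +kernel

theorem chkV_f24 : allFrom 96000 4000 (chkVI cert 1) = true :=
  (allFrom_join (lo := 96000) (a := 3500) (b := 500) (allFrom_join (lo := 96000) (a := 3000) (b := 500) (allFrom_join (lo := 96000) (a := 2500) (b := 500) (allFrom_join (lo := 96000) (a := 2000) (b := 500) (allFrom_join (lo := 96000) (a := 1500) (b := 500) (allFrom_join (lo := 96000) (a := 1000) (b := 500) (allFrom_join (lo := 96000) (a := 500) (b := 500) chkV_192 chkV_193) chkV_194) chkV_195) chkV_196) chkV_197) chkV_198) chkV_199)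

end Cfsg.Agent.Lib.Helper39.ONL
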