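import Cfsg.Agent.Lib.Helper39.ONLData
import Cfsg.Agent.Lib.Helper39.CosetICore

set_option maxRecDepth 100000
set_option maxHeartbeats 0

namespace Cfsg.Agent.Lib.Helper39.ONL
open Cfsg.Agent.Lib.Helper38 Cfsg.Agent.Lib.Helper39

theorem chkV_216 : allFrom 108000 500 (chkVI cert 1) = true := by decide +kernel
theorem chkV_217 : allFrom 108500 500 (chkVI cert 1) = true := by decide +kernel
theorem chkV_218 : allFrom 109000 500 (chkVI cert 1) = true := by decide +kernel
theorem chkV_219 : allFrom 109500 500 (chkVI cert 1) = true := by decide +kernel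
theorem chkV_220 : allFrom 110000 500 (chkVI cert 1) = true := by decide +kernel
theorem chkV_221 : allFrom 110500 500 (chkVI cert 1) = true := by decide +kernel
theorem chkV_222 : allFrom 111000 500 (chkVI cert 1) = true := by decide +kernel
theorem chkV_223 : allFrom 111500 500 (chkVI cert 1) = true := by decide +kernel

theorem chkV_f27 : allFrom 108000 4000 (chkVI cert 1) = true :=
  (allFrom_join (lo := 108000) (a := 3500) (b := 500) (allFrom_join (lo := 108000) (a := 3000) (b := 500) (allFrom_join (lo := 108000) (a := 2500) (b := 500) (allFrom_join (lo := 108000) (a := 2000) (b := 500) (allFrom_join (lo := 108000) (a := 1500) (b := 500) (allFrom_join (lo := 108000) (a := 1000) (b := 500) (allFrom_join (lo := 108000) (a := 500) (b := 500) chkV_216 chkV_217) chkV_218) chkV_219) chkV_220) chkV_221) chkV_222) chkV_223)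

end Cfsg.Agent.Lib.Helper39.ONL
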