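import Cfsg.Agent.Lib.Helper39.ONLData
import Cfsg.Agent.Lib.Helper39.CosetICore

set_option maxRecDepth 100000
set_option maxHeartbeats 0

namespace Cfsg.Agent.Lib.Helper39.ONL
open Cfsg.Agent.Lib.Helper38 Cfsg.Agent.Lib.Helper39

theorem chkV_224 : allFrom 112000 500 (chkVI cert 1) = true := by decide +kernel
theorem chkV_225 : allFrom 112500 500 (chkVI cert 1) = true := by decide +kernel
theorem chkV_226 : allFrom 113000 500 (chkVI cert 1) = true := by decide +kernel
theorem chkV_227 : allFrom 113500 500 (chkVI cert 1) = true := by decide +kernel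
theorem chkV_228 : allFrom 114000 500 (chkVI cert 1) = true := by decide +kernel
theorem chkV_229 : allFrom 114500 500 (chkVI cert 1) = true := by decide +kernel
theorem chkV_230 : allFrom 115000 500 (chkVI cert 1) = true := by decide +kernel
theorem chkV_231 : allFrom 115500 500 (chkVI cert 1) = true := by decide +kernel

theorem chkV_f28 : allFrom 112000 4000 (chkVI cert 1) = true :=
  (allFrom_join (lo := 112000) (a := 3500) (b := 500) (allFrom_join (lo := 112000) (a := 3000) (b := 500) (allFrom_join (lo := 112000) (a := 2500) (b := 500) (allFrom_join (lo := 112000) (a := 2000) (b := 500) (allFrom_join (lo := 112000) (a := 1500) (b := 500) (allFrom_join (lo := 112000) (a := 1000) (b := 500) (allFrom_join (lo := 112000) (a := 500) (b := 500) chkV_224 chkV_225) chkV_226) chkV_227) chkV_228) chkV_229) chkV_230) chkV_231)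

end Cfsg.Agent.Lib.Helper39.ONL
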