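import Cfsg.Agent.Lib.Helper39.ONLData
import Cfsg.Agent.Lib.Helper39.CosetICore

set_option maxRecDepth 100000
set_option maxHeartbeats 0

namespace Cfsg.Agent.Lib.Helper39.ONL
open Cfsg.Agent.Lib.Helper38 Cfsg.Agent.Lib.Helper39

theorem chkV_232 : allFrom 116000 500 (chkVI cert 1) = true := by decide +kernel
theorem chkV_233 : allFrom 116500 500 (chkVI cert 1) = true := by decide +kernel
theorem chkV_234 : allFrom 117000 500 (chkVI cert 1) = true := by decide +kernel
theorem chkV_235 : allFrom 117500 500 (chkVI cert 1) = true := by decide +kernel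
theorem chkV_236 : allFrom 118000 500 (chkVI cert 1) = true := by decide +kernel
theorem chkV_237 : allFrom 118500 500 (chkVI cert 1) = true := by decide +kernel
theorem chkV_238 : allFrom 119000 500 (chkVI cert 1) = true := by decide +kernel
theorem chkV_239 : allFrom 119500 500 (chkVI cert 1) = true := by decide +kernel

theorem chkV_f29 : allFrom 116000 4000 (chkVI cert 1) = true :=
  (allFrom_join (lo := 116000) (a := 3500) (b := 500) (allFrom_join (lo := 116000) (a := 3000) (b := 500) (allFrom_join (lo := 116000) (a := 2500) (b := 500) (allFrom_join (lo := 116000) (a := 2000) (b := 500) (allFrom_join (lo := 116000) (a := 1500) (b := 500) (allFrom_join (lo := 116000) (a := 1000) (b := 500) (allFrom_join (lo := 116000) (a := 500) (b := 500) chkV_232 chkV_233) chkV_234) chkV_235) chkV_236) chkV_237) chkV_238) chkV_239)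

end Cfsg.Agent.Lib.Helper39.ONL
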