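import Cfsg.Agent.Lib.Helper39.ONLData
import Cfsg.Agent.Lib.Helper39.CosetICore

set_option maxRecDepth 100000
set_option maxHeartbeats 0

namespace Cfsg.Agent.Lib.Helper39.ONL
open Cfsg.Agent.Lib.Helper38 Cfsg.Agent.Lib.Helper39

theorem chkV_240 : allFrom 120000 500 (chkVI cert 1) = true := by decide +kernel
theorem chkV_241 : allFrom 120500 500 (chkVI cert 1) = true := by decide +kernel
theorem chkV_242 : allFrom 121000 500 (chkVI cert 1) = true := by decide +kernel
theorem chkV_243 : allFrom 121500 500 (chkVI cert 1) = true := by decide +kernel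
theorem chkV_244 : allFrom 122000 500 (chkVI cert 1) = true := by decide +kernel
theorem chkV_245 : allFrom 122500 500 (chkVI cert 1) = true := by decide +kernel
theorem chkV_246 : allFrom 123000 500 (chkVI cert 1) = true := by decide +kernel
theorem chkV_247 : allFrom 123500 500 (chkVI cert 1) = true := by decide +kernel

theorem chkV_f30 : allFrom 120000 4000 (chkVI cert 1) = true :=
  (allFrom_join (lo := 120000) (a := 3500) (b := 500) (allFrom_join (lo := 120000) (a := 3000) (b := 500) (allFrom_join (lo := 120000) (a := 2500) (b := 500) (allFrom_join (lo := 120000) (a := 2000) (b := 500) (allFrom_join (lo := 120000) (a := 1500) (b := 500) (allFrom_join (lo := 120000) (a := 1000) (b := 500) (allFrom_join (lo := 120000) (a := 500) (b := 500) chkV_240 chkV_241) chkV_242) chkV_243) chkV_244) chkV_245) chkV_246) chkV_247)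

end Cfsg.Agent.Lib.Helper39.ONL
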