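import Cfsg.Agent.Lib.Helper39.ONLData
import Cfsg.Agent.Lib.Helper39.CosetICore

set_option maxRecDepth 100000
set_option maxHeartbeats 0

namespace Cfsg.Agent.Lib.Helper39.ONL
open Cfsg.Agent.Lib.Helper38 Cfsg.Agent.Lib.Helper39

theorem chkV_248 : allFrom 124000 500 (chkVI cert 1) = true := by decide +kernel
theorem chkV_249 : allFrom 124500 500 (chkVI cert 1) = true := by decide +kernel
theorem chkV_250 : allFrom 125000 500 (chkVI cert 1) = true := by decide +kernel
theorem chkV_251 : allFrom 125500 500 (chkVI cert 1) = true := by decide +kernel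
theorem chkV_252 : allFrom 126000 500 (chkVI cert 1) = true := by decide +kernel
theorem chkV_253 : allFrom 126500 500 (chkVI cert 1) = true := by decide +kernel
theorem chkV_254 : allFrom 127000 500 (chkVI cert 1) = true := by decide +kernel
theorem chkV_255 : allFrom 127500 500 (chkVI cert 1) = true := by decide +kernel

theorem chkV_f31 : allFrom 124000 4000 (chkVI cert 1) = true :=
  (allFrom_join (lo := 124000) (a := 3500) (b := 500) (allFrom_join (lo := 124000) (a := 3000) (b := 500) (allFrom_join (lo := 124000) (a := 2500) (b := 500) (allFrom_join (lo := 124000) (a := 2000) (b := 500) (allFrom_join (lo := 124000) (a := 1500) (b := 500) (allFrom_join (lo := 124000) (a := 1000) (b := 500) (allFrom_join (lo := 124000) (a := 500) (b := 500) chkV_248 chkV_249) chkV_250) chkV_251) chkV_252) chkV_253) chkV_254) chkV_255)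

end Cfsg.Agent.Lib.Helper39.ONL
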