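import Cfsg.Agent.Lib.Helper39.ONLData
import Cfsg.Agent.Lib.Helper39.CosetICore

set_option maxRecDepth 100000
set_option maxHeartbeats 0

namespace Cfsg.Agent.Lib.Helper39.ONL
open Cfsg.Agent.Lib.Helper38 Cfsg.Agent.Lib.Helper39

theorem chkV_256 : allFrom 128000 500 (chkVI cert 1) = true := by decide +kernel
theorem chkV_257 : allFrom 128500 500 (chkVI cert 1) = true := by decide +kernel
theorem chkV_258 : allFrom 129000 500 (chkVI cert 1) = true := by decide +kernel
theorem chkV_259 : allFrom 129500 500 (chkVI cert 1) = true := by decide +kernel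
theorem chkV_260 : allFrom 130000 500 (chkVI cert 1) = true := by decide +kernel
theorem chkV_261 : allFrom 130500 500 (chkVI cert 1) = true := by decide +kernel
theorem chkV_262 : allFrom 131000 500 (chkVI cert 1) = true := by decide +kernel
theorem chkV_263 : allFrom 131500 500 (chkVI cert 1) = true := by decide +kernel

theorem chkV_f32 : allFrom 128000 4000 (chkVI cert 1) = true :=
  (allFrom_join (lo := 128000) (a := 3500) (b := 500) (allFrom_join (lo := 128000) (a := 3000) (b := 500) (allFrom_join (lo := 128000) (a := 2500) (b := 500) (allFrom_join (lo := 128000) (a := 2000) (b := 500) (allFrom_join (lo := 128000) (a := 1500) (b := 500) (allFrom_join (lo := 128000) (a := 1000) (b := 500) (allFrom_join (lo := 128000) (a := 500) (b := 500) chkV_256 chkV_257) chkV_258) chkV_259) chkV_260) chkV_261) chkV_262) chkV_263)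

end Cfsg.Agent.Lib.Helper39.ONL
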