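import Cfsg.Agent.Lib.Helper39.ONLData
import Cfsg.Agent.Lib.Helper39.CosetICore

set_option maxRecDepth 100000
set_option maxHeartbeats 0

namespace Cfsg.Agent.Lib.Helper39.ONL
open Cfsg.Agent.Lib.Helper38 Cfsg.Agent.Lib.Helper39

theorem chkV_264 : allFrom 132000 500 (chkVI cert 1) = true := by decide +kernel
theorem chkV_265 : allFrom 132500 500 (chkVI cert 1) = true := by decide +kernel
theorem chkV_266 : allFrom 133000 500 (chkVI cert 1) = true := by decide +kernel
theorem chkV_267 : allFrom 133500 500 (chkVI cert 1) = true := by decide +kernel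
theorem chkV_268 : allFrom 134000 500 (chkVI cert 1) = true := by decide +kernel
theorem chkV_269 : allFrom 134500 500 (chkVI cert 1) = true := by decide +kernel
theorem chkV_270 : allFrom 135000 500 (chkVI cert 1) = true := by decide +kernel
theorem chkV_271 : allFrom 135500 500 (chkVI cert 1) = true := by decide +kernel

theorem chkV_f33 : allFrom 132000 4000 (chkVI cert 1) = true :=
  (allFrom_join (lo := 132000) (a := 3500) (b := 500) (allFrom_join (lo := 132000) (a := 3000) (b := 500) (allFrom_join (lo := 132000) (a := 2500) (b := 500) (allFrom_join (lo := 132000) (a := 2000) (b := 500) (allFrom_join (lo := 132000) (a := 1500) (b := 500) (allFrom_join (lo := 132000) (a := 1000) (b := 500) (allFrom_join (lo := 132000) (a := 500) (b := 500) chkV_264 chkV_265) chkV_266) chkV_267) chkV_268) chkV_269) chkV_270) chkV_271)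

end Cfsg.Agent.Lib.Helper39.ONL
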