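import Cfsg.Agent.Lib.Helper39.ONLData
import Cfsg.Agent.Lib.Helper39.CosetICore

set_option maxRecDepth 100000
set_option maxHeartbeats 0

namespace Cfsg.Agent.Lib.Helper39.ONL
open Cfsg.Agent.Lib.Helper38 Cfsg.Agent.Lib.Helper39

theorem chkV_272 : allFrom 136000 500 (chkVI cert 1) = true := by decide +kernel
theorem chkV_273 : allFrom 136500 500 (chkVI cert 1) = true := by decide +kernel
theorem chkV_274 : allFrom 137000 500 (chkVI cert 1) = true := by decide +kernel
theorem chkV_275 : allFrom 137500 500 (chkVI cert 1) = true := by decide +kernel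
theorem chkV_276 : allFrom 138000 500 (chkVI cert 1) = true := by decide +kernel
theorem chkV_277 : allFrom 138500 500 (chkVI cert 1) = true := by decide +kernel
theorem chkV_278 : allFrom 139000 500 (chkVI cert 1) = true := by decide +kernel
theorem chkV_279 : allFrom 139500 500 (chkVI cert 1) = true := by decide +kernel

theorem chkV_f34 : allFrom 136000 4000 (chkVI cert 1) = true :=
  (allFrom_join (lo := 136000) (a := 3500) (b := 500) (allFrom_join (lo := 136000) (a := 3000) (b := 500) (allFrom_join (lo := 136000) (a := 2500) (b := 500) (allFrom_join (lo := 136000) (a := 2000) (b := 500) (allFrom_join (lo := 136000) (a := 1500) (b := 500) (allFrom_join (lo := 136000) (a := 1000) (b := 500) (allFrom_join (lo := 136000) (a := 500) (b := 500) chkV_272 chkV_273) chkV_274) chkV_275) chkV_276) chkV_277) chkV_278) chkV_279)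

end Cfsg.Agent.Lib.Helper39.ONL
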