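import Cfsg.Agent.Lib.Helper39.ONLData
import Cfsg.Agent.Lib.Helper39.CosetICore

set_option maxRecDepth 100000
set_option maxHeartbeats 0

namespace Cfsg.Agent.Lib.Helper39.ONL
open Cfsg.Agent.Lib.Helper38 Cfsg.Agent.Lib.Helper39

theorem chkV_280 : allFrom 140000 500 (chkVI cert 1) = true := by decide +kernel
theorem chkV_281 : allFrom 140500 500 (chkVI cert 1) = true := by decide +kernel
theorem chkV_282 : allFrom 141000 500 (chkVI cert 1) = true := by decide +kernel
theorem chkV_283 : allFrom 141500 500 (chkVI cert 1) = true := by decide +kernel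
theorem chkV_284 : allFrom 142000 500 (chkVI cert 1) = true := by decide +kernel
theorem chkV_285 : allFrom 142500 500 (chkVI cert 1) = true := by decide +kernel
theorem chkV_286 : allFrom 143000 500 (chkVI cert 1) = true := by decide +kernel
theorem chkV_287 : allFrom 143500 500 (chkVI cert 1) = true := by decide +kernel

theorem chkV_f35 : allFrom 140000 4000 (chkVI cert 1) = true :=
  (allFrom_join (lo := 140000) (a := 3500) (b := 500) (allFrom_join (lo := 140000) (a := 3000) (b := 500) (allFrom_join (lo := 140000) (a := 2500) (b := 500) (allFrom_join (lo := 140000) (a := 2000) (b := 500) (allFrom_join (lo := 140000) (a := 1500) (b := 500) (allFrom_join (lo := 140000) (a := 1000) (b := 500) (allFrom_join (lo := 140000) (a := 500) (b := 500) chkV_280 chkV_281) chkV_282) chkV_283) chkV_284) chkV_285) chkV_286) chkV_287)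

end Cfsg.Agent.Lib.Helper39.ONL
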