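import Cfsg.Agent.Lib.Helper39.ONLData
import Cfsg.Agent.Lib.Helper39.CosetICore

set_option maxRecDepth 100000
set_option maxHeartbeats 0

namespace Cfsg.Agent.Lib.Helper39.ONL
open Cfsg.Agent.Lib.Helper38 Cfsg.Agent.Lib.Helper39

theorem chkV_288 : allFrom 144000 500 (chkVI cert 1) = true := by decide +kernel
theorem chkV_289 : allFrom 144500 500 (chkVI cert 1) = true := by decide +kernel
theorem chkV_290 : allFrom 145000 500 (chkVI cert 1) = true := by decide +kernel
theorem chkV_291 : allFrom 145500 500 (chkVI cert 1) = true := by decide +kernel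
theorem chkV_292 : allFrom 146000 500 (chkVI cert 1) = true := by decide +kernel
theorem chkV_293 : allFrom 146500 500 (chkVI cert 1) = true := by decide +kernel
theorem chkV_294 : allFrom 147000 500 (chkVI cert 1) = true := by decide +kernel
theorem chkV_295 : allFrom 147500 500 (chkVI cert 1) = true := by decide +kernel

theorem chkV_f36 : allFrom 144000 4000 (chkVI cert 1) = true :=
  (allFrom_join (lo := 144000) (a := 3500) (b := 500) (allFrom_join (lo := 144000) (a := 3000) (b := 500) (allFrom_join (lo := 144000) (a := 2500) (b := 500) (allFrom_join (lo := 144000) (a := 2000) (b := 500) (allFrom_join (lo := 144000) (a := 1500) (b := 500) (allFrom_join (lo := 144000) (a := 1000) (b := 500) (allFrom_join (lo := 144000) (a := 500) (b := 500) chkV_288 chkV_289) chkV_290) chkV_291) chkV_292) chkV_293) chkV_294) chkV_295)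

end Cfsg.Agent.Lib.Helper39.ONL
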