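import Cfsg.Agent.Lib.Helper39.ONLData
import Cfsg.Agent.Lib.Helper39.CosetICore

set_option maxRecDepth 100000
set_option maxHeartbeats 0

namespace Cfsg.Agent.Lib.Helper39.ONL
open Cfsg.Agent.Lib.Helper38 Cfsg.Agent.Lib.Helper39

theorem chkV_296 : allFrom 148000 500 (chkVI cert 1) = true := by decide +kernel
theorem chkV_297 : allFrom 148500 500 (chkVI cert 1) = true := by decide +kernel
theorem chkV_298 : allFrom 149000 500 (chkVI cert 1) = true := by decide +kernel
theorem chkV_299 : allFrom 149500 500 (chkVI cert 1) = true := by decide +kernel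
theorem chkV_300 : allFrom 150000 500 (chkVI cert 1) = true := by decide +kernel
theorem chkV_301 : allFrom 150500 500 (chkVI cert 1) = true := by decide +kernel
theorem chkV_302 : allFrom 151000 500 (chkVI cert 1) = true := by decide +kernel
theorem chkV_303 : allFrom 151500 500 (chkVI cert 1) = true := by decide +kernel

theorem chkV_f37 : allFrom 148000 4000 (chkVI cert 1) = true :=
  (allFrom_join (lo := 148000) (a := 3500) (b := 500) (allFrom_join (lo := 148000) (a := 3000) (b := 500) (allFrom_join (lo := 148000) (a := 2500) (b := 500) (allFrom_join (lo := 148000) (a := 2000) (b := 500) (allFrom_join (lo := 148000) (a := 1500) (b := 500) (allFrom_join (lo := 148000) (a := 1000) (b := 500) (allFrom_join (lo := 148000) (a := 500) (b := 500) chkV_296 chkV_297) chkV_298) chkV_299) chkV_300) chkV_301) chkV_302) chkV_303)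

end Cfsg.Agent.Lib.Helper39.ONL
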