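import Cfsg.Agent.Lib.Helper39.ONLData
import Cfsg.Agent.Lib.Helper39.CosetICore

set_option maxRecDepth 100000
set_option maxHeartbeats 0

namespace Cfsg.Agent.Lib.Helper39.ONL
open Cfsg.Agent.Lib.Helper38 Cfsg.Agent.Lib.Helper39

theorem chkV_304 : allFrom 152000 500 (chkVI cert 1) = true := by decide +kernel
theorem chkV_305 : allFrom 152500 500 (chkVI cert 1) = true := by decide +kernel
theorem chkV_306 : allFrom 153000 500 (chkVI cert 1) = true := by decide +kernel
theorem chkV_307 : allFrom 153500 500 (chkVI cert 1) = true := by decide +kernel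
theorem chkV_308 : allFrom 154000 500 (chkVI cert 1) = true := by decide +kernel
theorem chkV_309 : allFrom 154500 500 (chkVI cert 1) = true := by decide +kernel
theorem chkV_310 : allFrom 155000 500 (chkVI cert 1) = true := by decide +kernel
theorem chkV_311 : allFrom 155500 500 (chkVI cert 1) = true := by decide +kernel

theorem chkV_f38 : allFrom 152000 4000 (chkVI cert 1) = true :=
  (allFrom_join (lo := 152000) (a := 3500) (b := 500) (allFrom_join (lo := 152000) (a := 3000) (b := 500) (allFrom_join (lo := 152000) (a := 2500) (b := 500) (allFrom_join (lo := 152000) (a := 2000) (b := 500) (allFrom_join (lo := 152000) (a := 1500) (b := 500) (allFrom_join (lo := 152000) (a := 1000) (b := 500) (allFrom_join (lo := 152000) (a := 500) (b := 500) chkV_304 chkV_305) chkV_306) chkV_307) chkV_308) chkV_309) chkV_310) chkV_311)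

end Cfsg.Agent.Lib.Helper39.ONL
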