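import Cfsg.Agent.Lib.Helper39.ONLData
import Cfsg.Agent.Lib.Helper39.CosetICore

set_option maxRecDepth 100000
set_option maxHeartbeats 0

namespace Cfsg.Agent.Lib.Helper39.ONL
open Cfsg.Agent.Lib.Helper38 Cfsg.Agent.Lib.Helper39

theorem chkV_312 : allFrom 156000 500 (chkVI cert 1) = true := by decide +kernel
theorem chkV_313 : allFrom 156500 500 (chkVI cert 1) = true := by decide +kernel
theorem chkV_314 : allFrom 157000 500 (chkVI cert 1) = true := by decide +kernel
theorem chkV_315 : allFrom 157500 500 (chkVI cert 1) = true := by decide +kernel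
theorem chkV_316 : allFrom 158000 500 (chkVI cert 1) = true := by decide +kernel
theorem chkV_317 : allFrom 158500 500 (chkVI cert 1) = true := by decide +kernel
theorem chkV_318 : allFrom 159000 500 (chkVI cert 1) = true := by decide +kernel
theorem chkV_319 : allFrom 159500 500 (chkVI cert 1) = true := by decide +kernel

theorem chkV_f39 : allFrom 156000 4000 (chkVI cert 1) = true :=
  (allFrom_join (lo := 156000) (a := 3500) (b := 500) (allFrom_join (lo := 156000) (a := 3000) (b := 500) (allFrom_join (lo := 156000) (a := 2500) (b := 500) (allFrom_join (lo := 156000) (a := 2000) (b := 500) (allFrom_join (lo := 156000) (a := 1500) (b := 500) (allFrom_join (lo := 156000) (a := 1000) (b := 500) (allFrom_join (lo := 156000) (a := 500) (b := 500) chkV_312 chkV_313) chkV_314) chkV_315) chkV_316) chkV_317) chkV_318) chkV_319)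

end Cfsg.Agent.Lib.Helper39.ONL
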