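import Cfsg.Agent.Lib.Helper39.ONLData
import Cfsg.Agent.Lib.Helper39.CosetICore

set_option maxRecDepth 100000
set_option maxHeartbeats 0

namespace Cfsg.Agent.Lib.Helper39.ONL
open Cfsg.Agent.Lib.Helper38 Cfsg.Agent.Lib.Helper39

theorem chkV_320 : allFrom 160000 500 (chkVI cert 1) = true := by decide +kernel
theorem chkV_321 : allFrom 160500 500 (chkVI cert 1) = true := by decide +kernel
theorem chkV_322 : allFrom 161000 500 (chkVI cert 1) = true := by decide +kernel
theorem chkV_323 : allFrom 161500 500 (chkVI cert 1) = true := by decide +kernel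
theorem chkV_324 : allFrom 162000 500 (chkVI cert 1) = true := by decide +kernel
theorem chkV_325 : allFrom 162500 500 (chkVI cert 1) = true := by decide +kernel
theorem chkV_326 : allFrom 163000 500 (chkVI cert 1) = true := by decide +kernel
theorem chkV_327 : allFrom 163500 500 (chkVI cert 1) = true := by decide +kernel

theorem chkV_f40 : allFrom 160000 4000 (chkVI cert 1) = true :=
  (allFrom_join (lo := 160000) (a := 3500) (b := 500) (allFrom_join (lo := 160000) (a := 3000) (b := 500) (allFrom_join (lo := 160000) (a := 2500) (b := 500) (allFrom_join (lo := 160000) (a := 2000) (b := 500) (allFrom_join (lo := 160000) (a := 1500) (b := 500) (allFrom_join (lo := 160000) (a := 1000) (b := 500) (allFrom_join (lo := 160000) (a := 500) (b := 500) chkV_320 chkV_321) chkV_322) chkV_323) chkV_324) chkV_325) chkV_326) chkV_327)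

end Cfsg.Agent.Lib.Helper39.ONL
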