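import Cfsg.Agent.Lib.Helper39.ONLData
import Cfsg.Agent.Lib.Helper39.CosetICore

set_option maxRecDepth 100000
set_option maxHeartbeats 0

namespace Cfsg.Agent.Lib.Helper39.ONL
open Cfsg.Agent.Lib.Helper38 Cfsg.Agent.Lib.Helper39

theorem chkV_328 : allFrom 164000 500 (chkVI cert 1) = true := by decide +kernel
theorem chkV_329 : allFrom 164500 500 (chkVI cert 1) = true := by decide +kernel
theorem chkV_330 : allFrom 165000 500 (chkVI cert 1) = true := by decide +kernel
theorem chkV_331 : allFrom 165500 500 (chkVI cert 1) = true := by decide +kernel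
theorem chkV_332 : allFrom 166000 500 (chkVI cert 1) = true := by decide +kernel
theorem chkV_333 : allFrom 166500 500 (chkVI cert 1) = true := by decide +kernel
theorem chkV_334 : allFrom 167000 500 (chkVI cert 1) = true := by decide +kernel
theorem chkV_335 : allFrom 167500 500 (chkVI cert 1) = true := by decide +kernel

theorem chkV_f41 : allFrom 164000 4000 (chkVI cert 1) = true :=
  (allFrom_join (lo := 164000) (a := 3500) (b := 500) (allFrom_join (lo := 164000) (a := 3000) (b := 500) (allFrom_join (lo := 164000) (a := 2500) (b := 500) (allFrom_join (lo := 164000) (a := 2000) (b := 500) (allFrom_join (lo := 164000) (a := 1500) (b := 500) (allFrom_join (lo := 164000) (a := 1000) (b := 500) (allFrom_join (lo := 164000) (a := 500) (b := 500) chkV_328 chkV_329) chkV_330) chkV_331) chkV_332) chkV_333) chkV_334) chkV_335)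

end Cfsg.Agent.Lib.Helper39.ONL
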