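import Cfsg.Agent.Lib.Helper39.ONLData
import Cfsg.Agent.Lib.Helper39.CosetICore

set_option maxRecDepth 100000
set_option maxHeartbeats 0

namespace Cfsg.Agent.Lib.Helper39.ONL
open Cfsg.Agent.Lib.Helper38 Cfsg.Agent.Lib.Helper39

theorem chkV_336 : allFrom 168000 500 (chkVI cert 1) = true := by decide +kernel
theorem chkV_337 : allFrom 168500 500 (chkVI cert 1) = true := by decide +kernel
theorem chkV_338 : allFrom 169000 500 (chkVI cert 1) = true := by decide +kernel
theorem chkV_339 : allFrom 169500 500 (chkVI cert 1) = true := by decide +kernel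
theorem chkV_340 : allFrom 170000 500 (chkVI cert 1) = true := by decide +kernel
theorem chkV_341 : allFrom 170500 500 (chkVI cert 1) = true := by decide +kernel
theorem chkV_342 : allFrom 171000 500 (chkVI cert 1) = true := by decide +kernel
theorem chkV_343 : allFrom 171500 500 (chkVI cert 1) = true := by decide +kernel

theorem chkV_f42 : allFrom 168000 4000 (chkVI cert 1) = true :=
  (allFrom_join (lo := 168000) (a := 3500) (b := 500) (allFrom_join (lo := 168000) (a := 3000) (b := 500) (allFrom_join (lo := 168000) (a := 2500) (b := 500) (allFrom_join (lo := 168000) (a := 2000) (b := 500) (allFrom_join (lo := 168000) (a := 1500) (b := 500) (allFrom_join (lo := 168000) (a := 1000) (b := 500) (allFrom_join (lo := 168000) (a := 500) (b := 500) chkV_336 chkV_337) chkV_338) chkV_339) chkV_340) chkV_341) chkV_342) chkV_343)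

end Cfsg.Agent.Lib.Helper39.ONL
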