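import Cfsg.Agent.Lib.Helper39.ONLData
import Cfsg.Agent.Lib.Helper39.CosetICore

set_option maxRecDepth 100000
set_option maxHeartbeats 0

namespace Cfsg.Agent.Lib.Helper39.ONL
open Cfsg.Agent.Lib.Helper38 Cfsg.Agent.Lib.Helper39

theorem chkV_344 : allFrom 172000 500 (chkVI cert 1) = true := by decide +kernel
theorem chkV_345 : allFrom 172500 500 (chkVI cert 1) = true := by decide +kernel
theorem chkV_346 : allFrom 173000 500 (chkVI cert 1) = true := by decide +kernel
theorem chkV_347 : allFrom 173500 500 (chkVI cert 1) = true := by decide +kernel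
theorem chkV_348 : allFrom 174000 500 (chkVI cert 1) = true := by decide +kernel
theorem chkV_349 : allFrom 174500 500 (chkVI cert 1) = true := by decide +kernel
theorem chkV_350 : allFrom 175000 500 (chkVI cert 1) = true := by decide +kernel
theorem chkV_351 : allFrom 175500 500 (chkVI cert 1) = true := by decide +kernel

theorem chkV_f43 : allFrom 172000 4000 (chkVI cert 1) = true :=
  (allFrom_join (lo := 172000) (a := 3500) (b := 500) (allFrom_join (lo := 172000) (a := 3000) (b := 500) (allFrom_join (lo := 172000) (a := 2500) (b := 500) (allFrom_join (lo := 172000) (a := 2000) (b := 500) (allFrom_join (lo := 172000) (a := 1500) (b := 500) (allFrom_join (lo := 172000) (a := 1000) (b := 500) (allFrom_join (lo := 172000) (a := 500) (b := 500) chkV_344 chkV_345) chkV_346) chkV_347) chkV_348) chkV_349) chkV_350) chkV_351)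

end Cfsg.Agent.Lib.Helper39.ONL
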