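import Cfsg.Agent.Lib.Helper39.ONLData
import Cfsg.Agent.Lib.Helper39.CosetICore

set_option maxRecDepth 100000
set_option maxHeartbeats 0

namespace Cfsg.Agent.Lib.Helper39.ONL
open Cfsg.Agent.Lib.Helper38 Cfsg.Agent.Lib.Helper39

theorem chkV_352 : allFrom 176000 500 (chkVI cert 1) = true := by decide +kernel
theorem chkV_353 : allFrom 176500 500 (chkVI cert 1) = true := by decide +kernel
theorem chkV_354 : allFrom 177000 500 (chkVI cert 1) = true := by decide +kernel
theorem chkV_355 : allFrom 177500 500 (chkVI cert 1) = true := by decide +kernel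
theorem chkV_356 : allFrom 178000 500 (chkVI cert 1) = true := by decide +kernel
theorem chkV_357 : allFrom 178500 500 (chkVI cert 1) = true := by decide +kernel
theorem chkV_358 : allFrom 179000 500 (chkVI cert 1) = true := by decide +kernel
theorem chkV_359 : allFrom 179500 500 (chkVI cert 1) = true := by decide +kernel

theorem chkV_f44 : allFrom 176000 4000 (chkVI cert 1) = true :=
  (allFrom_join (lo := 176000) (a := 3500) (b := 500) (allFrom_join (lo := 176000) (a := 3000) (b := 500) (allFrom_join (lo := 176000) (a := 2500) (b := 500) (allFrom_join (lo := 176000) (a := 2000) (b := 500) (allFrom_join (lo := 176000) (a := 1500) (b := 500) (allFrom_join (lo := 176000) (a := 1000) (b := 500) (allFrom_join (lo := 176000) (a := 500) (b := 500) chkV_352 chkV_353) chkV_354) chkV_355) chkV_356) chkV_357) chkV_358) chkV_359)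

end Cfsg.Agent.Lib.Helper39.ONL
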