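import Cfsg.Agent.Lib.Helper39.ONLData
import Cfsg.Agent.Lib.Helper39.CosetICore

set_option maxRecDepth 100000
set_option maxHeartbeats 0

namespace Cfsg.Agent.Lib.Helper39.ONL
open Cfsg.Agent.Lib.Helper38 Cfsg.Agent.Lib.Helper39

theorem chkV_360 : allFrom 180000 500 (chkVI cert 1) = true := by decide +kernel
theorem chkV_361 : allFrom 180500 500 (chkVI cert 1) = true := by decide +kernel
theorem chkV_362 : allFrom 181000 500 (chkVI cert 1) = true := by decide +kernel
theorem chkV_363 : allFrom 181500 500 (chkVI cert 1) = true := by decide +kernel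
theorem chkV_364 : allFrom 182000 500 (chkVI cert 1) = true := by decide +kernel
theorem chkV_365 : allFrom 182500 500 (chkVI cert 1) = true := by decide +kernel
theorem chkV_366 : allFrom 183000 500 (chkVI cert 1) = true := by decide +kernel
theorem chkV_367 : allFrom 183500 500 (chkVI cert 1) = true := by decide +kernel

theorem chkV_f45 : allFrom 180000 4000 (chkVI cert 1) = true :=
  (allFrom_join (lo := 180000) (a := 3500) (b := 500) (allFrom_join (lo := 180000) (a := 3000) (b := 500) (allFrom_join (lo := 180000) (a := 2500) (b := 500) (allFrom_join (lo := 180000) (a := 2000) (b := 500) (allFrom_join (lo := 180000) (a := 1500) (b := 500) (allFrom_join (lo := 180000) (a := 1000) (b := 500) (allFrom_join (lo := 180000) (a := 500) (b := 500) chkV_360 chkV_361) chkV_362) chkV_363) chkV_364) chkV_365) chkV_366) chkV_367)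

end Cfsg.Agent.Lib.Helper39.ONL
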