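import Cfsg.Agent.Lib.Helper39.ONLData
import Cfsg.Agent.Lib.Helper39.CosetICore

set_option maxRecDepth 100000
set_option maxHeartbeats 0

namespace Cfsg.Agent.Lib.Helper39.ONL
open Cfsg.Agent.Lib.Helper38 Cfsg.Agent.Lib.Helper39

theorem chkV_368 : allFrom 184000 500 (chkVI cert 1) = true := by decide +kernel
theorem chkV_369 : allFrom 184500 500 (chkVI cert 1) = true := by decide +kernel
theorem chkV_370 : allFrom 185000 500 (chkVI cert 1) = true := by decide +kernel
theorem chkV_371 : allFrom 185500 500 (chkVI cert 1) = true := by decide +kernel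
theorem chkV_372 : allFrom 186000 500 (chkVI cert 1) = true := by decide +kernel
theorem chkV_373 : allFrom 186500 500 (chkVI cert 1) = true := by decide +kernel
theorem chkV_374 : allFrom 187000 500 (chkVI cert 1) = true := by decide +kernel
theorem chkV_375 : allFrom 187500 500 (chkVI cert 1) = true := by decide +kernel

theorem chkV_f46 : allFrom 184000 4000 (chkVI cert 1) = true :=
  (allFrom_join (lo := 184000) (a := 3500) (b := 500) (allFrom_join (lo := 184000) (a := 3000) (b := 500) (allFrom_join (lo := 184000) (a := 2500) (b := 500) (allFrom_join (lo := 184000) (a := 2000) (b := 500) (allFrom_join (lo := 184000) (a := 1500) (b := 500) (allFrom_join (lo := 184000) (a := 1000) (b := 500) (allFrom_join (lo := 184000) (a := 500) (b := 500) chkV_368 chkV_369) chkV_370) chkV_371) chkV_372) chkV_373) chkV_374) chkV_375)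

end Cfsg.Agent.Lib.Helper39.ONL
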