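import Cfsg.Agent.Lib.Helper39.ONLData
import Cfsg.Agent.Lib.Helper39.CosetICore

set_option maxRecDepth 100000
set_option maxHeartbeats 0

namespace Cfsg.Agent.Lib.Helper39.ONL
open Cfsg.Agent.Lib.Helper38 Cfsg.Agent.Lib.Helper39

theorem chkV_376 : allFrom 188000 500 (chkVI cert 1) = true := by decide +kernel
theorem chkV_377 : allFrom 188500 500 (chkVI cert 1) = true := by decide +kernel
theorem chkV_378 : allFrom 189000 500 (chkVI cert 1) = true := by decide +kernel
theorem chkV_379 : allFrom 189500 500 (chkVI cert 1) = true := by decide +kernel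
theorem chkV_380 : allFrom 190000 500 (chkVI cert 1) = true := by decide +kernel
theorem chkV_381 : allFrom 190500 500 (chkVI cert 1) = true := by decide +kernel
theorem chkV_382 : allFrom 191000 500 (chkVI cert 1) = true := by decide +kernel
theorem chkV_383 : allFrom 191500 500 (chkVI cert 1) = true := by decide +kernel

theorem chkV_f47 : allFrom 188000 4000 (chkVI cert 1) = true :=
  (allFrom_join (lo := 188000) (a := 3500) (b := 500) (allFrom_join (lo := 188000) (a := 3000) (b := 500) (allFrom_join (lo := 188000) (a := 2500) (b := 500) (allFrom_join (lo := 188000) (a := 2000) (b := 500) (allFrom_join (lo := 188000) (a := 1500) (b := 500) (allFrom_join (lo := 188000) (a := 1000) (b := 500) (allFrom_join (lo := 188000) (a := 500) (b := 500) chkV_376 chkV_377) chkV_378) chkV_379) chkV_380) chkV_381) chkV_382) chkV_383)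

end Cfsg.Agent.Lib.Helper39.ONL
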