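import Cfsg.Agent.Lib.Helper39.ONLData
import Cfsg.Agent.Lib.Helper39.CosetICore

set_option maxRecDepth 100000
set_option maxHeartbeats 0

namespace Cfsg.Agent.Lib.Helper39.ONL
open Cfsg.Agent.Lib.Helper38 Cfsg.Agent.Lib.Helper39

theorem chkV_384 : allFrom 192000 500 (chkVI cert 1) = true := by decide +kernel
theorem chkV_385 : allFrom 192500 500 (chkVI cert 1) = true := by decide +kernel
theorem chkV_386 : allFrom 193000 500 (chkVI cert 1) = true := by decide +kernel
theorem chkV_387 : allFrom 193500 500 (chkVI cert 1) = true := by decide +kernel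
theorem chkV_388 : allFrom 194000 500 (chkVI cert 1) = true := by decide +kernel
theorem chkV_389 : allFrom 194500 500 (chkVI cert 1) = true := by decide +kernel
theorem chkV_390 : allFrom 195000 500 (chkVI cert 1) = true := by decide +kernel
theorem chkV_391 : allFrom 195500 500 (chkVI cert 1) = true := by decide +kernel

theorem chkV_f48 : allFrom 192000 4000 (chkVI cert 1) = true :=
  (allFrom_join (lo := 192000) (a := 3500) (b := 500) (allFrom_join (lo := 192000) (a := 3000) (b := 500) (allFrom_join (lo := 192000) (a := 2500) (b := 500) (allFrom_join (lo := 192000) (a := 2000) (b := 500) (allFrom_join (lo := 192000) (a := 1500) (b := 500) (allFrom_join (lo := 192000) (a := 1000) (b := 500) (allFrom_join (lo := 192000) (a := 500) (b := 500) chkV_384 chkV_385) chkV_386) chkV_387) chkV_388) chkV_389) chkV_390) chkV_391)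

end Cfsg.Agent.Lib.Helper39.ONL
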