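import Cfsg.Agent.Lib.Helper39.ONLData
import Cfsg.Agent.Lib.Helper39.CosetICore

set_option maxRecDepth 100000
set_option maxHeartbeats 0

namespace Cfsg.Agent.Lib.Helper39.ONL
open Cfsg.Agent.Lib.Helper38 Cfsg.Agent.Lib.Helper39

theorem chkV_392 : allFrom 196000 500 (chkVI cert 1) = true := by decide +kernel
theorem chkV_393 : allFrom 196500 500 (chkVI cert 1) = true := by decide +kernel
theorem chkV_394 : allFrom 197000 500 (chkVI cert 1) = true := by decide +kernel
theorem chkV_395 : allFrom 197500 500 (chkVI cert 1) = true := by decide +kernel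
theorem chkV_396 : allFrom 198000 500 (chkVI cert 1) = true := by decide +kernel
theorem chkV_397 : allFrom 198500 500 (chkVI cert 1) = true := by decide +kernel
theorem chkV_398 : allFrom 199000 500 (chkVI cert 1) = true := by decide +kernel
theorem chkV_399 : allFrom 199500 500 (chkVI cert 1) = true := by decide +kernel

theorem chkV_f49 : allFrom 196000 4000 (chkVI cert 1) = true :=
  (allFrom_join (lo := 196000) (a := 3500) (b := 500) (allFrom_join (lo := 196000) (a := 3000) (b := 500) (allFrom_join (lo := 196000) (a := 2500) (b := 500) (allFrom_join (lo := 196000) (a := 2000) (b := 500) (allFrom_join (lo := 196000) (a := 1500) (b := 500) (allFrom_join (lo := 196000) (a := 1000) (b := 500) (allFrom_join (lo := 196000) (a := 500) (b := 500) chkV_392 chkV_393) chkV_394) chkV_395) chkV_396) chkV_397) chkV_398) chkV_399)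

end Cfsg.Agent.Lib.Helper39.ONL
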