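import Cfsg.Agent.Lib.Helper39.ONLData
import Cfsg.Agent.Lib.Helper39.CosetICore

set_option maxRecDepth 100000
set_option maxHeartbeats 0

namespace Cfsg.Agent.Lib.Helper39.ONL
open Cfsg.Agent.Lib.Helper38 Cfsg.Agent.Lib.Helper39

theorem chkV_400 : allFrom 200000 500 (chkVI cert 1) = true := by decide +kernel
theorem chkV_401 : allFrom 200500 500 (chkVI cert 1) = true := by decide +kernel
theorem chkV_402 : allFrom 201000 500 (chkVI cert 1) = true := by decide +kernel
theorem chkV_403 : allFrom 201500 500 (chkVI cert 1) = true := by decide +kernel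
theorem chkV_404 : allFrom 202000 500 (chkVI cert 1) = true := by decide +kernel
theorem chkV_405 : allFrom 202500 500 (chkVI cert 1) = true := by decide +kernel
theorem chkV_406 : allFrom 203000 500 (chkVI cert 1) = true := by decide +kernel
theorem chkV_407 : allFrom 203500 500 (chkVI cert 1) = true := by decide +kernel

theorem chkV_f50 : allFrom 200000 4000 (chkVI cert 1) = true :=
  (allFrom_join (lo := 200000) (a := 3500) (b := 500) (allFrom_join (lo := 200000) (a := 3000) (b := 500) (allFrom_join (lo := 200000) (a := 2500) (b := 500) (allFrom_join (lo := 200000) (a := 2000) (b := 500) (allFrom_join (lo := 200000) (a := 1500) (b := 500) (allFrom_join (lo := 200000) (a := 1000) (b := 500) (allFrom_join (lo := 200000) (a := 500) (b := 500) chkV_400 chkV_401) chkV_402) chkV_403) chkV_404) chkV_405) chkV_406) chkV_407)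

end Cfsg.Agent.Lib.Helper39.ONL
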