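import Cfsg.Agent.Lib.Helper39.ONLData
import Cfsg.Agent.Lib.Helper39.CosetICore

set_option maxRecDepth 100000
set_option maxHeartbeats 0

namespace Cfsg.Agent.Lib.Helper39.ONL
open Cfsg.Agent.Lib.Helper38 Cfsg.Agent.Lib.Helper39

theorem chkV_408 : allFrom 204000 500 (chkVI cert 1) = true := by decide +kernel
theorem chkV_409 : allFrom 204500 500 (chkVI cert 1) = true := by decide +kernel
theorem chkV_410 : allFrom 205000 500 (chkVI cert 1) = true := by decide +kernel
theorem chkV_411 : allFrom 205500 500 (chkVI cert 1) = true := by decide +kernel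
theorem chkV_412 : allFrom 206000 500 (chkVI cert 1) = true := by decide +kernel
theorem chkV_413 : allFrom 206500 500 (chkVI cert 1) = true := by decide +kernel
theorem chkV_414 : allFrom 207000 500 (chkVI cert 1) = true := by decide +kernel
theorem chkV_415 : allFrom 207500 500 (chkVI cert 1) = true := by decide +kernel

theorem chkV_f51 : allFrom 204000 4000 (chkVI cert 1) = true :=
  (allFrom_join (lo := 204000) (a := 3500) (b := 500) (allFrom_join (lo := 204000) (a := 3000) (b := 500) (allFrom_join (lo := 204000) (a := 2500) (b := 500) (allFrom_join (lo := 204000) (a := 2000) (b := 500) (allFrom_join (lo := 204000) (a := 1500) (b := 500) (allFrom_join (lo := 204000) (a := 1000) (b := 500) (allFrom_join (lo := 204000) (a := 500) (b := 500) chkV_408 chkV_409) chkV_410) chkV_411) chkV_412) chkV_413) chkV_414) chkV_415)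

end Cfsg.Agent.Lib.Helper39.ONL
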