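import Cfsg.Agent.Lib.Helper39.ONLData
import Cfsg.Agent.Lib.Helper39.CosetICore

set_option maxRecDepth 100000
set_option maxHeartbeats 0

namespace Cfsg.Agent.Lib.Helper39.ONL
open Cfsg.Agent.Lib.Helper38 Cfsg.Agent.Lib.Helper39

theorem chkV_416 : allFrom 208000 500 (chkVI cert 1) = true := by decide +kernel
theorem chkV_417 : allFrom 208500 500 (chkVI cert 1) = true := by decide +kernel
theorem chkV_418 : allFrom 209000 500 (chkVI cert 1) = true := by decide +kernel
theorem chkV_419 : allFrom 209500 500 (chkVI cert 1) = true := by decide +kernel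
theorem chkV_420 : allFrom 210000 500 (chkVI cert 1) = true := by decide +kernel
theorem chkV_421 : allFrom 210500 500 (chkVI cert 1) = true := by decide +kernel
theorem chkV_422 : allFrom 211000 500 (chkVI cert 1) = true := by decide +kernel
theorem chkV_423 : allFrom 211500 500 (chkVI cert 1) = true := by decide +kernel

theorem chkV_f52 : allFrom 208000 4000 (chkVI cert 1) = true :=
  (allFrom_join (lo := 208000) (a := 3500) (b := 500) (allFrom_join (lo := 208000) (a := 3000) (b := 500) (allFrom_join (lo := 208000) (a := 2500) (b := 500) (allFrom_join (lo := 208000) (a := 2000) (b := 500) (allFrom_join (lo := 208000) (a := 1500) (b := 500) (allFrom_join (lo := 208000) (a := 1000) (b := 500) (allFrom_join (lo := 208000) (a := 500) (b := 500) chkV_416 chkV_417) chkV_418) chkV_419) chkV_420) chkV_421) chkV_422) chkV_423)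

end Cfsg.Agent.Lib.Helper39.ONL
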