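import Cfsg.Agent.Lib.Helper39.ONLData
import Cfsg.Agent.Lib.Helper39.CosetICore

set_option maxRecDepth 100000
set_option maxHeartbeats 0

namespace Cfsg.Agent.Lib.Helper39.ONL
open Cfsg.Agent.Lib.Helper38 Cfsg.Agent.Lib.Helper39

theorem chkV_424 : allFrom 212000 500 (chkVI cert 1) = true := by decide +kernel
theorem chkV_425 : allFrom 212500 500 (chkVI cert 1) = true := by decide +kernel
theorem chkV_426 : allFrom 213000 500 (chkVI cert 1) = true := by decide +kernel
theorem chkV_427 : allFrom 213500 500 (chkVI cert 1) = true := by decide +kernel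
theorem chkV_428 : allFrom 214000 500 (chkVI cert 1) = true := by decide +kernel
theorem chkV_429 : allFrom 214500 500 (chkVI cert 1) = true := by decide +kernel
theorem chkV_430 : allFrom 215000 500 (chkVI cert 1) = true := by decide +kernel
theorem chkV_431 : allFrom 215500 500 (chkVI cert 1) = true := by decide +kernel

theorem chkV_f53 : allFrom 212000 4000 (chkVI cert 1) = true :=
  (allFrom_join (lo := 212000) (a := 3500) (b := 500) (allFrom_join (lo := 212000) (a := 3000) (b := 500) (allFrom_join (lo := 212000) (a := 2500) (b := 500) (allFrom_join (lo := 212000) (a := 2000) (b := 500) (allFrom_join (lo := 212000) (a := 1500) (b := 500) (allFrom_join (lo := 212000) (a := 1000) (b := 500) (allFrom_join (lo := 212000) (a := 500) (b := 500) chkV_424 chkV_425) chkV_426) chkV_427) chkV_428) chkV_429) chkV_430) chkV_431)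

end Cfsg.Agent.Lib.Helper39.ONL
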