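import Cfsg.Agent.Lib.Helper39.ONLData
import Cfsg.Agent.Lib.Helper39.CosetICore

set_option maxRecDepth 100000
set_option maxHeartbeats 0

namespace Cfsg.Agent.Lib.Helper39.ONL
open Cfsg.Agent.Lib.Helper38 Cfsg.Agent.Lib.Helper39

theorem chkV_432 : allFrom 216000 500 (chkVI cert 1) = true := by decide +kernel
theorem chkV_433 : allFrom 216500 500 (chkVI cert 1) = true := by decide +kernel
theorem chkV_434 : allFrom 217000 500 (chkVI cert 1) = true := by decide +kernel
theorem chkV_435 : allFrom 217500 500 (chkVI cert 1) = true := by decide +kernel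
theorem chkV_436 : allFrom 218000 500 (chkVI cert 1) = true := by decide +kernel
theorem chkV_437 : allFrom 218500 500 (chkVI cert 1) = true := by decide +kernel
theorem chkV_438 : allFrom 219000 500 (chkVI cert 1) = true := by decide +kernel
theorem chkV_439 : allFrom 219500 500 (chkVI cert 1) = true := by decide +kernel

theorem chkV_f54 : allFrom 216000 4000 (chkVI cert 1) = true :=
  (allFrom_join (lo := 216000) (a := 3500) (b := 500) (allFrom_join (lo := 216000) (a := 3000) (b := 500) (allFrom_join (lo := 216000) (a := 2500) (b := 500) (allFrom_join (lo := 216000) (a := 2000) (b := 500) (allFrom_join (lo := 216000) (a := 1500) (b := 500) (allFrom_join (lo := 216000) (a := 1000) (b := 500) (allFrom_join (lo := 216000) (a := 500) (b := 500) chkV_432 chkV_433) chkV_434) chkV_435) chkV_436) chkV_437) chkV_438) chkV_439)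

end Cfsg.Agent.Lib.Helper39.ONL
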