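import Cfsg.Agent.Lib.Helper39.ONLData
import Cfsg.Agent.Lib.Helper39.CosetICore

set_option maxRecDepth 100000
set_option maxHeartbeats 0

namespace Cfsg.Agent.Lib.Helper39.ONL
open Cfsg.Agent.Lib.Helper38 Cfsg.Agent.Lib.Helper39

theorem chkV_440 : allFrom 220000 500 (chkVI cert 1) = true := by decide +kernel
theorem chkV_441 : allFrom 220500 500 (chkVI cert 1) = true := by decide +kernel
theorem chkV_442 : allFrom 221000 500 (chkVI cert 1) = true := by decide +kernel
theorem chkV_443 : allFrom 221500 500 (chkVI cert 1) = true := by decide +kernel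
theorem chkV_444 : allFrom 222000 500 (chkVI cert 1) = true := by decide +kernel
theorem chkV_445 : allFrom 222500 500 (chkVI cert 1) = true := by decide +kernel
theorem chkV_446 : allFrom 223000 274 (chkVI cert 1) = true := by decide +kernel

theorem chkV_f55 : allFrom 220000 3274 (chkVI cert 1) = true :=
  (allFrom_join (lo := 220000) (a := 3000) (b := 274) (allFrom_join (lo := 220000) (a := 2500) (b := 500) (allFrom_join (lo := 220000) (a := 2000) (b := 500) (allFrom_join (lo := 220000) (a := 1500) (b := 500) (allFrom_join (lo := 220000) (a := 1000) (b := 500) (allFrom_join (lo := 220000) (a := 500) (b := 500) chkV_440 chkV_441) chkV_442) chkV_443) chkV_444) chkV_445) chkV_446)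

end Cfsg.Agent.Lib.Helper39.ONL
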