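import Cfsg.Agent.Lib.Helper39.ONLData
import Cfsg.Agent.Lib.Helper39.CosetICore

set_option maxRecDepth 100000
set_option maxHeartbeats 0

namespace Cfsg.Agent.Lib.Helper39.ONL
open Cfsg.Agent.Lib.Helper38 Cfsg.Agent.Lib.Helper39

theorem chkV_48 : allFrom 24000 500 (chkVI cert 1) = true := by decide +kernel
theorem chkV_49 : allFrom 24500 500 (chkVI cert 1) = true := by decide +kernel
theorem chkV_50 : allFrom 25000 500 (chkVI cert 1) = true := by decide +kernel
theorem chkV_51 : allFrom 25500 500 (chkVI cert 1) = true := by decide +kernel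
theorem chkV_52 : allFrom 26000 500 (chkVI cert 1) = true := by decide +kernel
theorem chkV_53 : allFrom 26500 500 (chkVI cert 1) = true := by decide +kernel
theorem chkV_54 : allFrom 27000 500 (chkVI cert 1) = true := by decide +kernel
theorem chkV_55 : allFrom 27500 500 (chkVI cert 1) = true := by decide +kernel

theorem chkV_f6 : allFrom 24000 4000 (chkVI cert 1) = true :=
  (allFrom_join (lo := 24000) (a := 3500) (b := 500) (allFrom_join (lo := 24000) (a := 3000) (b := 500) (allFrom_join (lo := 24000) (a := 2500) (b := 500) (allFrom_join (lo := 24000) (a := 2000) (b := 500) (allFrom_join (lo := 24000) (a := 1500) (b := 500) (allFrom_join (lo := 24000) (a := 1000) (b := 500) (allFrom_join (lo := 24000) (a := 500) (b := 500) chkV_48 chkV_49) chkV_50) chkV_51) chkV_52) chkV_53) chkV_54) chkV_55)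

end Cfsg.Agent.Lib.Helper39.ONL
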