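import Cfsg.Agent.Lib.Helper39.ONLData
import Cfsg.Agent.Lib.Helper39.CosetICore

set_option maxRecDepth 100000
set_option maxHeartbeats 0

namespace Cfsg.Agent.Lib.Helper39.ONL
open Cfsg.Agent.Lib.Helper38 Cfsg.Agent.Lib.Helper39

theorem chkV_64 : allFrom 32000 500 (chkVI cert 1) = true := by decide +kernel
theorem chkV_65 : allFrom 32500 500 (chkVI cert 1) = true := by decide +kernel
theorem chkV_66 : allFrom 33000 500 (chkVI cert 1) = true := by decide +kernel
theorem chkV_67 : allFrom 33500 500 (chkVI cert 1) = true := by decide +kernel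
theorem chkV_68 : allFrom 34000 500 (chkVI cert 1) = true := by decide +kernel
theorem chkV_69 : allFrom 34500 500 (chkVI cert 1) = true := by decide +kernel
theorem chkV_70 : allFrom 35000 500 (chkVI cert 1) = true := by decide +kernel
theorem chkV_71 : allFrom 35500 500 (chkVI cert 1) = true := by decide +kernel

theorem chkV_f8 : allFrom 32000 4000 (chkVI cert 1) = true :=
  (allFrom_join (lo := 32000) (a := 3500) (b := 500) (allFrom_join (lo := 32000) (a := 3000) (b := 500) (allFrom_join (lo := 32000) (a := 2500) (b := 500) (allFrom_join (lo := 32000) (a := 2000) (b := 500) (allFrom_join (lo := 32000) (a := 1500) (b := 500) (allFrom_join (lo := 32000) (a := 1000) (b := 500) (allFrom_join (lo := 32000) (a := 500) (b := 500) chkV_64 chkV_65) chkV_66) chkV_67) chkV_68) chkV_69) chkV_70) chkV_71)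

end Cfsg.Agent.Lib.Helper39.ONL
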