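import Cfsg.Agent.Lib.Helper39.ONSN0
import Cfsg.Agent.Lib.Helper39.ONSN1

set_option maxRecDepth 100000
set_option maxHeartbeats 0

namespace Cfsg.Agent.Lib.Helper39.ONS
open Cfsg.Agent.Lib.Helper38 

theorem chkN_all : ∀ v < 5586, cert.chkN v = true := by
  have h : allFrom 0 5586 cert.chkN = true :=
    (allFrom_join (lo := 0) (a := 4000) (b := 1586) chkN_f0 chkN_f1)
  intro v hv
  exact allFrom_iff.mp h v (Nat.zero_le _) (by omega)

end Cfsg.Agent.Lib.Helper39.ONS
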