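import Cfsg.Agent.Lib.Helper39.ONSData

set_option maxRecDepth 100000
set_option maxHeartbeats 0

namespace Cfsg.Agent.Lib.Helper39.ONS
open Cfsg.Agent.Lib.Helper38 

theorem chkV_32 : allFrom 16000 500 cert.chkV = true := by decide +kernel
theorem chkV_33 : allFrom 16500 266 cert.chkV = true := by decide +kernel

theorem chkV_f4 : allFrom 16000 766 cert.chkV = true :=
  (allFrom_join (lo := 16000) (a := 500) (b := 266) chkV_32 chkV_33)

end Cfsg.Agent.Lib.Helper39.ONS
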