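import Cfsg.Agent.Lib.Helper39.ONSV0
import Cfsg.Agent.Lib.Helper39.ONSV1
import Cfsg.Agent.Lib.Helper39.ONSV2
import Cfsg.Agent.Lib.Helper39.ONSV3
import Cfsg.Agent.Lib.Helper39.ONSV4

set_option maxRecDepth 100000
set_option maxHeartbeats 0

namespace Cfsg.Agent.Lib.Helper39.ONS
open Cfsg.Agent.Lib.Helper38 

theorem chkV_all : ∀ v < 16766, cert.chkV v = true := by
  have h : allFrom 0 16766 cert.chkV = true :=
    (allFrom_join (lo := 0) (a := 16000) (b := 766) (allFrom_join (lo := 0) (a := 12000) (b := 4000) (allFrom_join (lo := 0) (a := 8000) (b := 4000) (allFrom_join (lo := 0) (a := 4000) (b := 4000) chkV_f0 chkV_f1) chkV_f2) chkV_f3) chkV_f4)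
  intro v hv
  exact allFrom_iff.mp h v (Nat.zero_le _) (by omega)

end Cfsg.Agent.Lib.Helper39.ONS
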