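import Cfsg.Agent.Lib.Helper39.ONTV0

set_option maxRecDepth 100000
set_option maxHeartbeats 0

namespace Cfsg.Agent.Lib.Helper39.ONT
open Cfsg.Agent.Lib.Helper38 

theorem chkV_all : ∀ v < 219, cert.chkV v = true := by
  have h : allFrom 0 219 cert.chkV = true :=
    chkV_f0
  intro v hv
  exact allFrom_iff.mp h v (Nat.zero_le _) (by omega)

end Cfsg.Agent.Lib.Helper39.ONT
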