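import Cfsg.Agent.Lib.Helper39.OrdGen
import Cfsg.Agent.Lib.Helper39.CosetIGroup

/-!
Orders and simplicity of presented groups from verified coset-enumeration certificates, for
certificates with or without non-involutory generators: the coset action of a certificate, the
orbits of the subgroup on its cosets, maximality from connectedness, regular normal subgroups, and
a variant of Iwasawa's criterion giving the normal subgroups with non-abelian quotient.
-/

namespace Cfsg.Agent.Lib.Helper39.Ord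

open Cfsg.Agent.Lib.Helper38

theorem ev_append (C : Cert) (u v : List ℕ) (c : ℕ) : ev C (u ++ v) c = ev C u (ev C v c) := by
  unfold ev
  rw [List.foldr_append]

theorem pdn_eq_ev (C : Cert) (wid : ℕ) : ∀ (k c : ℕ),
    C.pdn wid k c = ev C ((List.range k).map (C.letter wid)) c
  | 0, c => rfl
  | k + 1, c => by
    rw [List.range_succ, List.map_append, ev_append, Cert.pdn_succ, pdn_eq_ev C wid k]
    rfl

/-- the coset action of a certificate: the classes label the cosets of `H`, which is generated by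
the subgroup words -/
structure CAct (C : Cert) {G : Type*} [Group G] (γ : ℕ → G) (H : Subgroup G) : Prop where
  tact : TAct C γ (C.F γ H)
  F0 : C.F γ H 0 = ((1 : G) : G ⧸ H)
  hH : H = Subgroup.closure
    {x | ∃ wid, C.nsub ≤ wid ∧ wid < C.nw ∧ ((C.wordL wid).map γ).prod = x}
  hn : 0 < C.n

section CA

variable {C : Cert} {G : Type*} [Group G] {γ : ℕ → G} {H : Subgroup G}

theorem cact_of (hP : Cert.Pres C γ H) (hC : Cert.Checks C) : CAct C γ H :=
  ⟨tact_of hP hC, Cert.F_zero hC, hP.hH, (C.chkG_spec hC.hG).2.2.1⟩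

theorem cact_ofI {ni : ℕ} (hP : PresI C ni γ H) (hC : ChecksI C ni) : CAct C γ H := by
  obtain ⟨φ, hφ⟩ := hP.hφ
  have hH0 := phi_fixI hP hC φ hφ
  refine ⟨⟨fun c hc s hs => F_stepI hP hC hc hs,
    fun c hc s hs => (chkInvI_spec (hInvI_of hC) hs hc).1, ?_, F_surjI hP hC⟩, F_zeroI hC, hP.hH,
    (chkGI_spec hC.hG).2.2.1⟩
  intro c1 h1 c2 h2 h
  have h3 := congrArg (Cert.psi φ hH0) h
  rw [psi_FI hP hC φ hφ hH0 c1 h1, psi_FI hP hC φ hφ hH0 c2 h2] at h3
  exact h3

theorem CAct.fix0 (hA : CAct C γ H) {g : G} : g • C.F γ H 0 = C.F γ H 0 ↔ g ∈ H := by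
  rw [hA.F0, MulAction.Quotient.smul_mk, smul_eq_mul, mul_one, QuotientGroup.eq, mul_one,
    inv_mem_iff]

theorem CAct.word_smul (hA : CAct C γ H) {wid c : ℕ} (hc : c < C.n)
    (h : C.pdn wid (C.wLen wid) c < C.n) :
    ((C.wordL wid).map γ).prod • C.F γ H c = C.F γ H (C.pdn wid (C.wLen wid) c) := by
  have e : C.pdn wid (C.wLen wid) c = ev C (C.wordL wid) c := pdn_eq_ev C wid _ c
  rw [e] at h ⊢
  exact ev_smul hA.tact _ c hc h

theorem CAct.word_mem (hA : CAct C γ H) {wid : ℕ} (h1 : C.nsub ≤ wid) (h2 : wid < C.nw) :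
    ((C.wordL wid).map γ).prod ∈ H := by
  rw [hA.hH]; exact Subgroup.subset_closure ⟨wid, h1, h2, rfl⟩

/-- the subgroup preserves the components -/
theorem CAct.comp_smul (hA : CAct C γ H) (hO : Cert.OChecks C) :
    ∀ h ∈ H, ∀ c < C.n, ∀ c' < C.n, h • C.F γ H c = C.F γ H c' → C.comp c' = C.comp c := by
  intro h hh
  rw [hA.hH] at hh
  induction hh using Subgroup.closure_induction with
  | mem x hx =>
    obtain ⟨wid, h1, h2, rfl⟩ := hx
    intro c hc c' hc' e
    have h3 := (Cert.chkO_spec hO hc).1 wid h1 h2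
    rw [hA.word_smul hc h3.1] at e
    rw [← hA.tact.inj _ h3.1 _ hc' e]
    exact h3.2
  | one =>
    intro c hc c' hc' e
    rw [one_smul] at e
    rw [hA.tact.inj _ hc _ hc' e]
  | mul x y _ _ hx hy =>
    intro c hc c' hc' e
    obtain ⟨c'', hc'', e''⟩ := hA.tact.surj (y • C.F γ H c)
    rw [mul_smul, ← e''] at e
    rw [hx c'' hc'' c' hc' e, hy c hc c'' hc'' e''.symm]
  | inv x _ hx =>
    intro c hc c' hc' e
    have e2 : x • C.F γ H c' = C.F γ H c := by rw [← e, smul_inv_smul]
    exact (hx c' hc' c hc e2).symm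

/-- every coset lies in the orbit of the root of its component -/
theorem CAct.mem_orbit_root (hA : CAct C γ H) (hO : Cert.OChecks C) :
    ∀ (d c : ℕ), c < C.n → C.odepth c < d →
      C.F γ H c ∈ MulAction.orbit H (C.F γ H (C.root (C.comp c)))
  | 0, c, _, h => absurd h (Nat.not_lt_zero _)
  | d + 1, c, hc, hd => by
    obtain ⟨-, -, h | ⟨a1, a2, a3, a4, a5⟩⟩ := Cert.chkO_spec hO hc
    · rw [h]; exact MulAction.mem_orbit_self _
    · have ih := CAct.mem_orbit_root hA hO d (C.opar c) a1 (by omega)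
      have hw := hA.word_mem a3 a4
      rcases a5 with ⟨-, a5⟩ | a5
      · have h2 := hA.word_smul (wid := C.oword c) a1 (by rw [a5]; exact hc)
        rw [a5] at h2
        have h3 : C.comp c = C.comp (C.opar c) := by
          have h4 := (Cert.chkO_spec hO a1).1 (C.oword c) a3 a4
          rw [a5] at h4
          exact h4.2
        rw [h3, ← h2]
        exact MulAction.mem_orbit_of_mem_orbit (⟨_, hw⟩ : H) ih
      · have h2 := hA.word_smul (wid := C.oword c) hc (by rw [a5]; exact a1)
        rw [a5] at h2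
        have h3 : C.comp (C.opar c) = C.comp c := by
          have h4 := (Cert.chkO_spec hO hc).1 (C.oword c) a3 a4
          rw [a5] at h4
          exact h4.2
        have h4 : C.F γ H c = (((C.wordL (C.oword c)).map γ).prod)⁻¹ • C.F γ H (C.opar c) := by
          rw [← h2, inv_smul_smul]
        rw [← h3, h4]
        exact MulAction.mem_orbit_of_mem_orbit ((⟨_, hw⟩ : H)⁻¹) ih

/-- two classes in the same component are related by an element of the subgroup -/
theorem CAct.same_comp (hA : CAct C γ H) (hO : Cert.OChecks C) {c c' : ℕ} (hc : c < C.n)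
    (hc' : c' < C.n) (h : C.comp c = C.comp c') : ∃ x ∈ H, x • C.F γ H c = C.F γ H c' := by
  have o1 := hA.mem_orbit_root hO _ c hc (Nat.lt_succ_self _)
  have o2 := hA.mem_orbit_root hO _ c' hc' (Nat.lt_succ_self _)
  rw [← h] at o2
  obtain ⟨x1, e1⟩ := o1
  obtain ⟨x2, e2⟩ := o2
  refine ⟨(x2 : G) * (x1 : G)⁻¹, mul_mem x2.2 (inv_mem x1.2), ?_⟩
  have e1' : (x1 : G) • C.F γ H (C.root (C.comp c)) = C.F γ H c := e1
  have e2' : (x2 : G) • C.F γ H (C.root (C.comp c)) = C.F γ H c' := e2
  rw [mul_smul, ← e1', inv_smul_smul, e2']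

theorem CAct.comp_zero (hA : CAct C γ H) (hO : Cert.OChecks C) (hroot0 : C.root 0 = 0) :
    C.comp 0 = 0 := by
  have h1 := (Cert.root_spec hO (k := 0) (lt_of_le_of_lt (Nat.zero_le _)
    (Cert.chkO_spec hO hA.hn).2.1)).2
  rw [hroot0] at h1
  exact h1

/-- the component of the base coset is a point -/
theorem CAct.eq_zero_of_comp (hA : CAct C γ H) (hO : Cert.OChecks C) (hroot0 : C.root 0 = 0)
    {c : ℕ} (hc : c < C.n) (h : C.comp c = 0) : c = 0 := by
  obtain ⟨x, hx, ex⟩ := hA.same_comp hO hA.hn hc ((hA.comp_zero hO hroot0).trans h.symm)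
  rw [hA.fix0.mpr hx] at ex
  exact (hA.tact.inj _ hA.hn _ hc ex).symm

/-! ### Maximality from the connectedness of the suborbits -/

/-- the check for the component `j`: the word `w` leads from `0` into the component, and all
components are reached with `w` and its inverse word -/
noncomputable def chkMaxW (C : Cert) (winv : List ℕ → List ℕ) (j : ℕ) (w : List ℕ)
    (E : List (ℕ × ℕ)) : Bool :=
  band (Nat.blt (ev C w 0) C.n) (band (Nat.beq (C.comp (ev C w 0)) j)
    (allB C.ncomp (fun k => (reachL C [w, winv w] E [0]).contains k)))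

theorem reachL_soundT (hA : CAct C γ H) (hO : Cert.OChecks C)
    (M : Subgroup G) (hHM : H ≤ M) (ws : List (List ℕ)) (hws : ∀ w ∈ ws, (w.map γ).prod ∈ M) :
    ∀ (E : List (ℕ × ℕ)) (R : List ℕ),
      (∀ k ∈ R, ∀ c < C.n, C.comp c = k → ∃ m ∈ M, m • C.F γ H 0 = C.F γ H c) →
      ∀ k ∈ reachL C ws E R, ∀ c < C.n, C.comp c = k → ∃ m ∈ M, m • C.F γ H 0 = C.F γ H c
  | [], R, hR => hR
  | (c0, i) :: E, R, hR => by
    unfold reachL
    apply reachL_soundT hA hO M hHM ws hws E
    rw [sel_eq_ite]
    split_ifs with hcond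
    · rw [band_iff, band_iff, blt_iff, blt_iff] at hcond
      obtain ⟨h1, h2, h3⟩ := hcond
      have h2' : C.comp c0 ∈ R := by simpa using h2
      intro k hk c hc hck
      rcases List.mem_cons.mp hk with rfl | hk
      · obtain ⟨m, hm, em⟩ := hR _ h2' c0 h1 rfl
        have e := ev_smul hA.tact (ws.getD i []) c0 h1 h3
        obtain ⟨x, hx, ex⟩ := hA.same_comp hO h3 hc hck.symm
        refine ⟨x * (((ws.getD i []).map γ).prod * m),
          mul_mem (hHM hx) (mul_mem (getD_prod_mem M ws hws i) hm), ?_⟩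
        rw [mul_smul, mul_smul, em, e, ex]
      · exact hR k hk c hc hck
    · exact hR

/-- **Maximality.** If for every nontrivial suborbit `j` a word `w` leads from the base point into
it and the subgroup generated by `H` and `w` is transitive, then `H` is maximal. -/
theorem maximal_of_reachT (hA : CAct C γ H) (hO : Cert.OChecks C) (hroot0 : C.root 0 = 0)
    (winv : List ℕ → List ℕ) (hwinv : ∀ w, ((winv w).map γ).prod = ((w.map γ).prod)⁻¹)
    (MD : List (List ℕ × List (ℕ × ℕ)))
    (h : allB C.ncomp (fun j => bor (Nat.beq j 0)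
      (chkMaxW C winv j (MD.getD j ([], [])).1 (MD.getD j ([], [])).2)) = true)
    (M : Subgroup G) (hHM : H ≤ M) : M = H ∨ M = ⊤ := by
  have hn := hA.hn
  have hcomp0 := hA.comp_zero hO hroot0
  by_cases hMH : M ≤ H
  · left; exact le_antisymm hMH hHM
  · right
    obtain ⟨g, hgM, hgH⟩ := SetLike.not_le_iff_exists.mp hMH
    obtain ⟨c, hc, ec⟩ := hA.tact.surj (g • C.F γ H 0)
    have hj : C.comp c < C.ncomp := (Cert.chkO_spec hO hc).2.1
    have hj0 : C.comp c ≠ 0 := by
      intro h0
      have hz := hA.eq_zero_of_comp hO hroot0 hc h0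
      rw [hz] at ec
      exact hgH (hA.fix0.mp ec.symm)
    rw [allB_iff] at h
    have hchk := h _ hj
    rw [bor_iff, beq_iff] at hchk
    rcases hchk with hchk | hchk
    · exact absurd hchk hj0
    · unfold chkMaxW at hchk
      rw [band_iff, band_iff, blt_iff, beq_iff, allB_iff] at hchk
      obtain ⟨k1, k2, k3⟩ := hchk
      have e := ev_smul hA.tact (MD.getD (C.comp c) ([], [])).1 0 hn k1
      obtain ⟨x, hx, ex⟩ := hA.same_comp hO k1 hc k2
      have hwM : (((MD.getD (C.comp c) ([], [])).1).map γ).prod ∈ M := by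
        have e3 : (x * (((MD.getD (C.comp c) ([], [])).1).map γ).prod)⁻¹ * g ∈ H := by
          apply hA.fix0.mp
          rw [mul_smul, ← ec, ← ex, ← e, ← mul_smul x, inv_smul_smul]
        have e4 : (((MD.getD (C.comp c) ([], [])).1).map γ).prod =
            x⁻¹ * (g * ((x * (((MD.getD (C.comp c) ([], [])).1).map γ).prod)⁻¹ * g)⁻¹) := by
          group
        rw [e4]
        exact mul_mem (inv_mem (hHM hx)) (mul_mem hgM (inv_mem (hHM e3)))
      have hws : ∀ w ∈ [(MD.getD (C.comp c) ([], [])).1,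
          winv (MD.getD (C.comp c) ([], [])).1], (w.map γ).prod ∈ M := by
        intro w hw
        rcases List.mem_cons.mp hw with rfl | hw
        · exact hwM
        · rw [List.mem_singleton] at hw
          subst hw
          rw [hwinv]
          exact inv_mem hwM
      have hreach := reachL_soundT hA hO M hHM _ hws (MD.getD (C.comp c) ([], [])).2 [0] (by
        intro k hk c' hc' hck
        rw [List.mem_singleton] at hk
        subst hk
        obtain ⟨y, hy, ey⟩ := hA.same_comp hO hn hc' (hcomp0.trans hck.symm)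
        exact ⟨y, hHM hy, ey⟩)
      rw [eq_top_iff]
      intro g' _
      obtain ⟨c', hc', ec'⟩ := hA.tact.surj (g' • C.F γ H 0)
      have hk' := k3 (C.comp c') (Cert.chkO_spec hO hc').2.1
      have hmem : C.comp c' ∈ reachL C [(MD.getD (C.comp c) ([], [])).1,
          winv (MD.getD (C.comp c) ([], [])).1] (MD.getD (C.comp c) ([], [])).2 [0] := by
        simpa using hk'
      obtain ⟨m, hm, em⟩ := hreach _ hmem c' hc' rfl
      have e5 : m⁻¹ * g' ∈ H := by
        apply hA.fix0.mp
        rw [mul_smul, ← ec', ← em, inv_smul_smul]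
      have e6 : g' = m * (m⁻¹ * g') := by group
      rw [e6]
      exact mul_mem hm (hHM e5)

/-! ### Regular normal subgroups -/

/-- a normal complement of `H` has as many elements as `H` has cosets -/
theorem card_of_regular (N H : Subgroup G) [hN : N.Normal] (h1 : N ⊓ H = ⊥) (h2 : N ⊔ H = ⊤) :
    Nat.card N = H.index := by
  rw [Subgroup.index_eq_card]
  apply Nat.card_congr
  refine Equiv.ofBijective (fun n : N => ((n : G) : G ⧸ H)) ⟨?_, ?_⟩
  · intro a b hab
    have hab' : ((a : G) : G ⧸ H) = ((b : G) : G ⧸ H) := hab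
    rw [QuotientGroup.eq] at hab'
    have hm : (a : G)⁻¹ * b ∈ N ⊓ H := Subgroup.mem_inf.mpr ⟨N.mul_mem (N.inv_mem a.2) b.2, hab'⟩
    rw [h1, Subgroup.mem_bot] at hm
    exact Subtype.ext (inv_mul_eq_one.mp hm)
  · intro q
    refine QuotientGroup.induction_on q (fun g => ?_)
    have hg : g ∈ N ⊔ H := by rw [h2]; exact Subgroup.mem_top g
    obtain ⟨n, hn, k, hk, rfl⟩ := Subgroup.mem_sup_of_normal_left.mp hg
    refine ⟨⟨n, hn⟩, ?_⟩
    show ((n : G) : G ⧸ H) = ((n * k : G) : G ⧸ H)
    rw [QuotientGroup.eq]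
    have e : n⁻¹ * (n * k) = k := by group
    rw [e]
    exact hk

/-- **No regular normal subgroup.** A normal subgroup meeting `H` trivially cannot have an order
divisible by as many primes as there are orbits of `H` on its cosets: elements of the subgroup in
the same orbit of `H` are conjugate. -/
theorem no_regular (hA : CAct C γ H) (hO : Cert.OChecks C) (hroot0 : C.root 0 = 0)
    (N : Subgroup G) [hN : N.Normal] [Finite N] (hNH : N ⊓ H = ⊥)
    (ps : List ℕ) (hnd : ps.Nodup) (hlen : C.ncomp ≤ ps.length)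
    (hp : ∀ p ∈ ps, Nat.Prime p ∧ p ∣ Nat.card N) : False := by
  classical
  have hex : ∀ p, ∃ x : G, p ∈ ps → x ∈ N ∧ orderOf x = p := by
    intro p
    by_cases hpm : p ∈ ps
    · obtain ⟨hpp, hpd⟩ := hp p hpm
      haveI := Fact.mk hpp
      obtain ⟨x, hx⟩ := exists_prime_orderOf_dvd_card' p hpd
      exact ⟨x, fun _ => ⟨x.2, by rw [← hx]; exact Subgroup.orderOf_coe x⟩⟩
    · exact ⟨1, fun h => absurd h hpm⟩
  choose el hel using hex
  have hcls : ∀ g : G, ∃ c, c < C.n ∧ C.F γ H c = g • C.F γ H 0 := fun g => by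
    obtain ⟨c, hc, e⟩ := hA.tact.surj (g • C.F γ H 0)
    exact ⟨c, hc, e⟩
  choose cls hcls1 hcls2 using hcls
  have hnc : 0 < C.ncomp := lt_of_le_of_lt (Nat.zero_le _) (Cert.chkO_spec hO hA.hn).2.1
  have hmaps : Set.MapsTo (fun p => C.comp (cls (el p))) (ps.toFinset : Set ℕ)
      (Finset.Ico 1 C.ncomp : Set ℕ) := by
    intro p hpm
    rw [Finset.mem_coe, List.mem_toFinset] at hpm
    rw [Finset.mem_coe, Finset.mem_Ico]
    show 1 ≤ C.comp (cls (el p)) ∧ C.comp (cls (el p)) < C.ncomp
    refine ⟨?_, (Cert.chkO_spec hO (hcls1 _)).2.1⟩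
    by_contra h0
    have h0' : C.comp (cls (el p)) = 0 := by omega
    have hz := hA.eq_zero_of_comp hO hroot0 (hcls1 _) h0'
    have e := hcls2 (el p)
    rw [hz] at e
    have hmem : el p ∈ H := hA.fix0.mp e.symm
    have h1 : el p ∈ N ⊓ H := Subgroup.mem_inf.mpr ⟨(hel p hpm).1, hmem⟩
    rw [hNH, Subgroup.mem_bot] at h1
    have h2 := (hel p hpm).2
    rw [h1, orderOf_one] at h2
    exact (hp p hpm).1.ne_one h2.symm
  have hcard : (Finset.Ico 1 C.ncomp).card < ps.toFinset.card := by
    rw [Nat.card_Ico, List.toFinset_card_of_nodup hnd]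
    omega
  obtain ⟨p, hpm, q, hqm, hpq, hfpq⟩ :=
    Finset.exists_ne_map_eq_of_card_lt_of_maps_to hcard hmaps
  rw [List.mem_toFinset] at hpm hqm
  obtain ⟨x, hx, ex⟩ := hA.same_comp hO (hcls1 (el p)) (hcls1 (el q)) hfpq
  rw [hcls2, hcls2, ← mul_smul] at ex
  have e3 : ((el q)⁻¹ * (x * el p)) • C.F γ H 0 = C.F γ H 0 := by
    rw [mul_smul, ex, inv_smul_smul]
  have e4 := hA.fix0.mp e3
  have e5 : (el q)⁻¹ * (x * el p * x⁻¹) ∈ N ⊓ H := by
    refine Subgroup.mem_inf.mpr ⟨N.mul_mem (N.inv_mem (hel q hqm).1) (hN.conj_mem _ (hel p hpm).1 x), ?_⟩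
    have e : (el q)⁻¹ * (x * el p * x⁻¹) = ((el q)⁻¹ * (x * el p)) * x⁻¹ := by group
    rw [e]
    exact H.mul_mem e4 (H.inv_mem hx)
  rw [hNH, Subgroup.mem_bot] at e5
  have e6 : el q = x * el p * x⁻¹ := inv_mul_eq_one.mp e5
  have hsc : SemiconjBy x (el p) (el q) := by
    show x * el p = el q * x
    rw [e6]; group
  have e7 := hsc.orderOf_eq
  rw [(hel q hqm).2, (hel p hpm).2] at e7
  exact hpq e7

end CA

/-! ### Normal subgroups with non-abelian quotient -/

section Iwasawa2

variable {P : Type*} [Group P]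

/-- a subgroup generated by elements which conjugate `z` and are conjugated by... into `⟨z⟩`
normalises `⟨z⟩` -/
theorem conj_mem_zpowers_of_closure' {T : Set P} {z : P}
    (hT : ∀ b ∈ T, b * z * b⁻¹ ∈ Subgroup.zpowers z ∧ b⁻¹ * z * b ∈ Subgroup.zpowers z) :
    ∀ h ∈ Subgroup.closure T, h * z * h⁻¹ ∈ Subgroup.zpowers z := by
  have hle : Subgroup.closure T ≤ Subgroup.normalizer (Subgroup.zpowers z : Set P) := by
    rw [Subgroup.closure_le]
    intro b hb
    obtain ⟨h1, h2⟩ := hT b hb
    rw [SetLike.mem_coe, Subgroup.mem_normalizer_iff]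
    intro x
    constructor
    · intro hx
      obtain ⟨i, rfl⟩ := Subgroup.mem_zpowers_iff.mp hx
      have e : b * z ^ i * b⁻¹ = (b * z * b⁻¹) ^ i := by rw [conj_zpow]
      rw [e]
      exact zpow_mem h1 i
    · intro hx
      obtain ⟨i, hi⟩ := Subgroup.mem_zpowers_iff.mp hx
      have e1 : (b⁻¹ * z * b) ^ i = b⁻¹ * z ^ i * b := by
        have h3 := conj_zpow (a := b⁻¹) (b := z) (i := i)
        rw [inv_inv] at h3
        exact h3
      have e : x = (b⁻¹ * z * b) ^ i := by
        rw [e1, hi]; group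
      rw [e]
      exact zpow_mem h2 i
  intro h hh
  exact (Subgroup.mem_normalizer_iff.mp (hle hh) z).mp (Subgroup.mem_zpowers z)

/-- **A variant of Iwasawa's criterion.** Let `B` be a maximal subgroup of trivial core
normalising `⟨t⟩`, where `t` is a commutator of two elements of its normal closure `M`, and let
`P / M` be abelian. Then every nontrivial normal subgroup contains all commutators. -/
theorem normal_contains_comm (B : Subgroup P)
    (hmax : ∀ M : Subgroup P, B ≤ M → M = B ∨ M = ⊤)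
    (t : P) (hz : ∀ b ∈ B, b * t * b⁻¹ ∈ Subgroup.zpowers t)
    (hcore : ∀ K : Subgroup P, K.Normal → K ≤ B → K = ⊥)
    (x y : P) (hx : x ∈ Subgroup.normalClosure {t}) (hy : y ∈ Subgroup.normalClosure {t})
    (hxy : t = x * y * x⁻¹ * y⁻¹)
    (hab : ∀ a b : P, a * b * a⁻¹ * b⁻¹ ∈ Subgroup.normalClosure {t})
    (K : Subgroup P) (hK : K.Normal) (hK1 : K ≠ ⊥) : ∀ a b : P, a * b * a⁻¹ * b⁻¹ ∈ K := by
  have := hK
  have hKB : K ⊔ B = ⊤ := by
    rcases hmax (K ⊔ B) le_sup_right with h | h
    · exact absurd (hcore K hK (by rw [← h]; exact le_sup_left)) hK1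
    · exact h
  have hconj : ∀ g : P, g * t * g⁻¹ ∈ K ⊔ Subgroup.zpowers t := by
    intro g
    have hg : g ∈ K ⊔ B := by rw [hKB]; exact Subgroup.mem_top g
    obtain ⟨n, hn, k, hk, rfl⟩ := Subgroup.mem_sup_of_normal_left.mp hg
    have ha := hz k hk
    have e : n * k * t * (n * k)⁻¹ =
        (n * ((k * t * k⁻¹) * n⁻¹ * (k * t * k⁻¹)⁻¹)) * (k * t * k⁻¹) := by group
    rw [e]
    exact Subgroup.mul_mem_sup (mul_mem hn (hK.conj_mem _ (inv_mem hn) _)) ha
  have hle : Subgroup.normalClosure {t} ≤ K ⊔ Subgroup.zpowers t := by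
    show Subgroup.closure (Group.conjugatesOfSet {t}) ≤ _
    rw [Subgroup.closure_le]
    intro u hu
    rw [Group.mem_conjugatesOfSet_iff] at hu
    obtain ⟨a, ha, hau⟩ := hu
    rw [Set.mem_singleton_iff] at ha
    subst ha
    obtain ⟨c, rfl⟩ := isConj_iff.mp hau
    exact hconj c
  have hpow : ∀ u ∈ K ⊔ Subgroup.zpowers t,
      ∃ i : ℤ, (QuotientGroup.mk u : P ⧸ K) = (QuotientGroup.mk t : P ⧸ K) ^ i := by
    intro u hu
    obtain ⟨k, hk, z, hz', rfl⟩ := Subgroup.mem_sup_of_normal_left.mp hu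
    obtain ⟨i, rfl⟩ := Subgroup.mem_zpowers_iff.mp hz'
    refine ⟨i, ?_⟩
    rw [QuotientGroup.mk_mul, (QuotientGroup.eq_one_iff k).mpr hk, one_mul, QuotientGroup.mk_zpow]
  obtain ⟨i, hi⟩ := hpow x (hle hx)
  obtain ⟨j, hj⟩ := hpow y (hle hy)
  have ht : t ∈ K := by
    rw [← QuotientGroup.eq_one_iff]
    have e : (QuotientGroup.mk t : P ⧸ K) = QuotientGroup.mk (x * y * x⁻¹ * y⁻¹) := by rw [← hxy]
    rw [e, QuotientGroup.mk_mul, QuotientGroup.mk_mul, QuotientGroup.mk_mul, QuotientGroup.mk_inv,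
      QuotientGroup.mk_inv, hi, hj, ← zpow_add, add_comm, zpow_add]
    group
  have hle2 : Subgroup.normalClosure {t} ≤ K :=
    Subgroup.normalClosure_le_normal (by
      intro u hu
      rw [Set.mem_singleton_iff] at hu
      subst hu
      exact ht)
  exact fun a b => hle2 (hab a b)

/-- a group with at most two elements is commutative -/
theorem comm_of_card_le_two {Q : Type*} [Group Q] [Finite Q] (h : Nat.card Q ≤ 2) (a b : Q) :
    a * b = b * a := by
  by_cases ha : a = 1
  · rw [ha, one_mul, mul_one]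
  by_cases hb : b = 1
  · rw [hb, one_mul, mul_one]
  by_cases hab : a = b
  · rw [hab]
  exfalso
  have hinj : Function.Injective (fun i : Fin 3 => if i = 0 then (1 : Q) else if i = 1 then a else b) := by
    intro i j hij
    fin_cases i <;> fin_cases j <;> simp_all
  have h3 := Nat.card_le_card_of_injective _ hinj
  rw [Nat.card_fin] at h3
  omega

/-- if a group with at most two elements maps onto `P / M`, then `M` contains all commutators -/
theorem comm_mem_of_quotient (M : Subgroup P) [M.Normal] {Q : Type*} [Group Q] [Finite Q]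
    (hQ : Nat.card Q ≤ 2) (φ : Q →* P ⧸ M) (hφ : Function.Surjective φ) (a b : P) :
    a * b * a⁻¹ * b⁻¹ ∈ M := by
  rw [← QuotientGroup.eq_one_iff, QuotientGroup.mk_mul, QuotientGroup.mk_mul, QuotientGroup.mk_mul,
    QuotientGroup.mk_inv, QuotientGroup.mk_inv]
  obtain ⟨q1, e1⟩ := hφ (QuotientGroup.mk a)
  obtain ⟨q2, e2⟩ := hφ (QuotientGroup.mk b)
  have hc : (QuotientGroup.mk a : P ⧸ M) * QuotientGroup.mk b =
      QuotientGroup.mk b * QuotientGroup.mk a := by
    rw [← e1, ← e2, ← map_mul, ← map_mul, comm_of_card_le_two hQ q1 q2]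
  rw [hc]
  group

end Iwasawa2

/-! ### The homomorphism from a sub-presentation (generators outside the sub-presentation need not
be involutions) -/

theorem exists_homI {G : Type*} [Group G] (γ : ℕ → G)
    (words : List (List ℕ)) (hrelw : ∀ w ∈ words, (w.map γ).prod = 1)
    (g' : ℕ) (words' : List (List ℕ)) (act : ℕ → Bool)
    (hγ : ∀ s, act s = true → γ s * γ s = 1)
    (hact : ∀ s, g' ≤ s → act s = false)
    (hw' : ∀ w ∈ words', okw words act w = true) :
    ∃ ψ : WP g' words' →* G,
      ∀ s, ψ (WP.gen g' words' s) = if act s = true then γ s else 1 := by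
  classical
  let f : ℕ → G := fun s => if act s = true then γ s else 1
  have hf2 : ∀ s, f s * f s = 1 := by
    intro s
    show (if act s = true then γ s else 1) * (if act s = true then γ s else 1) = 1
    split_ifs with h
    · exact hγ s h
    · exact one_mul 1
  have hfge : ∀ s, g' ≤ s → f s = 1 := by
    intro s hs
    show (if act s = true then γ s else 1) = 1
    rw [if_neg (by rw [hact s hs]; exact Bool.false_ne_true)]
  have hfact : ∀ w : List ℕ, w.all act = true → w.map f = w.map γ := by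
    intro w hw
    apply List.map_congr_left
    intro s hs
    show (if act s = true then γ s else 1) = γ s
    rw [if_pos (List.all_eq_true.mp hw s hs)]
  have hfw : ∀ w ∈ words', (w.map f).prod = 1 := by
    intro w hw
    have h := hw' w hw
    unfold okw at h
    rw [Bool.or_eq_true] at h
    rcases h with h | h
    · match w, h with
      | [s], h =>
        have hs : act s = false := by simpa using h
        show (if act s = true then γ s else 1) * 1 = 1
        rw [if_neg (by rw [hs]; exact Bool.false_ne_true), one_mul]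
    · rw [Bool.and_eq_true, decide_eq_true_eq] at h
      rw [hfact w h.2]
      exact hrelw w h.1
  exact ⟨WP.lift g' words' f hf2 hfge hfw, fun s => WP.lift_gen g' words' f hf2 hfge hfw s⟩

end Cfsg.Agent.Lib.Helper39.Ord
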