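import Cfsg.Agent.S1692
import Cfsg.Agent.Lib.Helper39.OrdT
import Cfsg.Agent.Lib.Helper39.ONOrdData
import Cfsg.Agent.Lib.Helper39.ONLO
import Cfsg.Agent.Lib.Helper39.ONSV
import Cfsg.Agent.Lib.Helper39.ONSN
import Cfsg.Agent.Lib.Helper39.ONCV
import Cfsg.Agent.Lib.Helper39.ONCN
import Cfsg.Agent.Lib.Helper39.ONBV
import Cfsg.Agent.Lib.Helper39.ONBN
import Cfsg.Agent.Lib.Helper39.ONBO
import Cfsg.Agent.Lib.Helper39.ONTV
import Cfsg.Agent.Lib.Helper39.ONTN

/-!
The presented O'Nan group is simple of order 460815505920.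

Letters: `0 = g`, `1 = g⁻¹`, `2 … 7 = a … f`; `H = ⟨a, …, f⟩` has index 122760 (S1692).

* The group `P` presented by the relators on `a, …, f` has order 3753792: upper bound from the
  enumerations over `⟨a, b, c, d, f⟩` (index 5586) and of the sub-presentation on `a, b, c, d, f`
  (order 672); lower bound from a base of four points among the 456 cosets of the normaliser `B`
  of `⟨t⟩`, `t = (bcde)²` of order 7.
* Every nontrivial normal subgroup of `P` contains all commutators (a variant of Iwasawa's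
  criterion for the maximal subgroup `B`).
* `P → H` is injective (`a` and `b` do not commute in `H`), which gives the order.
* Simplicity: a normal subgroup `N` inside `H` is trivial; otherwise `N H = G`, and `N ∩ H` is
  trivial (then `N` is regular of order 122760 on the cosets of `H`, impossible since `H` has only
  four orbits on the other cosets and five primes divide 122760) or contains the commutators of
  `H` (then `G / N` is abelian, and `G` is perfect).
-/

set_option maxRecDepth 100000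
set_option maxHeartbeats 0
set_option linter.unusedSimpArgs false
set_option linter.unusedVariables false

namespace Cfsg.Agent.Lib.Helper39.ONOrd

open Cfsg.Agent.Lib.Helper38 Cfsg.Agent.Lib.Helper39 Cfsg.Agent.Lib.Helper39.Ord

/-- the presented group -/
abbrev G : Type := PresentedGroup ONP.rels

/-- the letters -/
noncomputable abbrev γ : ℕ → G := fun s => PresentedGroup.mk ONP.rels (ONP.gam s)

/-- the subgroup `⟨a, …, f⟩` -/
abbrev H : Subgroup G :=
  (Subgroup.closure Cfsg.Agent.S1692.S).map (PresentedGroup.mk ONP.rels)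

theorem hP : PresI ONL.cert 1 γ H := Cfsg.Agent.S1692.hP
theorem hC : ChecksI ONL.cert 1 := Cfsg.Agent.S1692.hC
theorem chkRootsL : ONL.cert.chkRoots = true := by decide +kernel
theorem hO : Cert.OChecks ONL.cert := ⟨ONL.chkO_all, chkRootsL⟩
theorem hA : CAct ONL.cert γ H := cact_ofI hP hC
theorem rootL : ONL.cert.root 0 = 0 := by decide +kernel

/-! ### The group presented by the relators on `a, …, f` -/

/-- the group presented by the relators on `a, …, f` -/
abbrev P : Type := WP 8 WH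

/-- its generators -/
noncomputable abbrev δ : ℕ → P := WP.gen 8 WH

theorem hδ : ∀ s, δ s * δ s = 1 := WP.gen_mul_self 8 WH

theorem wordsS : (List.range ONS.cert.nrel).map ONS.cert.wordL = WH := by decide +kernel
theorem wordsB : (List.range ONB.cert.nrel).map ONB.cert.wordL = WH := by decide +kernel
theorem wordsC : (List.range ONC.cert.nrel).map ONC.cert.wordL = WC := by decide +kernel
theorem wordsT : (List.range ONT.cert.nrel).map ONT.cert.wordL = WH ++ [tw] := by decide +kernel

theorem chkGS : ONS.cert.chkG = true := by decide +kernel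
theorem chkGB : ONB.cert.chkG = true := by decide +kernel
theorem chkGC : ONC.cert.chkG = true := by decide +kernel
theorem chkGT : ONT.cert.chkG = true := by decide +kernel

/-- the normaliser of `⟨t⟩` -/
noncomputable abbrev B : Subgroup P := ONB.cert.subgp δ

theorem hPS : Cert.Pres ONS.cert δ (ONS.cert.subgp δ) := WP.pres ONS.cert WH wordsS ONS.chkN_all
theorem hCS : Cert.Checks ONS.cert := ⟨ONS.chkV_all, ONS.chkN_all, chkGS⟩
theorem hPB : Cert.Pres ONB.cert δ B := WP.pres ONB.cert WH wordsB ONB.chkN_all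
theorem hCB : Cert.Checks ONB.cert := ⟨ONB.chkV_all, ONB.chkN_all, chkGB⟩
theorem chkRootsB : ONB.cert.chkRoots = true := by decide +kernel
theorem hOB : Cert.OChecks ONB.cert := ⟨ONB.chkO_all, chkRootsB⟩
theorem hPC : Cert.Pres ONC.cert (WP.gen ONC.cert.g WC) (ONC.cert.subgp (WP.gen ONC.cert.g WC)) :=
  WP.pres ONC.cert WC wordsC ONC.chkN_all
theorem hCC : Cert.Checks ONC.cert := ⟨ONC.chkV_all, ONC.chkN_all, chkGC⟩
theorem hPT : Cert.Pres ONT.cert (WP.gen ONT.cert.g (WH ++ [tw]))
    (ONT.cert.subgp (WP.gen ONT.cert.g (WH ++ [tw]))) :=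
  WP.pres ONT.cert (WH ++ [tw]) wordsT ONT.chkN_all
theorem hCT : Cert.Checks ONT.cert := ⟨ONT.chkV_all, ONT.chkN_all, chkGT⟩

theorem cardC : Finite (WP 8 WC) ∧ Nat.card (WP 8 WC) = 672 := ub_bot hPC hCC (by decide)
theorem cardT : Finite (WP 8 (WH ++ [tw])) ∧ Nat.card (WP 8 (WH ++ [tw])) = 2 :=
  ub_bot hPT hCT (by decide)

theorem okS : ∀ w ∈ WC, okw WH (actL [2, 3, 4, 5, 7]) w = true := by decide +kernel

theorem subS : allFrom ONS.cert.nsub (Nat.sub ONS.cert.nw ONS.cert.nsub)
    (fun wid => (ONS.cert.wordL wid).all (actL [2, 3, 4, 5, 7])) = true := by decide +kernel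

theorem cardP_le : Finite P ∧ Nat.card P ≤ 3753792 := by
  haveI : Finite (WP 8 WC) := cardC.1
  have h := ub_step hPS hCS WH (fun w hw => WP.gen_word 8 WH hw) 8 WC (actL [2, 3, 4, 5, 7])
    (actL_ge [2, 3, 4, 5, 7] 8 (by decide)) okS (Cert.hsub_of subS)
  refine ⟨h.1, ?_⟩
  have h2 : Nat.card P ≤ 5586 * Nat.card (WP 8 WC) := h.2
  rw [cardC.2] at h2
  omega

instance finP : Finite P := cardP_le.1

/-! ### A base for `P` on the cosets of `B` -/

theorem hAB : TAct ONB.cert δ (ONB.cert.F δ B) := tact_of hPB hCB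

/-- the labelling of the cosets of `B` -/
noncomputable abbrev FB : ℕ → P ⧸ B := ONB.cert.F δ B

/-- the base points with their orbit lengths -/
def chainL : List (ℕ × ℕ) := [(0, 456), (5, 343), (9, 12), (1, 2)]

theorem lv0 : 456 ≤ (MulAction.orbit (PSt P FB []) (FB 0)).ncard := top_orbit hAB 0
theorem lv1 : 343 ≤ (MulAction.orbit (PSt P FB [0]) (FB 5)).ncard :=
  reach_tree hAB [0] cw1 (by decide +kernel) 5 (by decide) ct1 (by decide +kernel) (by decide)
theorem lv2 : 12 ≤ (MulAction.orbit (PSt P FB [5, 0]) (FB 9)).ncard :=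
  reach_tree hAB [5, 0] cw2 (by decide +kernel) 9 (by decide) ct2 (by decide +kernel) (by decide)
theorem lv3 : 2 ≤ (MulAction.orbit (PSt P FB [9, 5, 0]) (FB 1)).ncard :=
  reach_tree hAB [9, 5, 0] cw3 (by decide +kernel) 1 (by decide) ct3 (by decide +kernel) (by decide)

theorem chain : ChainF P FB [] chainL := by
  simp only [chainL, ChainF]
  exact ⟨lv0, lv1, lv2, lv3, trivial⟩

theorem prodL : (chainL.map Prod.snd).prod = 3753792 := by decide +kernel

theorem obP : Nat.card P = (chainL.map Prod.snd).prod ∧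
    ∀ g : P, (∀ p ∈ chainL.map Prod.fst, g • FB p = FB p) → g = 1 :=
  order_baseF FB chainL chain (by rw [prodL]; exact cardP_le.2)

/-- the order of `P` -/
theorem cardP : Nat.card P = 3753792 := obP.1.trans prodL

/-- the word `w` fixes the base points -/
noncomputable def chkB (w : List ℕ) : Bool :=
  (chainL.map Prod.fst).all (fun p => fixB ONB.cert w p)

/-- a word fixing the base points is trivial -/
theorem word_oneP (w : List ℕ) (h : chkB w = true) : (w.map δ).prod = 1 := by
  apply obP.2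
  intro p hp
  exact fix_of hAB (List.all_eq_true.mp h p hp)

/-! ### The normal subgroups of `P` -/

/-- the element `t = (bcde)²` of order 7 -/
noncomputable abbrev t : P := (tw.map δ).prod

theorem conj_pow_of_word {K : Type*} [Group K] {σ : ℕ → K} (hσ : ∀ s, σ s * σ s = 1)
    (bw zw : List ℕ) (k : ℕ)
    (h : ((bw ++ (zw ++ (bw.reverse ++ (List.replicate k zw.reverse).flatten))).map σ).prod = 1) :
    (bw.map σ).prod * (zw.map σ).prod * ((bw.map σ).prod)⁻¹ = ((zw.map σ).prod) ^ k := by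
  rw [List.map_append, List.prod_append, List.map_append, List.prod_append, List.map_append,
    List.prod_append, ONP.rep_word, prod_reverse_inv hσ, prod_reverse_inv hσ] at h
  generalize (bw.map σ).prod = b at h ⊢
  generalize (zw.map σ).prod = z at h ⊢
  have h2 : b * z * b⁻¹ = ((z⁻¹) ^ k)⁻¹ := by
    apply eq_inv_of_mul_eq_one_left
    rw [← h]
    simp only [mul_assoc]
  rw [h2, inv_pow, inv_inv]

theorem wB0 : ONB.cert.wordL 26 = bw0 := by decide +kernel
theorem wB1 : ONB.cert.wordL 27 = bw1 := by decide +kernel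

theorem nrm (bw : List ℕ) (k1 k2 : ℕ)
    (h1 : chkB (bw ++ (tw ++ (bw.reverse ++ (List.replicate k1 tw.reverse).flatten))) = true)
    (h2 : chkB (bw.reverse ++ (tw ++ (bw.reverse.reverse ++
      (List.replicate k2 tw.reverse).flatten))) = true) :
    (bw.map δ).prod * t * ((bw.map δ).prod)⁻¹ ∈ Subgroup.zpowers t ∧
      ((bw.map δ).prod)⁻¹ * t * (bw.map δ).prod ∈ Subgroup.zpowers t := by
  constructor
  · rw [conj_pow_of_word hδ bw tw k1 (word_oneP _ h1)]
    exact pow_mem (Subgroup.mem_zpowers _) _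
  · have e := conj_pow_of_word hδ bw.reverse tw k2 (word_oneP _ h2)
    rw [prod_reverse_inv hδ, inv_inv] at e
    rw [e]
    exact pow_mem (Subgroup.mem_zpowers _) _

theorem hzB : ∀ b ∈ B, b * t * b⁻¹ ∈ Subgroup.zpowers t := by
  refine conj_mem_zpowers_of_closure' ?_
  rintro _ ⟨wid, h1, h2, rfl⟩
  have h1' : 26 ≤ wid := h1
  have h2' : wid < 28 := h2
  interval_cases wid
  · rw [wB0]
    exact nrm bw0 6 6 (by decide +kernel) (by decide +kernel)
  · rw [wB1]
    exact nrm bw1 2 4 (by decide +kernel) (by decide +kernel)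

/-- `x = u t⁴ u⁻¹` -/
noncomputable abbrev xx : P := (uw.map δ).prod * t ^ 4 * ((uw.map δ).prod)⁻¹

/-- `y = v t v⁻¹` -/
noncomputable abbrev yy : P := (vw.map δ).prod * t * ((vw.map δ).prod)⁻¹

theorem hx : xx ∈ Subgroup.normalClosure ({t} : Set P) :=
  Subgroup.normalClosure_normal.conj_mem _
    (pow_mem (Subgroup.subset_normalClosure (Set.mem_singleton _)) 4) _

theorem hy : yy ∈ Subgroup.normalClosure ({t} : Set P) :=
  Subgroup.normalClosure_normal.conj_mem _ (Subgroup.subset_normalClosure (Set.mem_singleton _)) _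

theorem hxy : t = xx * yy * xx⁻¹ * yy⁻¹ := by
  have h := word_oneP (tw.reverse ++ (uw ++ ((List.replicate 4 tw).flatten ++ (uw.reverse ++
    (vw ++ (tw ++ (vw.reverse ++ (uw ++ ((List.replicate 4 tw.reverse).flatten ++ (uw.reverse ++
    (vw ++ (tw.reverse ++ vw.reverse)))))))))))) (by decide +kernel)
  simp only [List.map_append, List.prod_append, ONP.rep_word, prod_reverse_inv hδ] at h
  show (tw.map δ).prod = (uw.map δ).prod * (tw.map δ).prod ^ 4 * ((uw.map δ).prod)⁻¹ *
    ((vw.map δ).prod * (tw.map δ).prod * ((vw.map δ).prod)⁻¹) *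
    ((uw.map δ).prod * (tw.map δ).prod ^ 4 * ((uw.map δ).prod)⁻¹)⁻¹ *
    ((vw.map δ).prod * (tw.map δ).prod * ((vw.map δ).prod)⁻¹)⁻¹
  generalize (tw.map δ).prod = z at h ⊢
  generalize (uw.map δ).prod = U at h ⊢
  generalize (vw.map δ).prod = V at h ⊢
  have e : U * z ^ 4 * U⁻¹ * (V * z * V⁻¹) * (U * z ^ 4 * U⁻¹)⁻¹ * (V * z * V⁻¹)⁻¹ =
      z * (z⁻¹ * (U * (z ^ 4 * (U⁻¹ * (V * (z * (V⁻¹ * (U * (z⁻¹ ^ 4 * (U⁻¹ * (V *
        (z⁻¹ * V⁻¹)))))))))))) := by group
  rw [e, h, mul_one]

theorem habP : ∀ a b : P, a * b * a⁻¹ * b⁻¹ ∈ Subgroup.normalClosure ({t} : Set P) := by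
  haveI : Finite (WP 8 (WH ++ [tw])) := cardT.1
  let f : ℕ → P ⧸ Subgroup.normalClosure ({t} : Set P) := fun s => QuotientGroup.mk (δ s)
  have hf2 : ∀ s, f s * f s = 1 := by
    intro s
    show (QuotientGroup.mk (δ s) : P ⧸ Subgroup.normalClosure ({t} : Set P)) *
      QuotientGroup.mk (δ s) = 1
    rw [← QuotientGroup.mk_mul, hδ, QuotientGroup.mk_one]
  have hfge : ∀ s, 8 ≤ s → f s = 1 := by
    intro s hs
    show (QuotientGroup.mk (δ s) : P ⧸ Subgroup.normalClosure ({t} : Set P)) = 1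
    rw [show δ s = 1 from WP.gen_of_ge 8 WH hs, QuotientGroup.mk_one]
  have hfw0 : ∀ w : List ℕ, (w.map f).prod = QuotientGroup.mk ((w.map δ).prod) := by
    intro w
    induction w with
    | nil => simp
    | cons a w ih =>
      rw [List.map_cons, List.prod_cons, ih, List.map_cons, List.prod_cons, QuotientGroup.mk_mul]
  have hfw : ∀ w ∈ WH ++ [tw], (w.map f).prod = 1 := by
    intro w hw
    rw [hfw0]
    rcases List.mem_append.mp hw with hw | hw
    · rw [WP.gen_word 8 WH hw, QuotientGroup.mk_one]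
    · rw [List.mem_singleton] at hw
      subst hw
      exact (QuotientGroup.eq_one_iff _).mpr
        (Subgroup.subset_normalClosure (Set.mem_singleton _))
  have hφ : Function.Surjective (WP.lift 8 (WH ++ [tw]) f hf2 hfge hfw) := by
    intro q
    obtain ⟨p, rfl⟩ := QuotientGroup.mk_surjective q
    have hp : p ∈ Subgroup.closure (δ '' {s | s < 8}) := by
      rw [WP.closure_gen 8 WH]; trivial
    have hle : Subgroup.closure (δ '' {s | s < 8}) ≤
        (WP.lift 8 (WH ++ [tw]) f hf2 hfge hfw).range.comap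
          (QuotientGroup.mk' (Subgroup.normalClosure ({t} : Set P))) := by
      rw [Subgroup.closure_le]
      rintro _ ⟨s, -, rfl⟩
      exact ⟨WP.gen 8 (WH ++ [tw]) s, WP.lift_gen 8 (WH ++ [tw]) f hf2 hfge hfw s⟩
    exact hle hp
  exact comm_mem_of_quotient _ (by rw [cardT.2]) _ hφ

theorem rootB : ONB.cert.root 0 = 0 := by decide +kernel

theorem chkMDB : allB ONB.cert.ncomp (fun j => bor (Nat.beq j 0)
    (chkMaxJ ONB.cert j (MDB.getD j ([], [])).1 (MDB.getD j ([], [])).2)) = true := by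
  decide +kernel

theorem maxB (M : Subgroup P) (hM : B ≤ M) : M = B ∨ M = ⊤ :=
  maximal_of_reach hPB hCB hOB rootB MDB chkMDB M hM

theorem coreB (K : Subgroup P) (hK : K.Normal) (hKB : K ≤ B) : K = ⊥ := by
  have := hK
  rw [eq_bot_iff]
  intro k hk
  rw [Subgroup.mem_bot]
  exact obP.2 k (fun p _ => normal_le_fix K B hKB hk _)

/-- every nontrivial normal subgroup of `P` contains all commutators -/
theorem P_normal (K : Subgroup P) (hK : K.Normal) (hK1 : K ≠ ⊥) :
    ∀ a b : P, a * b * a⁻¹ * b⁻¹ ∈ K :=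
  normal_contains_comm B maxB t hzB coreB xx yy hx hy hxy habP K hK hK1

/-! ### The subgroup `H` -/

theorem γ_sq (s : ℕ) (hs : 2 ≤ s) : γ s * γ s = 1 := by
  have h := hP.hγ s
  rwa [invL_of_ge (by omega)] at h

theorem γ_inv (s : ℕ) (hs : 2 ≤ s) : (γ s)⁻¹ = γ s := inv_eq_of_mul_eq_one_left (γ_sq s hs)

theorem okH : ∀ w ∈ WH, okw ONP.words (actL [2, 3, 4, 5, 6, 7]) w = true := by decide +kernel

theorem act_ge2 : ∀ s, actL [2, 3, 4, 5, 6, 7] s = true → 2 ≤ s := by
  intro s hs
  unfold actL at hs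
  rw [decide_eq_true_eq] at hs
  simp only [List.mem_cons, List.not_mem_nil, or_false] at hs
  omega

theorem ψ_ex : ∃ ψ : P →* G,
    ∀ s, ψ (δ s) = if actL [2, 3, 4, 5, 6, 7] s = true then γ s else 1 :=
  exists_homI γ ONP.words ONP.of_words 8 WH (actL [2, 3, 4, 5, 6, 7])
    (fun s hs => γ_sq s (act_ge2 s hs)) (actL_ge [2, 3, 4, 5, 6, 7] 8 (by decide)) okH

/-- the homomorphism from `P` onto `H` -/
noncomputable def ψ : P →* G := Classical.choose ψ_ex

theorem ψ_gen : ∀ s, ψ (δ s) = if actL [2, 3, 4, 5, 6, 7] s = true then γ s else 1 :=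
  Classical.choose_spec ψ_ex

theorem ψ_act (s : ℕ) (h1 : 2 ≤ s) (h2 : s < 8) : ψ (δ s) = γ s := by
  rw [ψ_gen, if_pos]
  unfold actL
  rw [decide_eq_true_eq]
  interval_cases s <;> simp

theorem gen_mem_H (s : ℕ) (h1 : 2 ≤ s) (h2 : s < 8) : γ s ∈ H := by
  interval_cases s
  · have h := hA.word_mem (wid := 30) (by decide) (by decide)
    rw [Cfsg.Agent.S1692.w_30, List.map_cons, List.map_nil, List.prod_cons, List.prod_nil,
      mul_one] at h
    exact h
  · have h := hA.word_mem (wid := 31) (by decide) (by decide)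
    rw [Cfsg.Agent.S1692.w_31, List.map_cons, List.map_nil, List.prod_cons, List.prod_nil,
      mul_one] at h
    exact h
  · have h := hA.word_mem (wid := 32) (by decide) (by decide)
    rw [Cfsg.Agent.S1692.w_32, List.map_cons, List.map_nil, List.prod_cons, List.prod_nil,
      mul_one] at h
    exact h
  · have h := hA.word_mem (wid := 33) (by decide) (by decide)
    rw [Cfsg.Agent.S1692.w_33, List.map_cons, List.map_nil, List.prod_cons, List.prod_nil,
      mul_one] at h
    exact h
  · have h := hA.word_mem (wid := 34) (by decide) (by decide)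
    rw [Cfsg.Agent.S1692.w_34, List.map_cons, List.map_nil, List.prod_cons, List.prod_nil,
      mul_one] at h
    exact h
  · have h := hA.word_mem (wid := 35) (by decide) (by decide)
    rw [Cfsg.Agent.S1692.w_35, List.map_cons, List.map_nil, List.prod_cons, List.prod_nil,
      mul_one] at h
    exact h

theorem range_le : ψ.range ≤ H := by
  rw [MonoidHom.range_eq_map, ← WP.closure_gen 8 WH, MonoidHom.map_closure, Subgroup.closure_le]
  rintro _ ⟨_, ⟨s, hs, rfl⟩, rfl⟩
  rw [SetLike.mem_coe]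
  have e := ψ_gen s
  by_cases h : actL [2, 3, 4, 5, 6, 7] s = true
  · rw [if_pos h] at e
    have e' : ψ (WP.gen 8 WH s) = γ s := e
    rw [e']
    exact gen_mem_H s (act_ge2 s h) hs
  · rw [if_neg h] at e
    have e' : ψ (WP.gen 8 WH s) = 1 := e
    rw [e']
    exact one_mem _

theorem H_le_range : H ≤ ψ.range := by
  rw [hP.hH, Subgroup.closure_le]
  rintro _ ⟨wid, h1, h2, rfl⟩
  have h1' : 30 ≤ wid := h1
  have h2' : wid < 36 := h2
  have key : ∀ s, 2 ≤ s → s < 8 → ([s].map γ).prod ∈ (ψ.range : Set G) := by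
    intro s hs1 hs2
    rw [SetLike.mem_coe, List.map_cons, List.map_nil, List.prod_cons, List.prod_nil, mul_one]
    exact ⟨δ s, ψ_act s hs1 hs2⟩
  interval_cases wid
  · rw [Cfsg.Agent.S1692.w_30]; exact key 2 (by norm_num) (by norm_num)
  · rw [Cfsg.Agent.S1692.w_31]; exact key 3 (by norm_num) (by norm_num)
  · rw [Cfsg.Agent.S1692.w_32]; exact key 4 (by norm_num) (by norm_num)
  · rw [Cfsg.Agent.S1692.w_33]; exact key 5 (by norm_num) (by norm_num)
  · rw [Cfsg.Agent.S1692.w_34]; exact key 6 (by norm_num) (by norm_num)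
  · rw [Cfsg.Agent.S1692.w_35]; exact key 7 (by norm_num) (by norm_num)

theorem range_eq : ψ.range = H := le_antisymm range_le H_le_range

/-- every nontrivial subgroup of `H` normalised by `H` contains the commutators of `H` -/
theorem H_normal (K : Subgroup G) (hKH : K ≤ H) (hnorm : ∀ h ∈ H, ∀ k ∈ K, h * k * h⁻¹ ∈ K)
    (hK1 : K ≠ ⊥) : ∀ a ∈ H, ∀ b ∈ H, a * b * a⁻¹ * b⁻¹ ∈ K := by
  have hK'n : (K.comap ψ).Normal := by
    refine ⟨fun k hk p => ?_⟩
    show ψ (p * k * p⁻¹) ∈ K
    rw [map_mul, map_mul, map_inv]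
    exact hnorm _ (range_le ⟨p, rfl⟩) _ hk
  have hK'1 : K.comap ψ ≠ ⊥ := by
    intro hbot
    apply hK1
    rw [eq_bot_iff]
    intro k hk
    obtain ⟨p, rfl⟩ := H_le_range (hKH hk)
    have hp : p ∈ K.comap ψ := hk
    rw [hbot, Subgroup.mem_bot] at hp
    rw [hp, map_one]
    exact Subgroup.mem_bot.mpr rfl
  intro a ha b hb
  obtain ⟨p, rfl⟩ := H_le_range ha
  obtain ⟨q, rfl⟩ := H_le_range hb
  have h := P_normal (K.comap ψ) hK'n hK'1 p q
  have h' : ψ (p * q * p⁻¹ * q⁻¹) ∈ K := h
  rw [map_mul, map_mul, map_mul, map_inv, map_inv] at h'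
  exact h'

theorem abab_smul : (γ 2 * γ 3 * (γ 2)⁻¹ * (γ 3)⁻¹) • ONL.cert.F γ H 1 =
    ONL.cert.F γ H (ev ONL.cert [2, 3, 2, 3] 1) := by
  rw [γ_inv 2 (by norm_num), γ_inv 3 (by norm_num)]
  have h1 : ev ONL.cert [2, 3, 2, 3] 1 < ONL.cert.n := by decide +kernel
  have h2 := ev_smul hA.tact [2, 3, 2, 3] 1 (by decide) h1
  simp only [List.map_cons, List.map_nil, List.prod_cons, List.prod_nil, mul_one] at h2
  rw [← h2]
  simp only [mul_assoc]

theorem abab_moves : (γ 2 * γ 3 * (γ 2)⁻¹ * (γ 3)⁻¹) • ONL.cert.F γ H 1 ≠ ONL.cert.F γ H 1 := by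
  rw [abab_smul]
  intro h
  have h1 : ev ONL.cert [2, 3, 2, 3] 1 < ONL.cert.n := by decide +kernel
  have h4 := hA.tact.inj _ h1 _ (by decide) h
  exact absurd h4 (by decide +kernel)

theorem abab_ne : γ 2 * γ 3 * (γ 2)⁻¹ * (γ 3)⁻¹ ≠ 1 := by
  intro h
  apply abab_moves
  rw [h, one_smul]

theorem ψ_inj : Function.Injective ψ := by
  rw [← MonoidHom.ker_eq_bot_iff]
  by_contra hne
  have h := P_normal ψ.ker (MonoidHom.normal_ker ψ) hne (δ 2) (δ 3)
  rw [MonoidHom.mem_ker, map_mul, map_mul, map_mul, map_inv, map_inv,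
    ψ_act 2 (by norm_num) (by norm_num), ψ_act 3 (by norm_num) (by norm_num)] at h
  exact abab_ne h

/-- the order of `H` -/
theorem cardH : Nat.card H = 3753792 := by
  rw [← range_eq, ← Nat.card_congr (MonoidHom.ofInjective ψ_inj).toEquiv, cardP]

/-- **The order.** -/
theorem on_card : Nat.card G = 460815505920 := by
  have h := Subgroup.index_mul_card H
  rw [index_eqI hP hC, cardH] at h
  have hn : ONL.cert.n = 122760 := by decide +kernel
  rw [hn] at h
  omega

instance finG : Finite G := Nat.finite_of_card_ne_zero (by rw [on_card]; norm_num)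

/-! ### Maximality of `H` -/

/-- the inverse word -/
noncomputable def winv (w : List ℕ) : List ℕ := (w.map (invL 1)).reverse

theorem γ_invL (s : ℕ) : γ (invL 1 s) = (γ s)⁻¹ := eq_inv_of_mul_eq_one_left (hP.hγ s)

theorem hwinv : ∀ w : List ℕ, ((winv w).map γ).prod = ((w.map γ).prod)⁻¹ := by
  intro w
  induction w with
  | nil => simp [winv]
  | cons a w ih =>
    have e : winv (a :: w) = winv w ++ [invL 1 a] := by simp [winv]
    rw [e, List.map_append, List.prod_append, ih, List.map_cons, List.map_nil, List.prod_cons,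
      List.prod_nil, mul_one, γ_invL, List.map_cons, List.prod_cons, mul_inv_rev]

theorem chkMDG : allB ONL.cert.ncomp (fun j => bor (Nat.beq j 0)
    (chkMaxW ONL.cert winv j (MDG.getD j ([], [])).1 (MDG.getD j ([], [])).2)) = true := by
  decide +kernel

theorem maxH (M : Subgroup G) (hM : H ≤ M) : M = H ∨ M = ⊤ :=
  maximal_of_reachT hA hO rootL winv hwinv MDG chkMDG M hM

/-! ### Perfectness -/

theorem gens_top (N : Subgroup G) (h : ∀ s < 8, γ s ∈ N) : N = ⊤ := by
  rw [eq_top_iff, ← hP.hgen, Subgroup.closure_le]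
  rintro _ ⟨s, hs, rfl⟩
  exact h s hs

theorem perf (N : Subgroup G) (hN : N.Normal) (hcomm : ∀ a b : G, a * b * a⁻¹ * b⁻¹ ∈ N) :
    N = ⊤ := by
  have := hN
  have hQ : ∀ x y : G ⧸ N, x * y = y * x := by
    intro x y
    refine QuotientGroup.induction_on x (fun a => ?_)
    refine QuotientGroup.induction_on y (fun b => ?_)
    have h := (QuotientGroup.eq_one_iff _).mpr (hcomm a b)
    rw [QuotientGroup.mk_mul, QuotientGroup.mk_mul, QuotientGroup.mk_mul, QuotientGroup.mk_inv,
      QuotientGroup.mk_inv] at h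
    calc (a : G ⧸ N) * (b : G ⧸ N)
        = (a : G ⧸ N) * b * (a : G ⧸ N)⁻¹ * (b : G ⧸ N)⁻¹ * (b * a) := by group
      _ = (b : G ⧸ N) * a := by rw [h, one_mul]
  letI : CommGroup (G ⧸ N) := { (inferInstance : Group (G ⧸ N)) with mul_comm := hQ }
  let π : G →* G ⧸ N := QuotientGroup.mk' N
  have rel : ∀ w ∈ ONP.words, (w.map (fun s => π (γ s))).prod = 1 := by
    intro w hw
    have h := congrArg π (ONP.of_words w hw)
    rw [map_list_prod, List.map_map, map_one] at h
    exact h
  generalize hy : (fun s => π (γ s)) = y at rel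
  have ys : ∀ s, y s = π (γ s) := fun s => by rw [← hy]
  have sq : ∀ s, 2 ≤ s → y s * y s = 1 := by
    intro s hs
    rw [ys, ← map_mul, γ_sq s hs, map_one]
  have sq' : ∀ s, 2 ≤ s → ∀ r, y s * (y s * r) = r := by
    intro s hs r
    rw [← mul_assoc, sq s hs, one_mul]
  have pair : ∀ i j, 2 ≤ i → 2 ≤ j → [i, j, i, j, i, j] ∈ ONP.words → y i = y j := by
    intro i j hi hj hm
    have h := rel _ hm
    simp only [List.map_cons, List.map_nil, List.prod_cons, List.prod_nil, mul_one] at h
    have e : y i * (y j * (y i * (y j * (y i * y j)))) =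
        (y i * y i) * ((y j * y j) * (y i * y j)) := by ac_rfl
    rw [e, sq i hi, sq j hj, one_mul, one_mul] at h
    calc y i = y i * (y j * y j) := by rw [sq j hj, mul_one]
      _ = (y i * y j) * y j := by rw [mul_assoc]
      _ = y j := by rw [h, one_mul]
  have e3 : y 3 = y 2 := (pair 2 3 (by norm_num) (by norm_num) (by decide)).symm
  have e4 : y 4 = y 2 := (pair 3 4 (by norm_num) (by norm_num) (by decide)).symm.trans e3
  have e6 : y 6 = y 5 := (pair 5 6 (by norm_num) (by norm_num) (by decide)).symm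
  have e7 : y 7 = y 5 := (pair 6 7 (by norm_num) (by norm_num) (by decide)).symm.trans e6
  have e5 : y 5 = y 2 := by
    have h := rel [2, 7, 5, 4, 5, 4, 5, 4, 5, 4] (by decide)
    simp only [List.map_cons, List.map_nil, List.prod_cons, List.prod_nil, mul_one] at h
    rw [e7, e4] at h
    have e : y 2 * (y 5 * (y 5 * (y 2 * (y 5 * (y 2 * (y 5 * (y 2 * (y 5 * y 2)))))))) =
        (y 2 * y 2) * ((y 2 * y 2) * ((y 5 * y 5) * ((y 5 * y 5) * (y 5 * y 2)))) := by ac_rfl
    rw [e, sq 2 (by norm_num), sq 5 (by norm_num), one_mul, one_mul, one_mul, one_mul] at h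
    calc y 5 = y 5 * (y 2 * y 2) := by rw [sq 2 (by norm_num), mul_one]
      _ = (y 5 * y 2) * y 2 := by rw [mul_assoc]
      _ = y 2 := by rw [h, one_mul]
  have y1 : y 1 = (y 0)⁻¹ := by
    have h := γ_invL 0
    rw [ONP.invL_one_zero] at h
    rw [ys, ys, h, map_inv]
  have sq1 : y 1 * y 1 = 1 := by
    have h := rel [2, 7, 1, 1] (by decide)
    simp only [List.map_cons, List.map_nil, List.prod_cons, List.prod_nil, mul_one] at h
    rw [e7, e5, sq' 2 (by norm_num)] at h
    exact h
  have sq0 : y 0 * y 0 = 1 := by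
    rw [y1, ← mul_inv_rev, inv_eq_one] at sq1
    exact sq1
  have e1 : y 1 = y 0 := by rw [y1]; exact inv_eq_of_mul_eq_one_left sq0
  have sq0' : ∀ r, y 0 * (y 0 * r) = r := by
    intro r
    rw [← mul_assoc, sq0, one_mul]
  have e0 : y 0 = y 2 := by
    have h := rel [3, 4, 5, 0, 3, 4, 5, 0, 3, 4, 5, 0, 3, 4, 5, 0, 3, 4, 5, 0] (by decide)
    simp only [List.map_cons, List.map_nil, List.prod_cons, List.prod_nil, mul_one] at h
    rw [e3, e4, e5] at h
    have e : y 2 * (y 2 * (y 2 * (y 0 * (y 2 * (y 2 * (y 2 * (y 0 * (y 2 * (y 2 * (y 2 * (y 0 *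
        (y 2 * (y 2 * (y 2 * (y 0 * (y 2 * (y 2 * (y 2 * y 0)))))))))))))))))) =
        y 2 * (y 2 * (y 2 * (y 2 * (y 2 * (y 2 * (y 2 * (y 2 * (y 2 * (y 2 * (y 2 * (y 2 * (y 2 *
        (y 2 * (y 0 * (y 0 * (y 0 * (y 0 * (y 2 * y 0)))))))))))))))))) := by ac_rfl
    rw [e] at h
    simp only [sq' 2 (by norm_num), sq0'] at h
    calc y 0 = (y 2 * y 2) * y 0 := by rw [sq 2 (by norm_num), one_mul]
      _ = y 2 * (y 2 * y 0) := by rw [mul_assoc]
      _ = y 2 := by rw [h, mul_one]
  have x1 : y 2 = 1 := by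
    have h := rel [0, 3, 4, 0, 4, 3, 0, 3, 4, 0, 4] (by decide)
    simp only [List.map_cons, List.map_nil, List.prod_cons, List.prod_nil, mul_one] at h
    rw [e3, e4, e0] at h
    simp only [sq' 2 (by norm_num)] at h
    exact h
  apply gens_top
  intro s hs
  rw [← QuotientGroup.eq_one_iff]
  show π (γ s) = 1
  rw [← ys]
  interval_cases s
  · rw [e0, x1]
  · rw [e1, e0, x1]
  · exact x1
  · rw [e3, x1]
  · rw [e4, x1]
  · rw [e5, x1]
  · rw [e6, e5, x1]
  · rw [e7, e5, x1]

/-! ### Simplicity -/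

/-- **Simplicity.** -/
theorem on_simple : IsSimpleGroup G := by
  have hnt : Nontrivial G := by
    rw [← Finite.one_lt_card_iff_nontrivial, on_card]
    decide
  refine { toNontrivial := hnt, eq_bot_or_eq_top_of_normal := fun N hN => ?_ }
  have := hN
  by_cases hNH : N ≤ H
  · left
    by_contra hne
    have hc := H_normal N hNH (fun h _ k hk => hN.conj_mem k hk h) hne (γ 2)
      (gen_mem_H 2 (by norm_num) (by norm_num)) (γ 3) (gen_mem_H 3 (by norm_num) (by norm_num))
    exact abab_moves (normal_le_fix N H hNH hc _)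
  · right
    have hsup : N ⊔ H = ⊤ := by
      rcases maxH (N ⊔ H) le_sup_right with h | h
      · exact absurd (by rw [← h]; exact le_sup_left) hNH
      · exact h
    by_cases hK : N ⊓ H = ⊥
    · exfalso
      have hcard : Nat.card N = 122760 := by
        rw [card_of_regular N H hK hsup, index_eqI hP hC]
        decide +kernel
      haveI : Finite N := Nat.finite_of_card_ne_zero (by rw [hcard]; norm_num)
      exact no_regular hA hO rootL N hK [2, 3, 5, 11, 31] (by decide) (by decide) (by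
        intro p hp
        rw [hcard]
        simp only [List.mem_cons, List.not_mem_nil, or_false] at hp
        rcases hp with rfl | rfl | rfl | rfl | rfl <;> exact ⟨by norm_num, by norm_num⟩)
    · apply perf N hN
      have hc := H_normal (N ⊓ H) inf_le_right (fun h hh k hk =>
        Subgroup.mem_inf.mpr ⟨hN.conj_mem k (Subgroup.mem_inf.mp hk).1 h,
          H.mul_mem (H.mul_mem hh (Subgroup.mem_inf.mp hk).2) (H.inv_mem hh)⟩) hK
      intro a b
      have ha : a ∈ N ⊔ H := by rw [hsup]; exact Subgroup.mem_top a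
      have hb : b ∈ N ⊔ H := by rw [hsup]; exact Subgroup.mem_top b
      obtain ⟨n1, hn1, h1, hh1, rfl⟩ := Subgroup.mem_sup_of_normal_left.mp ha
      obtain ⟨n2, hn2, h2, hh2, rfl⟩ := Subgroup.mem_sup_of_normal_left.mp hb
      rw [← QuotientGroup.eq_one_iff]
      have e1 : (QuotientGroup.mk n1 : G ⧸ N) = 1 := (QuotientGroup.eq_one_iff n1).mpr hn1
      have e2 : (QuotientGroup.mk n2 : G ⧸ N) = 1 := (QuotientGroup.eq_one_iff n2).mpr hn2
      have e3 : (QuotientGroup.mk (h1 * h2 * h1⁻¹ * h2⁻¹) : G ⧸ N) = 1 :=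
        (QuotientGroup.eq_one_iff _).mpr (Subgroup.mem_inf.mp (hc h1 hh1 h2 hh2)).1
      rw [QuotientGroup.mk_mul, QuotientGroup.mk_mul, QuotientGroup.mk_mul, QuotientGroup.mk_inv,
        QuotientGroup.mk_inv] at e3
      rw [QuotientGroup.mk_mul, QuotientGroup.mk_mul, QuotientGroup.mk_mul, QuotientGroup.mk_inv,
        QuotientGroup.mk_inv, QuotientGroup.mk_mul, QuotientGroup.mk_mul, e1, e2, one_mul, one_mul]
      exact e3

end Cfsg.Agent.Lib.Helper39.ONOrd
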