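import Cfsg.Agent.Lib.Helper39.CosetIGroup
import Cfsg.Prelude.Def_Spor_ON

/-!
The presentation of the O'Nan group (generator `g` of order 4, letters `0 = g`, `1 = g⁻¹`,
`2 … 7 = a … f`) and the relator words used by the coset-enumeration certificate (generated).
-/

set_option maxRecDepth 100000
set_option maxHeartbeats 1000000
set_option linter.unusedSimpArgs false
set_option linter.deprecated false
set_option linter.unusedVariables false

namespace Cfsg.Agent.Lib.Helper39.ONP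

open Cfsg.Spor Cfsg.Agent.Lib.Helper38

/-- the relators of the presentation -/
abbrev rels : Set (FreeGroup ON.Gen) :=
  coxRelators ON.edges ∪ {r | r ∈ ON.extra}

/-- the word of the letter `s` -/
def gam : ℕ → FreeGroup ON.Gen
  | 0 => FreeGroup.of .g
  | 1 => (FreeGroup.of .g)⁻¹
  | 2 => FreeGroup.of .a
  | 3 => FreeGroup.of .b
  | 4 => FreeGroup.of .c
  | 5 => FreeGroup.of .d
  | 6 => FreeGroup.of .e
  | _ => FreeGroup.of .f

/-- the letter of a generator -/
def idx : ON.Gen → ℕ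
  | .g => 0
  | .a => 2
  | .b => 3
  | .c => 4
  | .d => 5
  | .e => 6
  | .f => 7

theorem gam_idx (x : ON.Gen) : gam (idx x) = FreeGroup.of x := by cases x <;> rfl

theorem idx_lt (x : ON.Gen) : idx x < 8 := by cases x <;> decide

theorem invL_one_zero : invL 1 0 = 1 := by rw [invL_eq]; rfl

theorem invL_one_one : invL 1 1 = 0 := by rw [invL_eq]; rfl

/-- the relator words -/
def words : List (List ℕ) := [
  (List.replicate 3 [2, 3]).flatten,
  (List.replicate 2 [2, 4]).flatten,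
  (List.replicate 2 [2, 5]).flatten,
  (List.replicate 2 [2, 6]).flatten,
  (List.replicate 2 [2, 7]).flatten,
  (List.replicate 3 [3, 4]).flatten,
  (List.replicate 2 [3, 5]).flatten,
  (List.replicate 2 [3, 6]).flatten,
  (List.replicate 2 [3, 7]).flatten,
  (List.replicate 8 [4, 5]).flatten,
  (List.replicate 2 [4, 6]).flatten,
  (List.replicate 2 [4, 7]).flatten,
  (List.replicate 3 [5, 6]).flatten,
  (List.replicate 2 [5, 7]).flatten,
  (List.replicate 3 [6, 7]).flatten,
  [2, 7, 1, 1],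
  [2, 7, 5, 4, 5, 4, 5, 4, 5, 4],
  [4, 1, 5, 1, 5, 4, 5, 0, 5, 0],
  [5, 1, 4, 1, 4, 5, 4, 0, 4, 0],
  [3, 4, 5, 0, 3, 4, 5, 0, 3, 4, 5, 0, 3, 4, 5, 0, 3, 4, 5, 0],
  [0, 3, 4, 0, 4, 3, 0, 3, 4, 0, 4],
  [0, 6, 5, 0, 5, 6, 0, 6, 5, 0, 5]]

theorem label_ab : coxLabel ON.edges .a .b = 3 := by decide
theorem label_ac : coxLabel ON.edges .a .c = 2 := by decide
theorem label_ad : coxLabel ON.edges .a .d = 2 := by decide
theorem label_ae : coxLabel ON.edges .a .e = 2 := by decide
theorem label_af : coxLabel ON.edges .a .f = 2 := by decide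
theorem label_ba : coxLabel ON.edges .b .a = 3 := by decide
theorem label_bc : coxLabel ON.edges .b .c = 3 := by decide
theorem label_bd : coxLabel ON.edges .b .d = 2 := by decide
theorem label_be : coxLabel ON.edges .b .e = 2 := by decide
theorem label_bf : coxLabel ON.edges .b .f = 2 := by decide
theorem label_ca : coxLabel ON.edges .c .a = 2 := by decide
theorem label_cb : coxLabel ON.edges .c .b = 3 := by decide
theorem label_cd : coxLabel ON.edges .c .d = 8 := by decide
theorem label_ce : coxLabel ON.edges .c .e = 2 := by decide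
theorem label_cf : coxLabel ON.edges .c .f = 2 := by decide
theorem label_da : coxLabel ON.edges .d .a = 2 := by decide
theorem label_db : coxLabel ON.edges .d .b = 2 := by decide
theorem label_dc : coxLabel ON.edges .d .c = 8 := by decide
theorem label_de : coxLabel ON.edges .d .e = 3 := by decide
theorem label_df : coxLabel ON.edges .d .f = 2 := by decide
theorem label_ea : coxLabel ON.edges .e .a = 2 := by decide
theorem label_eb : coxLabel ON.edges .e .b = 2 := by decide
theorem label_ec : coxLabel ON.edges .e .c = 2 := by decide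
theorem label_ed : coxLabel ON.edges .e .d = 3 := by decide
theorem label_ef : coxLabel ON.edges .e .f = 3 := by decide
theorem label_fa : coxLabel ON.edges .f .a = 2 := by decide
theorem label_fb : coxLabel ON.edges .f .b = 2 := by decide
theorem label_fc : coxLabel ON.edges .f .c = 2 := by decide
theorem label_fd : coxLabel ON.edges .f .d = 2 := by decide
theorem label_fe : coxLabel ON.edges .f .e = 3 := by decide

theorem node_a : ON.Gen.a ∈ coxNodes ON.edges := by decide
theorem node_b : ON.Gen.b ∈ coxNodes ON.edges := by decide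
theorem node_c : ON.Gen.c ∈ coxNodes ON.edges := by decide
theorem node_d : ON.Gen.d ∈ coxNodes ON.edges := by decide
theorem node_e : ON.Gen.e ∈ coxNodes ON.edges := by decide
theorem node_f : ON.Gen.f ∈ coxNodes ON.edges := by decide

theorem rep_word {K : Type*} [Group K] (σ : ℕ → K) (w : List ℕ) : ∀ m : ℕ,
    (((List.replicate m w).flatten).map σ).prod = ((w.map σ).prod) ^ m
  | 0 => by simp
  | m + 1 => by
    rw [List.replicate_succ, List.flatten_cons, List.map_append, List.prod_append,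
      rep_word σ w m, pow_succ']

section

variable {K : Type*} [Group K]

theorem invol (f : ON.Gen → K) (hf : ∀ r ∈ rels, FreeGroup.lift f r = 1) (x : ON.Gen)
    (hx : x ∈ coxNodes ON.edges) : f x * f x = 1 := by
  have h := hf _ (Or.inl ⟨x, hx, x, hx, rfl⟩)
  simpa [coxLabel] using h

theorem word_one_0 (f : ON.Gen → K) (hf : ∀ r ∈ rels, FreeGroup.lift f r = 1) :
    (((List.replicate 3 [2, 3]).flatten).map (fun s => FreeGroup.lift f (gam s))).prod = 1 := by
  have h := hf _ (Or.inl ⟨.a, node_a, .b, node_b, rfl⟩)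
  rw [label_ab] at h
  rw [rep_word]
  simp only [List.map_cons, List.map_nil, List.prod_cons, List.prod_nil, mul_one, gam, FreeGroup.lift_apply_of]
  simpa only [map_pow, map_mul, FreeGroup.lift_apply_of] using h

theorem word_one_1 (f : ON.Gen → K) (hf : ∀ r ∈ rels, FreeGroup.lift f r = 1) :
    (((List.replicate 2 [2, 4]).flatten).map (fun s => FreeGroup.lift f (gam s))).prod = 1 := by
  have h := hf _ (Or.inl ⟨.a, node_a, .c, node_c, rfl⟩)
  rw [label_ac] at h
  rw [rep_word]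
  simp only [List.map_cons, List.map_nil, List.prod_cons, List.prod_nil, mul_one, gam, FreeGroup.lift_apply_of]
  simpa only [map_pow, map_mul, FreeGroup.lift_apply_of] using h

theorem word_one_2 (f : ON.Gen → K) (hf : ∀ r ∈ rels, FreeGroup.lift f r = 1) :
    (((List.replicate 2 [2, 5]).flatten).map (fun s => FreeGroup.lift f (gam s))).prod = 1 := by
  have h := hf _ (Or.inl ⟨.a, node_a, .d, node_d, rfl⟩)
  rw [label_ad] at h
  rw [rep_word]
  simp only [List.map_cons, List.map_nil, List.prod_cons, List.prod_nil, mul_one, gam, FreeGroup.lift_apply_of]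
  simpa only [map_pow, map_mul, FreeGroup.lift_apply_of] using h

theorem word_one_3 (f : ON.Gen → K) (hf : ∀ r ∈ rels, FreeGroup.lift f r = 1) :
    (((List.replicate 2 [2, 6]).flatten).map (fun s => FreeGroup.lift f (gam s))).prod = 1 := by
  have h := hf _ (Or.inl ⟨.a, node_a, .e, node_e, rfl⟩)
  rw [label_ae] at h
  rw [rep_word]
  simp only [List.map_cons, List.map_nil, List.prod_cons, List.prod_nil, mul_one, gam, FreeGroup.lift_apply_of]
  simpa only [map_pow, map_mul, FreeGroup.lift_apply_of] using h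

theorem word_one_4 (f : ON.Gen → K) (hf : ∀ r ∈ rels, FreeGroup.lift f r = 1) :
    (((List.replicate 2 [2, 7]).flatten).map (fun s => FreeGroup.lift f (gam s))).prod = 1 := by
  have h := hf _ (Or.inl ⟨.a, node_a, .f, node_f, rfl⟩)
  rw [label_af] at h
  rw [rep_word]
  simp only [List.map_cons, List.map_nil, List.prod_cons, List.prod_nil, mul_one, gam, FreeGroup.lift_apply_of]
  simpa only [map_pow, map_mul, FreeGroup.lift_apply_of] using h

theorem word_one_5 (f : ON.Gen → K) (hf : ∀ r ∈ rels, FreeGroup.lift f r = 1) :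
    (((List.replicate 3 [3, 4]).flatten).map (fun s => FreeGroup.lift f (gam s))).prod = 1 := by
  have h := hf _ (Or.inl ⟨.b, node_b, .c, node_c, rfl⟩)
  rw [label_bc] at h
  rw [rep_word]
  simp only [List.map_cons, List.map_nil, List.prod_cons, List.prod_nil, mul_one, gam, FreeGroup.lift_apply_of]
  simpa only [map_pow, map_mul, FreeGroup.lift_apply_of] using h

theorem word_one_6 (f : ON.Gen → K) (hf : ∀ r ∈ rels, FreeGroup.lift f r = 1) :
    (((List.replicate 2 [3, 5]).flatten).map (fun s => FreeGroup.lift f (gam s))).prod = 1 := by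
  have h := hf _ (Or.inl ⟨.b, node_b, .d, node_d, rfl⟩)
  rw [label_bd] at h
  rw [rep_word]
  simp only [List.map_cons, List.map_nil, List.prod_cons, List.prod_nil, mul_one, gam, FreeGroup.lift_apply_of]
  simpa only [map_pow, map_mul, FreeGroup.lift_apply_of] using h

theorem word_one_7 (f : ON.Gen → K) (hf : ∀ r ∈ rels, FreeGroup.lift f r = 1) :
    (((List.replicate 2 [3, 6]).flatten).map (fun s => FreeGroup.lift f (gam s))).prod = 1 := by
  have h := hf _ (Or.inl ⟨.b, node_b, .e, node_e, rfl⟩)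
  rw [label_be] at h
  rw [rep_word]
  simp only [List.map_cons, List.map_nil, List.prod_cons, List.prod_nil, mul_one, gam, FreeGroup.lift_apply_of]
  simpa only [map_pow, map_mul, FreeGroup.lift_apply_of] using h

theorem word_one_8 (f : ON.Gen → K) (hf : ∀ r ∈ rels, FreeGroup.lift f r = 1) :
    (((List.replicate 2 [3, 7]).flatten).map (fun s => FreeGroup.lift f (gam s))).prod = 1 := by
  have h := hf _ (Or.inl ⟨.b, node_b, .f, node_f, rfl⟩)
  rw [label_bf] at h
  rw [rep_word]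
  simp only [List.map_cons, List.map_nil, List.prod_cons, List.prod_nil, mul_one, gam, FreeGroup.lift_apply_of]
  simpa only [map_pow, map_mul, FreeGroup.lift_apply_of] using h

theorem word_one_9 (f : ON.Gen → K) (hf : ∀ r ∈ rels, FreeGroup.lift f r = 1) :
    (((List.replicate 8 [4, 5]).flatten).map (fun s => FreeGroup.lift f (gam s))).prod = 1 := by
  have h := hf _ (Or.inl ⟨.c, node_c, .d, node_d, rfl⟩)
  rw [label_cd] at h
  rw [rep_word]
  simp only [List.map_cons, List.map_nil, List.prod_cons, List.prod_nil, mul_one, gam, FreeGroup.lift_apply_of]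
  simpa only [map_pow, map_mul, FreeGroup.lift_apply_of] using h

theorem word_one_10 (f : ON.Gen → K) (hf : ∀ r ∈ rels, FreeGroup.lift f r = 1) :
    (((List.replicate 2 [4, 6]).flatten).map (fun s => FreeGroup.lift f (gam s))).prod = 1 := by
  have h := hf _ (Or.inl ⟨.c, node_c, .e, node_e, rfl⟩)
  rw [label_ce] at h
  rw [rep_word]
  simp only [List.map_cons, List.map_nil, List.prod_cons, List.prod_nil, mul_one, gam, FreeGroup.lift_apply_of]
  simpa only [map_pow, map_mul, FreeGroup.lift_apply_of] using h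

theorem word_one_11 (f : ON.Gen → K) (hf : ∀ r ∈ rels, FreeGroup.lift f r = 1) :
    (((List.replicate 2 [4, 7]).flatten).map (fun s => FreeGroup.lift f (gam s))).prod = 1 := by
  have h := hf _ (Or.inl ⟨.c, node_c, .f, node_f, rfl⟩)
  rw [label_cf] at h
  rw [rep_word]
  simp only [List.map_cons, List.map_nil, List.prod_cons, List.prod_nil, mul_one, gam, FreeGroup.lift_apply_of]
  simpa only [map_pow, map_mul, FreeGroup.lift_apply_of] using h

theorem word_one_12 (f : ON.Gen → K) (hf : ∀ r ∈ rels, FreeGroup.lift f r = 1) :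
    (((List.replicate 3 [5, 6]).flatten).map (fun s => FreeGroup.lift f (gam s))).prod = 1 := by
  have h := hf _ (Or.inl ⟨.d, node_d, .e, node_e, rfl⟩)
  rw [label_de] at h
  rw [rep_word]
  simp only [List.map_cons, List.map_nil, List.prod_cons, List.prod_nil, mul_one, gam, FreeGroup.lift_apply_of]
  simpa only [map_pow, map_mul, FreeGroup.lift_apply_of] using h

theorem word_one_13 (f : ON.Gen → K) (hf : ∀ r ∈ rels, FreeGroup.lift f r = 1) :
    (((List.replicate 2 [5, 7]).flatten).map (fun s => FreeGroup.lift f (gam s))).prod = 1 := by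
  have h := hf _ (Or.inl ⟨.d, node_d, .f, node_f, rfl⟩)
  rw [label_df] at h
  rw [rep_word]
  simp only [List.map_cons, List.map_nil, List.prod_cons, List.prod_nil, mul_one, gam, FreeGroup.lift_apply_of]
  simpa only [map_pow, map_mul, FreeGroup.lift_apply_of] using h

theorem word_one_14 (f : ON.Gen → K) (hf : ∀ r ∈ rels, FreeGroup.lift f r = 1) :
    (((List.replicate 3 [6, 7]).flatten).map (fun s => FreeGroup.lift f (gam s))).prod = 1 := by
  have h := hf _ (Or.inl ⟨.e, node_e, .f, node_f, rfl⟩)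
  rw [label_ef] at h
  rw [rep_word]
  simp only [List.map_cons, List.map_nil, List.prod_cons, List.prod_nil, mul_one, gam, FreeGroup.lift_apply_of]
  simpa only [map_pow, map_mul, FreeGroup.lift_apply_of] using h

theorem word_one_15 (f : ON.Gen → K) (hf : ∀ r ∈ rels, FreeGroup.lift f r = 1) :
    (([2, 7, 1, 1] : List ℕ).map (fun s => FreeGroup.lift f (gam s))).prod = 1 := by
  have h := hf _ (Or.inr (show _ ∈ ON.extra from List.Mem.head _))
  have iv_a : (f .a)⁻¹ = f .a := inv_eq_of_mul_eq_one_left (invol f hf _ node_a)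
  have iv_b : (f .b)⁻¹ = f .b := inv_eq_of_mul_eq_one_left (invol f hf _ node_b)
  have iv_c : (f .c)⁻¹ = f .c := inv_eq_of_mul_eq_one_left (invol f hf _ node_c)
  have iv_d : (f .d)⁻¹ = f .d := inv_eq_of_mul_eq_one_left (invol f hf _ node_d)
  have iv_e : (f .e)⁻¹ = f .e := inv_eq_of_mul_eq_one_left (invol f hf _ node_e)
  have iv_f : (f .f)⁻¹ = f .f := inv_eq_of_mul_eq_one_left (invol f hf _ node_f)
  simp only [List.map_cons, List.map_nil, List.prod_cons, List.prod_nil, mul_one, gam, map_inv, FreeGroup.lift_apply_of]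
  simp only [map_mul, map_inv, map_pow, FreeGroup.lift_apply_of, pow_succ, pow_zero, one_mul, mul_inv_rev, inv_inv,
    mul_assoc, iv_a, iv_b, iv_c, iv_d, iv_e, iv_f] at h ⊢
  exact h

theorem word_one_16 (f : ON.Gen → K) (hf : ∀ r ∈ rels, FreeGroup.lift f r = 1) :
    (([2, 7, 5, 4, 5, 4, 5, 4, 5, 4] : List ℕ).map (fun s => FreeGroup.lift f (gam s))).prod = 1 := by
  have h := hf _ (Or.inr (show _ ∈ ON.extra from List.Mem.tail _ (List.Mem.head _)))
  have iv_a : (f .a)⁻¹ = f .a := inv_eq_of_mul_eq_one_left (invol f hf _ node_a)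
  have iv_b : (f .b)⁻¹ = f .b := inv_eq_of_mul_eq_one_left (invol f hf _ node_b)
  have iv_c : (f .c)⁻¹ = f .c := inv_eq_of_mul_eq_one_left (invol f hf _ node_c)
  have iv_d : (f .d)⁻¹ = f .d := inv_eq_of_mul_eq_one_left (invol f hf _ node_d)
  have iv_e : (f .e)⁻¹ = f .e := inv_eq_of_mul_eq_one_left (invol f hf _ node_e)
  have iv_f : (f .f)⁻¹ = f .f := inv_eq_of_mul_eq_one_left (invol f hf _ node_f)
  simp only [List.map_cons, List.map_nil, List.prod_cons, List.prod_nil, mul_one, gam, map_inv, FreeGroup.lift_apply_of]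
  simp only [map_mul, map_inv, map_pow, FreeGroup.lift_apply_of, pow_succ, pow_zero, one_mul, mul_inv_rev, inv_inv,
    mul_assoc, iv_a, iv_b, iv_c, iv_d, iv_e, iv_f] at h ⊢
  exact h

theorem word_one_17 (f : ON.Gen → K) (hf : ∀ r ∈ rels, FreeGroup.lift f r = 1) :
    (([4, 1, 5, 1, 5, 4, 5, 0, 5, 0] : List ℕ).map (fun s => FreeGroup.lift f (gam s))).prod = 1 := by
  have h := hf _ (Or.inr (show _ ∈ ON.extra from List.Mem.tail _ (List.Mem.tail _ (List.Mem.head _))))
  have iv_a : (f .a)⁻¹ = f .a := inv_eq_of_mul_eq_one_left (invol f hf _ node_a)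
  have iv_b : (f .b)⁻¹ = f .b := inv_eq_of_mul_eq_one_left (invol f hf _ node_b)
  have iv_c : (f .c)⁻¹ = f .c := inv_eq_of_mul_eq_one_left (invol f hf _ node_c)
  have iv_d : (f .d)⁻¹ = f .d := inv_eq_of_mul_eq_one_left (invol f hf _ node_d)
  have iv_e : (f .e)⁻¹ = f .e := inv_eq_of_mul_eq_one_left (invol f hf _ node_e)
  have iv_f : (f .f)⁻¹ = f .f := inv_eq_of_mul_eq_one_left (invol f hf _ node_f)
  simp only [List.map_cons, List.map_nil, List.prod_cons, List.prod_nil, mul_one, gam, map_inv, FreeGroup.lift_apply_of]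
  simp only [map_mul, map_inv, map_pow, FreeGroup.lift_apply_of, pow_succ, pow_zero, one_mul, mul_inv_rev, inv_inv,
    mul_assoc, iv_a, iv_b, iv_c, iv_d, iv_e, iv_f] at h ⊢
  exact h

theorem word_one_18 (f : ON.Gen → K) (hf : ∀ r ∈ rels, FreeGroup.lift f r = 1) :
    (([5, 1, 4, 1, 4, 5, 4, 0, 4, 0] : List ℕ).map (fun s => FreeGroup.lift f (gam s))).prod = 1 := by
  have h := hf _ (Or.inr (show _ ∈ ON.extra from List.Mem.tail _ (List.Mem.tail _ (List.Mem.tail _ (List.Mem.head _)))))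
  have iv_a : (f .a)⁻¹ = f .a := inv_eq_of_mul_eq_one_left (invol f hf _ node_a)
  have iv_b : (f .b)⁻¹ = f .b := inv_eq_of_mul_eq_one_left (invol f hf _ node_b)
  have iv_c : (f .c)⁻¹ = f .c := inv_eq_of_mul_eq_one_left (invol f hf _ node_c)
  have iv_d : (f .d)⁻¹ = f .d := inv_eq_of_mul_eq_one_left (invol f hf _ node_d)
  have iv_e : (f .e)⁻¹ = f .e := inv_eq_of_mul_eq_one_left (invol f hf _ node_e)
  have iv_f : (f .f)⁻¹ = f .f := inv_eq_of_mul_eq_one_left (invol f hf _ node_f)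
  simp only [List.map_cons, List.map_nil, List.prod_cons, List.prod_nil, mul_one, gam, map_inv, FreeGroup.lift_apply_of]
  simp only [map_mul, map_inv, map_pow, FreeGroup.lift_apply_of, pow_succ, pow_zero, one_mul, mul_inv_rev, inv_inv,
    mul_assoc, iv_a, iv_b, iv_c, iv_d, iv_e, iv_f] at h ⊢
  exact h

theorem word_one_19 (f : ON.Gen → K) (hf : ∀ r ∈ rels, FreeGroup.lift f r = 1) :
    (([3, 4, 5, 0, 3, 4, 5, 0, 3, 4, 5, 0, 3, 4, 5, 0, 3, 4, 5, 0] : List ℕ).map (fun s => FreeGroup.lift f (gam s))).prod = 1 := by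
  have h := hf _ (Or.inr (show _ ∈ ON.extra from List.Mem.tail _ (List.Mem.tail _ (List.Mem.tail _ (List.Mem.tail _ (List.Mem.head _))))))
  have iv_a : (f .a)⁻¹ = f .a := inv_eq_of_mul_eq_one_left (invol f hf _ node_a)
  have iv_b : (f .b)⁻¹ = f .b := inv_eq_of_mul_eq_one_left (invol f hf _ node_b)
  have iv_c : (f .c)⁻¹ = f .c := inv_eq_of_mul_eq_one_left (invol f hf _ node_c)
  have iv_d : (f .d)⁻¹ = f .d := inv_eq_of_mul_eq_one_left (invol f hf _ node_d)
  have iv_e : (f .e)⁻¹ = f .e := inv_eq_of_mul_eq_one_left (invol f hf _ node_e)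
  have iv_f : (f .f)⁻¹ = f .f := inv_eq_of_mul_eq_one_left (invol f hf _ node_f)
  simp only [List.map_cons, List.map_nil, List.prod_cons, List.prod_nil, mul_one, gam, map_inv, FreeGroup.lift_apply_of]
  simp only [map_mul, map_inv, map_pow, FreeGroup.lift_apply_of, pow_succ, pow_zero, one_mul, mul_inv_rev, inv_inv,
    mul_assoc, iv_a, iv_b, iv_c, iv_d, iv_e, iv_f] at h ⊢
  exact h

theorem word_one_20 (f : ON.Gen → K) (hf : ∀ r ∈ rels, FreeGroup.lift f r = 1) :
    (([0, 3, 4, 0, 4, 3, 0, 3, 4, 0, 4] : List ℕ).map (fun s => FreeGroup.lift f (gam s))).prod = 1 := by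
  have h := hf _ (Or.inr (show _ ∈ ON.extra from List.Mem.tail _ (List.Mem.tail _ (List.Mem.tail _ (List.Mem.tail _ (List.Mem.tail _ (List.Mem.head _)))))))
  have iv_a : (f .a)⁻¹ = f .a := inv_eq_of_mul_eq_one_left (invol f hf _ node_a)
  have iv_b : (f .b)⁻¹ = f .b := inv_eq_of_mul_eq_one_left (invol f hf _ node_b)
  have iv_c : (f .c)⁻¹ = f .c := inv_eq_of_mul_eq_one_left (invol f hf _ node_c)
  have iv_d : (f .d)⁻¹ = f .d := inv_eq_of_mul_eq_one_left (invol f hf _ node_d)
  have iv_e : (f .e)⁻¹ = f .e := inv_eq_of_mul_eq_one_left (invol f hf _ node_e)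
  have iv_f : (f .f)⁻¹ = f .f := inv_eq_of_mul_eq_one_left (invol f hf _ node_f)
  simp only [List.map_cons, List.map_nil, List.prod_cons, List.prod_nil, mul_one, gam, map_inv, FreeGroup.lift_apply_of]
  simp only [map_mul, map_inv, map_pow, FreeGroup.lift_apply_of, pow_succ, pow_zero, one_mul, mul_inv_rev, inv_inv,
    mul_assoc, iv_a, iv_b, iv_c, iv_d, iv_e, iv_f] at h ⊢
  exact h

theorem word_one_21 (f : ON.Gen → K) (hf : ∀ r ∈ rels, FreeGroup.lift f r = 1) :
    (([0, 6, 5, 0, 5, 6, 0, 6, 5, 0, 5] : List ℕ).map (fun s => FreeGroup.lift f (gam s))).prod = 1 := by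
  have h := hf _ (Or.inr (show _ ∈ ON.extra from List.Mem.tail _ (List.Mem.tail _ (List.Mem.tail _ (List.Mem.tail _ (List.Mem.tail _ (List.Mem.tail _ (List.Mem.head _))))))))
  have iv_a : (f .a)⁻¹ = f .a := inv_eq_of_mul_eq_one_left (invol f hf _ node_a)
  have iv_b : (f .b)⁻¹ = f .b := inv_eq_of_mul_eq_one_left (invol f hf _ node_b)
  have iv_c : (f .c)⁻¹ = f .c := inv_eq_of_mul_eq_one_left (invol f hf _ node_c)
  have iv_d : (f .d)⁻¹ = f .d := inv_eq_of_mul_eq_one_left (invol f hf _ node_d)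
  have iv_e : (f .e)⁻¹ = f .e := inv_eq_of_mul_eq_one_left (invol f hf _ node_e)
  have iv_f : (f .f)⁻¹ = f .f := inv_eq_of_mul_eq_one_left (invol f hf _ node_f)
  simp only [List.map_cons, List.map_nil, List.prod_cons, List.prod_nil, mul_one, gam, map_inv, FreeGroup.lift_apply_of]
  simp only [map_mul, map_inv, map_pow, FreeGroup.lift_apply_of, pow_succ, pow_zero, one_mul, mul_inv_rev, inv_inv,
    mul_assoc, iv_a, iv_b, iv_c, iv_d, iv_e, iv_f] at h ⊢
  exact h

theorem words_one (f : ON.Gen → K) (hf : ∀ r ∈ rels, FreeGroup.lift f r = 1) :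
    ∀ w ∈ words, (w.map (fun s => FreeGroup.lift f (gam s))).prod = 1 := by
  intro w hw
  simp only [words, List.mem_cons, List.not_mem_nil, or_false] at hw
  rcases hw with rfl | rfl | rfl | rfl | rfl | rfl | rfl | rfl | rfl | rfl | rfl | rfl | rfl | rfl | rfl | rfl | rfl | rfl | rfl | rfl | rfl | rfl
  · exact word_one_0 f hf
  · exact word_one_1 f hf
  · exact word_one_2 f hf
  · exact word_one_3 f hf
  · exact word_one_4 f hf
  · exact word_one_5 f hf
  · exact word_one_6 f hf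
  · exact word_one_7 f hf
  · exact word_one_8 f hf
  · exact word_one_9 f hf
  · exact word_one_10 f hf
  · exact word_one_11 f hf
  · exact word_one_12 f hf
  · exact word_one_13 f hf
  · exact word_one_14 f hf
  · exact word_one_15 f hf
  · exact word_one_16 f hf
  · exact word_one_17 f hf
  · exact word_one_18 f hf
  · exact word_one_19 f hf
  · exact word_one_20 f hf
  · exact word_one_21 f hf

theorem cox_case (σ : ℕ → K) (i j m : ℕ) (hi : σ i * σ i = 1) (hj : σ j * σ j = 1)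
    (h : (((List.replicate m [i, j]).flatten).map σ).prod = 1) :
    (σ i * σ j) ^ m = 1 ∧ (σ j * σ i) ^ m = 1 := by
  rw [pair_word] at h
  exact ⟨h, pair_swap hi hj h⟩

theorem sq_of (σ : ℕ → K) (hσ : ∀ s, σ (invL 1 s) * σ s = 1)
    (hw : ∀ w ∈ words, (w.map σ).prod = 1) (s : ℕ) (hs : 2 ≤ s) : σ s * σ s = 1 := by
  have h := hσ s
  rwa [invL_of_ge (by omega)] at h

theorem lift_cox_aa (σ : ℕ → K) (hσ : ∀ s, σ (invL 1 s) * σ s = 1)
    (hw : ∀ w ∈ words, (w.map σ).prod = 1) :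
    FreeGroup.lift (fun x => σ (idx x)) ((FreeGroup.of (ON.Gen.a) * FreeGroup.of (ON.Gen.a)) ^ coxLabel ON.edges .a .a) = 1 := by
  simpa [coxLabel, idx] using sq_of σ hσ hw 2 (by norm_num)

theorem lift_cox_ab (σ : ℕ → K) (hσ : ∀ s, σ (invL 1 s) * σ s = 1)
    (hw : ∀ w ∈ words, (w.map σ).prod = 1) :
    FreeGroup.lift (fun x => σ (idx x)) ((FreeGroup.of (ON.Gen.a) * FreeGroup.of (ON.Gen.b)) ^ coxLabel ON.edges .a .b) = 1 := by
  rw [label_ab]
  simpa only [map_pow, map_mul, FreeGroup.lift_apply_of, idx] using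
    (cox_case σ 2 3 3 (sq_of σ hσ hw _ (by norm_num)) (sq_of σ hσ hw _ (by norm_num))
      (hw _ (List.Mem.head _))).1

theorem lift_cox_ac (σ : ℕ → K) (hσ : ∀ s, σ (invL 1 s) * σ s = 1)
    (hw : ∀ w ∈ words, (w.map σ).prod = 1) :
    FreeGroup.lift (fun x => σ (idx x)) ((FreeGroup.of (ON.Gen.a) * FreeGroup.of (ON.Gen.c)) ^ coxLabel ON.edges .a .c) = 1 := by
  rw [label_ac]
  simpa only [map_pow, map_mul, FreeGroup.lift_apply_of, idx] using
    (cox_case σ 2 4 2 (sq_of σ hσ hw _ (by norm_num)) (sq_of σ hσ hw _ (by norm_num))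
      (hw _ (List.Mem.tail _ (List.Mem.head _)))).1

theorem lift_cox_ad (σ : ℕ → K) (hσ : ∀ s, σ (invL 1 s) * σ s = 1)
    (hw : ∀ w ∈ words, (w.map σ).prod = 1) :
    FreeGroup.lift (fun x => σ (idx x)) ((FreeGroup.of (ON.Gen.a) * FreeGroup.of (ON.Gen.d)) ^ coxLabel ON.edges .a .d) = 1 := by
  rw [label_ad]
  simpa only [map_pow, map_mul, FreeGroup.lift_apply_of, idx] using
    (cox_case σ 2 5 2 (sq_of σ hσ hw _ (by norm_num)) (sq_of σ hσ hw _ (by norm_num))
      (hw _ (List.Mem.tail _ (List.Mem.tail _ (List.Mem.head _))))).1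

theorem lift_cox_ae (σ : ℕ → K) (hσ : ∀ s, σ (invL 1 s) * σ s = 1)
    (hw : ∀ w ∈ words, (w.map σ).prod = 1) :
    FreeGroup.lift (fun x => σ (idx x)) ((FreeGroup.of (ON.Gen.a) * FreeGroup.of (ON.Gen.e)) ^ coxLabel ON.edges .a .e) = 1 := by
  rw [label_ae]
  simpa only [map_pow, map_mul, FreeGroup.lift_apply_of, idx] using
    (cox_case σ 2 6 2 (sq_of σ hσ hw _ (by norm_num)) (sq_of σ hσ hw _ (by norm_num))
      (hw _ (List.Mem.tail _ (List.Mem.tail _ (List.Mem.tail _ (List.Mem.head _)))))).1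

theorem lift_cox_af (σ : ℕ → K) (hσ : ∀ s, σ (invL 1 s) * σ s = 1)
    (hw : ∀ w ∈ words, (w.map σ).prod = 1) :
    FreeGroup.lift (fun x => σ (idx x)) ((FreeGroup.of (ON.Gen.a) * FreeGroup.of (ON.Gen.f)) ^ coxLabel ON.edges .a .f) = 1 := by
  rw [label_af]
  simpa only [map_pow, map_mul, FreeGroup.lift_apply_of, idx] using
    (cox_case σ 2 7 2 (sq_of σ hσ hw _ (by norm_num)) (sq_of σ hσ hw _ (by norm_num))
      (hw _ (List.Mem.tail _ (List.Mem.tail _ (List.Mem.tail _ (List.Mem.tail _ (List.Mem.head _))))))).1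

theorem lift_cox_ba (σ : ℕ → K) (hσ : ∀ s, σ (invL 1 s) * σ s = 1)
    (hw : ∀ w ∈ words, (w.map σ).prod = 1) :
    FreeGroup.lift (fun x => σ (idx x)) ((FreeGroup.of (ON.Gen.b) * FreeGroup.of (ON.Gen.a)) ^ coxLabel ON.edges .b .a) = 1 := by
  rw [label_ba]
  simpa only [map_pow, map_mul, FreeGroup.lift_apply_of, idx] using
    (cox_case σ 2 3 3 (sq_of σ hσ hw _ (by norm_num)) (sq_of σ hσ hw _ (by norm_num))
      (hw _ (List.Mem.head _))).2

theorem lift_cox_bb (σ : ℕ → K) (hσ : ∀ s, σ (invL 1 s) * σ s = 1)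
    (hw : ∀ w ∈ words, (w.map σ).prod = 1) :
    FreeGroup.lift (fun x => σ (idx x)) ((FreeGroup.of (ON.Gen.b) * FreeGroup.of (ON.Gen.b)) ^ coxLabel ON.edges .b .b) = 1 := by
  simpa [coxLabel, idx] using sq_of σ hσ hw 3 (by norm_num)

theorem lift_cox_bc (σ : ℕ → K) (hσ : ∀ s, σ (invL 1 s) * σ s = 1)
    (hw : ∀ w ∈ words, (w.map σ).prod = 1) :
    FreeGroup.lift (fun x => σ (idx x)) ((FreeGroup.of (ON.Gen.b) * FreeGroup.of (ON.Gen.c)) ^ coxLabel ON.edges .b .c) = 1 := by
  rw [label_bc]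
  simpa only [map_pow, map_mul, FreeGroup.lift_apply_of, idx] using
    (cox_case σ 3 4 3 (sq_of σ hσ hw _ (by norm_num)) (sq_of σ hσ hw _ (by norm_num))
      (hw _ (List.Mem.tail _ (List.Mem.tail _ (List.Mem.tail _ (List.Mem.tail _ (List.Mem.tail _ (List.Mem.head _)))))))).1

theorem lift_cox_bd (σ : ℕ → K) (hσ : ∀ s, σ (invL 1 s) * σ s = 1)
    (hw : ∀ w ∈ words, (w.map σ).prod = 1) :
    FreeGroup.lift (fun x => σ (idx x)) ((FreeGroup.of (ON.Gen.b) * FreeGroup.of (ON.Gen.d)) ^ coxLabel ON.edges .b .d) = 1 := by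
  rw [label_bd]
  simpa only [map_pow, map_mul, FreeGroup.lift_apply_of, idx] using
    (cox_case σ 3 5 2 (sq_of σ hσ hw _ (by norm_num)) (sq_of σ hσ hw _ (by norm_num))
      (hw _ (List.Mem.tail _ (List.Mem.tail _ (List.Mem.tail _ (List.Mem.tail _ (List.Mem.tail _ (List.Mem.tail _ (List.Mem.head _))))))))).1

theorem lift_cox_be (σ : ℕ → K) (hσ : ∀ s, σ (invL 1 s) * σ s = 1)
    (hw : ∀ w ∈ words, (w.map σ).prod = 1) :
    FreeGroup.lift (fun x => σ (idx x)) ((FreeGroup.of (ON.Gen.b) * FreeGroup.of (ON.Gen.e)) ^ coxLabel ON.edges .b .e) = 1 := by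
  rw [label_be]
  simpa only [map_pow, map_mul, FreeGroup.lift_apply_of, idx] using
    (cox_case σ 3 6 2 (sq_of σ hσ hw _ (by norm_num)) (sq_of σ hσ hw _ (by norm_num))
      (hw _ (List.Mem.tail _ (List.Mem.tail _ (List.Mem.tail _ (List.Mem.tail _ (List.Mem.tail _ (List.Mem.tail _ (List.Mem.tail _ (List.Mem.head _)))))))))).1

theorem lift_cox_bf (σ : ℕ → K) (hσ : ∀ s, σ (invL 1 s) * σ s = 1)
    (hw : ∀ w ∈ words, (w.map σ).prod = 1) :
    FreeGroup.lift (fun x => σ (idx x)) ((FreeGroup.of (ON.Gen.b) * FreeGroup.of (ON.Gen.f)) ^ coxLabel ON.edges .b .f) = 1 := by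
  rw [label_bf]
  simpa only [map_pow, map_mul, FreeGroup.lift_apply_of, idx] using
    (cox_case σ 3 7 2 (sq_of σ hσ hw _ (by norm_num)) (sq_of σ hσ hw _ (by norm_num))
      (hw _ (List.Mem.tail _ (List.Mem.tail _ (List.Mem.tail _ (List.Mem.tail _ (List.Mem.tail _ (List.Mem.tail _ (List.Mem.tail _ (List.Mem.tail _ (List.Mem.head _))))))))))).1

theorem lift_cox_ca (σ : ℕ → K) (hσ : ∀ s, σ (invL 1 s) * σ s = 1)
    (hw : ∀ w ∈ words, (w.map σ).prod = 1) :
    FreeGroup.lift (fun x => σ (idx x)) ((FreeGroup.of (ON.Gen.c) * FreeGroup.of (ON.Gen.a)) ^ coxLabel ON.edges .c .a) = 1 := by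
  rw [label_ca]
  simpa only [map_pow, map_mul, FreeGroup.lift_apply_of, idx] using
    (cox_case σ 2 4 2 (sq_of σ hσ hw _ (by norm_num)) (sq_of σ hσ hw _ (by norm_num))
      (hw _ (List.Mem.tail _ (List.Mem.head _)))).2

theorem lift_cox_cb (σ : ℕ → K) (hσ : ∀ s, σ (invL 1 s) * σ s = 1)
    (hw : ∀ w ∈ words, (w.map σ).prod = 1) :
    FreeGroup.lift (fun x => σ (idx x)) ((FreeGroup.of (ON.Gen.c) * FreeGroup.of (ON.Gen.b)) ^ coxLabel ON.edges .c .b) = 1 := by
  rw [label_cb]
  simpa only [map_pow, map_mul, FreeGroup.lift_apply_of, idx] using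
    (cox_case σ 3 4 3 (sq_of σ hσ hw _ (by norm_num)) (sq_of σ hσ hw _ (by norm_num))
      (hw _ (List.Mem.tail _ (List.Mem.tail _ (List.Mem.tail _ (List.Mem.tail _ (List.Mem.tail _ (List.Mem.head _)))))))).2

theorem lift_cox_cc (σ : ℕ → K) (hσ : ∀ s, σ (invL 1 s) * σ s = 1)
    (hw : ∀ w ∈ words, (w.map σ).prod = 1) :
    FreeGroup.lift (fun x => σ (idx x)) ((FreeGroup.of (ON.Gen.c) * FreeGroup.of (ON.Gen.c)) ^ coxLabel ON.edges .c .c) = 1 := by
  simpa [coxLabel, idx] using sq_of σ hσ hw 4 (by norm_num)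

theorem lift_cox_cd (σ : ℕ → K) (hσ : ∀ s, σ (invL 1 s) * σ s = 1)
    (hw : ∀ w ∈ words, (w.map σ).prod = 1) :
    FreeGroup.lift (fun x => σ (idx x)) ((FreeGroup.of (ON.Gen.c) * FreeGroup.of (ON.Gen.d)) ^ coxLabel ON.edges .c .d) = 1 := by
  rw [label_cd]
  simpa only [map_pow, map_mul, FreeGroup.lift_apply_of, idx] using
    (cox_case σ 4 5 8 (sq_of σ hσ hw _ (by norm_num)) (sq_of σ hσ hw _ (by norm_num))
      (hw _ (List.Mem.tail _ (List.Mem.tail _ (List.Mem.tail _ (List.Mem.tail _ (List.Mem.tail _ (List.Mem.tail _ (List.Mem.tail _ (List.Mem.tail _ (List.Mem.tail _ (List.Mem.head _)))))))))))).1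

theorem lift_cox_ce (σ : ℕ → K) (hσ : ∀ s, σ (invL 1 s) * σ s = 1)
    (hw : ∀ w ∈ words, (w.map σ).prod = 1) :
    FreeGroup.lift (fun x => σ (idx x)) ((FreeGroup.of (ON.Gen.c) * FreeGroup.of (ON.Gen.e)) ^ coxLabel ON.edges .c .e) = 1 := by
  rw [label_ce]
  simpa only [map_pow, map_mul, FreeGroup.lift_apply_of, idx] using
    (cox_case σ 4 6 2 (sq_of σ hσ hw _ (by norm_num)) (sq_of σ hσ hw _ (by norm_num))
      (hw _ (List.Mem.tail _ (List.Mem.tail _ (List.Mem.tail _ (List.Mem.tail _ (List.Mem.tail _ (List.Mem.tail _ (List.Mem.tail _ (List.Mem.tail _ (List.Mem.tail _ (List.Mem.tail _ (List.Mem.head _))))))))))))).1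

theorem lift_cox_cf (σ : ℕ → K) (hσ : ∀ s, σ (invL 1 s) * σ s = 1)
    (hw : ∀ w ∈ words, (w.map σ).prod = 1) :
    FreeGroup.lift (fun x => σ (idx x)) ((FreeGroup.of (ON.Gen.c) * FreeGroup.of (ON.Gen.f)) ^ coxLabel ON.edges .c .f) = 1 := by
  rw [label_cf]
  simpa only [map_pow, map_mul, FreeGroup.lift_apply_of, idx] using
    (cox_case σ 4 7 2 (sq_of σ hσ hw _ (by norm_num)) (sq_of σ hσ hw _ (by norm_num))
      (hw _ (List.Mem.tail _ (List.Mem.tail _ (List.Mem.tail _ (List.Mem.tail _ (List.Mem.tail _ (List.Mem.tail _ (List.Mem.tail _ (List.Mem.tail _ (List.Mem.tail _ (List.Mem.tail _ (List.Mem.tail _ (List.Mem.head _)))))))))))))).1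

theorem lift_cox_da (σ : ℕ → K) (hσ : ∀ s, σ (invL 1 s) * σ s = 1)
    (hw : ∀ w ∈ words, (w.map σ).prod = 1) :
    FreeGroup.lift (fun x => σ (idx x)) ((FreeGroup.of (ON.Gen.d) * FreeGroup.of (ON.Gen.a)) ^ coxLabel ON.edges .d .a) = 1 := by
  rw [label_da]
  simpa only [map_pow, map_mul, FreeGroup.lift_apply_of, idx] using
    (cox_case σ 2 5 2 (sq_of σ hσ hw _ (by norm_num)) (sq_of σ hσ hw _ (by norm_num))
      (hw _ (List.Mem.tail _ (List.Mem.tail _ (List.Mem.head _))))).2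

theorem lift_cox_db (σ : ℕ → K) (hσ : ∀ s, σ (invL 1 s) * σ s = 1)
    (hw : ∀ w ∈ words, (w.map σ).prod = 1) :
    FreeGroup.lift (fun x => σ (idx x)) ((FreeGroup.of (ON.Gen.d) * FreeGroup.of (ON.Gen.b)) ^ coxLabel ON.edges .d .b) = 1 := by
  rw [label_db]
  simpa only [map_pow, map_mul, FreeGroup.lift_apply_of, idx] using
    (cox_case σ 3 5 2 (sq_of σ hσ hw _ (by norm_num)) (sq_of σ hσ hw _ (by norm_num))
      (hw _ (List.Mem.tail _ (List.Mem.tail _ (List.Mem.tail _ (List.Mem.tail _ (List.Mem.tail _ (List.Mem.tail _ (List.Mem.head _))))))))).2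

theorem lift_cox_dc (σ : ℕ → K) (hσ : ∀ s, σ (invL 1 s) * σ s = 1)
    (hw : ∀ w ∈ words, (w.map σ).prod = 1) :
    FreeGroup.lift (fun x => σ (idx x)) ((FreeGroup.of (ON.Gen.d) * FreeGroup.of (ON.Gen.c)) ^ coxLabel ON.edges .d .c) = 1 := by
  rw [label_dc]
  simpa only [map_pow, map_mul, FreeGroup.lift_apply_of, idx] using
    (cox_case σ 4 5 8 (sq_of σ hσ hw _ (by norm_num)) (sq_of σ hσ hw _ (by norm_num))
      (hw _ (List.Mem.tail _ (List.Mem.tail _ (List.Mem.tail _ (List.Mem.tail _ (List.Mem.tail _ (List.Mem.tail _ (List.Mem.tail _ (List.Mem.tail _ (List.Mem.tail _ (List.Mem.head _)))))))))))).2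

theorem lift_cox_dd (σ : ℕ → K) (hσ : ∀ s, σ (invL 1 s) * σ s = 1)
    (hw : ∀ w ∈ words, (w.map σ).prod = 1) :
    FreeGroup.lift (fun x => σ (idx x)) ((FreeGroup.of (ON.Gen.d) * FreeGroup.of (ON.Gen.d)) ^ coxLabel ON.edges .d .d) = 1 := by
  simpa [coxLabel, idx] using sq_of σ hσ hw 5 (by norm_num)

theorem lift_cox_de (σ : ℕ → K) (hσ : ∀ s, σ (invL 1 s) * σ s = 1)
    (hw : ∀ w ∈ words, (w.map σ).prod = 1) :
    FreeGroup.lift (fun x => σ (idx x)) ((FreeGroup.of (ON.Gen.d) * FreeGroup.of (ON.Gen.e)) ^ coxLabel ON.edges .d .e) = 1 := by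
  rw [label_de]
  simpa only [map_pow, map_mul, FreeGroup.lift_apply_of, idx] using
    (cox_case σ 5 6 3 (sq_of σ hσ hw _ (by norm_num)) (sq_of σ hσ hw _ (by norm_num))
      (hw _ (List.Mem.tail _ (List.Mem.tail _ (List.Mem.tail _ (List.Mem.tail _ (List.Mem.tail _ (List.Mem.tail _ (List.Mem.tail _ (List.Mem.tail _ (List.Mem.tail _ (List.Mem.tail _ (List.Mem.tail _ (List.Mem.tail _ (List.Mem.head _))))))))))))))).1

theorem lift_cox_df (σ : ℕ → K) (hσ : ∀ s, σ (invL 1 s) * σ s = 1)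
    (hw : ∀ w ∈ words, (w.map σ).prod = 1) :
    FreeGroup.lift (fun x => σ (idx x)) ((FreeGroup.of (ON.Gen.d) * FreeGroup.of (ON.Gen.f)) ^ coxLabel ON.edges .d .f) = 1 := by
  rw [label_df]
  simpa only [map_pow, map_mul, FreeGroup.lift_apply_of, idx] using
    (cox_case σ 5 7 2 (sq_of σ hσ hw _ (by norm_num)) (sq_of σ hσ hw _ (by norm_num))
      (hw _ (List.Mem.tail _ (List.Mem.tail _ (List.Mem.tail _ (List.Mem.tail _ (List.Mem.tail _ (List.Mem.tail _ (List.Mem.tail _ (List.Mem.tail _ (List.Mem.tail _ (List.Mem.tail _ (List.Mem.tail _ (List.Mem.tail _ (List.Mem.tail _ (List.Mem.head _)))))))))))))))).1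

theorem lift_cox_ea (σ : ℕ → K) (hσ : ∀ s, σ (invL 1 s) * σ s = 1)
    (hw : ∀ w ∈ words, (w.map σ).prod = 1) :
    FreeGroup.lift (fun x => σ (idx x)) ((FreeGroup.of (ON.Gen.e) * FreeGroup.of (ON.Gen.a)) ^ coxLabel ON.edges .e .a) = 1 := by
  rw [label_ea]
  simpa only [map_pow, map_mul, FreeGroup.lift_apply_of, idx] using
    (cox_case σ 2 6 2 (sq_of σ hσ hw _ (by norm_num)) (sq_of σ hσ hw _ (by norm_num))
      (hw _ (List.Mem.tail _ (List.Mem.tail _ (List.Mem.tail _ (List.Mem.head _)))))).2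

theorem lift_cox_eb (σ : ℕ → K) (hσ : ∀ s, σ (invL 1 s) * σ s = 1)
    (hw : ∀ w ∈ words, (w.map σ).prod = 1) :
    FreeGroup.lift (fun x => σ (idx x)) ((FreeGroup.of (ON.Gen.e) * FreeGroup.of (ON.Gen.b)) ^ coxLabel ON.edges .e .b) = 1 := by
  rw [label_eb]
  simpa only [map_pow, map_mul, FreeGroup.lift_apply_of, idx] using
    (cox_case σ 3 6 2 (sq_of σ hσ hw _ (by norm_num)) (sq_of σ hσ hw _ (by norm_num))
      (hw _ (List.Mem.tail _ (List.Mem.tail _ (List.Mem.tail _ (List.Mem.tail _ (List.Mem.tail _ (List.Mem.tail _ (List.Mem.tail _ (List.Mem.head _)))))))))).2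

theorem lift_cox_ec (σ : ℕ → K) (hσ : ∀ s, σ (invL 1 s) * σ s = 1)
    (hw : ∀ w ∈ words, (w.map σ).prod = 1) :
    FreeGroup.lift (fun x => σ (idx x)) ((FreeGroup.of (ON.Gen.e) * FreeGroup.of (ON.Gen.c)) ^ coxLabel ON.edges .e .c) = 1 := by
  rw [label_ec]
  simpa only [map_pow, map_mul, FreeGroup.lift_apply_of, idx] using
    (cox_case σ 4 6 2 (sq_of σ hσ hw _ (by norm_num)) (sq_of σ hσ hw _ (by norm_num))
      (hw _ (List.Mem.tail _ (List.Mem.tail _ (List.Mem.tail _ (List.Mem.tail _ (List.Mem.tail _ (List.Mem.tail _ (List.Mem.tail _ (List.Mem.tail _ (List.Mem.tail _ (List.Mem.tail _ (List.Mem.head _))))))))))))).2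

theorem lift_cox_ed (σ : ℕ → K) (hσ : ∀ s, σ (invL 1 s) * σ s = 1)
    (hw : ∀ w ∈ words, (w.map σ).prod = 1) :
    FreeGroup.lift (fun x => σ (idx x)) ((FreeGroup.of (ON.Gen.e) * FreeGroup.of (ON.Gen.d)) ^ coxLabel ON.edges .e .d) = 1 := by
  rw [label_ed]
  simpa only [map_pow, map_mul, FreeGroup.lift_apply_of, idx] using
    (cox_case σ 5 6 3 (sq_of σ hσ hw _ (by norm_num)) (sq_of σ hσ hw _ (by norm_num))
      (hw _ (List.Mem.tail _ (List.Mem.tail _ (List.Mem.tail _ (List.Mem.tail _ (List.Mem.tail _ (List.Mem.tail _ (List.Mem.tail _ (List.Mem.tail _ (List.Mem.tail _ (List.Mem.tail _ (List.Mem.tail _ (List.Mem.tail _ (List.Mem.head _))))))))))))))).2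

theorem lift_cox_ee (σ : ℕ → K) (hσ : ∀ s, σ (invL 1 s) * σ s = 1)
    (hw : ∀ w ∈ words, (w.map σ).prod = 1) :
    FreeGroup.lift (fun x => σ (idx x)) ((FreeGroup.of (ON.Gen.e) * FreeGroup.of (ON.Gen.e)) ^ coxLabel ON.edges .e .e) = 1 := by
  simpa [coxLabel, idx] using sq_of σ hσ hw 6 (by norm_num)

theorem lift_cox_ef (σ : ℕ → K) (hσ : ∀ s, σ (invL 1 s) * σ s = 1)
    (hw : ∀ w ∈ words, (w.map σ).prod = 1) :
    FreeGroup.lift (fun x => σ (idx x)) ((FreeGroup.of (ON.Gen.e) * FreeGroup.of (ON.Gen.f)) ^ coxLabel ON.edges .e .f) = 1 := by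
  rw [label_ef]
  simpa only [map_pow, map_mul, FreeGroup.lift_apply_of, idx] using
    (cox_case σ 6 7 3 (sq_of σ hσ hw _ (by norm_num)) (sq_of σ hσ hw _ (by norm_num))
      (hw _ (List.Mem.tail _ (List.Mem.tail _ (List.Mem.tail _ (List.Mem.tail _ (List.Mem.tail _ (List.Mem.tail _ (List.Mem.tail _ (List.Mem.tail _ (List.Mem.tail _ (List.Mem.tail _ (List.Mem.tail _ (List.Mem.tail _ (List.Mem.tail _ (List.Mem.tail _ (List.Mem.head _))))))))))))))))).1

theorem lift_cox_fa (σ : ℕ → K) (hσ : ∀ s, σ (invL 1 s) * σ s = 1)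
    (hw : ∀ w ∈ words, (w.map σ).prod = 1) :
    FreeGroup.lift (fun x => σ (idx x)) ((FreeGroup.of (ON.Gen.f) * FreeGroup.of (ON.Gen.a)) ^ coxLabel ON.edges .f .a) = 1 := by
  rw [label_fa]
  simpa only [map_pow, map_mul, FreeGroup.lift_apply_of, idx] using
    (cox_case σ 2 7 2 (sq_of σ hσ hw _ (by norm_num)) (sq_of σ hσ hw _ (by norm_num))
      (hw _ (List.Mem.tail _ (List.Mem.tail _ (List.Mem.tail _ (List.Mem.tail _ (List.Mem.head _))))))).2

theorem lift_cox_fb (σ : ℕ → K) (hσ : ∀ s, σ (invL 1 s) * σ s = 1)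
    (hw : ∀ w ∈ words, (w.map σ).prod = 1) :
    FreeGroup.lift (fun x => σ (idx x)) ((FreeGroup.of (ON.Gen.f) * FreeGroup.of (ON.Gen.b)) ^ coxLabel ON.edges .f .b) = 1 := by
  rw [label_fb]
  simpa only [map_pow, map_mul, FreeGroup.lift_apply_of, idx] using
    (cox_case σ 3 7 2 (sq_of σ hσ hw _ (by norm_num)) (sq_of σ hσ hw _ (by norm_num))
      (hw _ (List.Mem.tail _ (List.Mem.tail _ (List.Mem.tail _ (List.Mem.tail _ (List.Mem.tail _ (List.Mem.tail _ (List.Mem.tail _ (List.Mem.tail _ (List.Mem.head _))))))))))).2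

theorem lift_cox_fc (σ : ℕ → K) (hσ : ∀ s, σ (invL 1 s) * σ s = 1)
    (hw : ∀ w ∈ words, (w.map σ).prod = 1) :
    FreeGroup.lift (fun x => σ (idx x)) ((FreeGroup.of (ON.Gen.f) * FreeGroup.of (ON.Gen.c)) ^ coxLabel ON.edges .f .c) = 1 := by
  rw [label_fc]
  simpa only [map_pow, map_mul, FreeGroup.lift_apply_of, idx] using
    (cox_case σ 4 7 2 (sq_of σ hσ hw _ (by norm_num)) (sq_of σ hσ hw _ (by norm_num))
      (hw _ (List.Mem.tail _ (List.Mem.tail _ (List.Mem.tail _ (List.Mem.tail _ (List.Mem.tail _ (List.Mem.tail _ (List.Mem.tail _ (List.Mem.tail _ (List.Mem.tail _ (List.Mem.tail _ (List.Mem.tail _ (List.Mem.head _)))))))))))))).2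

theorem lift_cox_fd (σ : ℕ → K) (hσ : ∀ s, σ (invL 1 s) * σ s = 1)
    (hw : ∀ w ∈ words, (w.map σ).prod = 1) :
    FreeGroup.lift (fun x => σ (idx x)) ((FreeGroup.of (ON.Gen.f) * FreeGroup.of (ON.Gen.d)) ^ coxLabel ON.edges .f .d) = 1 := by
  rw [label_fd]
  simpa only [map_pow, map_mul, FreeGroup.lift_apply_of, idx] using
    (cox_case σ 5 7 2 (sq_of σ hσ hw _ (by norm_num)) (sq_of σ hσ hw _ (by norm_num))
      (hw _ (List.Mem.tail _ (List.Mem.tail _ (List.Mem.tail _ (List.Mem.tail _ (List.Mem.tail _ (List.Mem.tail _ (List.Mem.tail _ (List.Mem.tail _ (List.Mem.tail _ (List.Mem.tail _ (List.Mem.tail _ (List.Mem.tail _ (List.Mem.tail _ (List.Mem.head _)))))))))))))))).2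

theorem lift_cox_fe (σ : ℕ → K) (hσ : ∀ s, σ (invL 1 s) * σ s = 1)
    (hw : ∀ w ∈ words, (w.map σ).prod = 1) :
    FreeGroup.lift (fun x => σ (idx x)) ((FreeGroup.of (ON.Gen.f) * FreeGroup.of (ON.Gen.e)) ^ coxLabel ON.edges .f .e) = 1 := by
  rw [label_fe]
  simpa only [map_pow, map_mul, FreeGroup.lift_apply_of, idx] using
    (cox_case σ 6 7 3 (sq_of σ hσ hw _ (by norm_num)) (sq_of σ hσ hw _ (by norm_num))
      (hw _ (List.Mem.tail _ (List.Mem.tail _ (List.Mem.tail _ (List.Mem.tail _ (List.Mem.tail _ (List.Mem.tail _ (List.Mem.tail _ (List.Mem.tail _ (List.Mem.tail _ (List.Mem.tail _ (List.Mem.tail _ (List.Mem.tail _ (List.Mem.tail _ (List.Mem.tail _ (List.Mem.head _))))))))))))))))).2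

theorem lift_cox_ff (σ : ℕ → K) (hσ : ∀ s, σ (invL 1 s) * σ s = 1)
    (hw : ∀ w ∈ words, (w.map σ).prod = 1) :
    FreeGroup.lift (fun x => σ (idx x)) ((FreeGroup.of (ON.Gen.f) * FreeGroup.of (ON.Gen.f)) ^ coxLabel ON.edges .f .f) = 1 := by
  simpa [coxLabel, idx] using sq_of σ hσ hw 7 (by norm_num)

theorem lift_one (σ : ℕ → K) (hσ : ∀ s, σ (invL 1 s) * σ s = 1)
    (hw : ∀ w ∈ words, (w.map σ).prod = 1) :
    ∀ r ∈ rels, FreeGroup.lift (fun x => σ (idx x)) r = 1 := by
  have hG : (σ 0)⁻¹ = σ 1 := by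
    have h := hσ 0
    rw [invL_one_zero] at h
    exact inv_eq_of_mul_eq_one_left h
  have i2 : (σ 2)⁻¹ = σ 2 := inv_eq_of_mul_eq_one_left (sq_of σ hσ hw 2 (by norm_num))
  have i3 : (σ 3)⁻¹ = σ 3 := inv_eq_of_mul_eq_one_left (sq_of σ hσ hw 3 (by norm_num))
  have i4 : (σ 4)⁻¹ = σ 4 := inv_eq_of_mul_eq_one_left (sq_of σ hσ hw 4 (by norm_num))
  have i5 : (σ 5)⁻¹ = σ 5 := inv_eq_of_mul_eq_one_left (sq_of σ hσ hw 5 (by norm_num))
  have i6 : (σ 6)⁻¹ = σ 6 := inv_eq_of_mul_eq_one_left (sq_of σ hσ hw 6 (by norm_num))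
  have i7 : (σ 7)⁻¹ = σ 7 := inv_eq_of_mul_eq_one_left (sq_of σ hσ hw 7 (by norm_num))
  rintro r (⟨x, hx, y, hy, rfl⟩ | hr)
  · cases x <;> cases y
    · exact absurd hx (by decide)
    · exact absurd hx (by decide)
    · exact absurd hx (by decide)
    · exact absurd hx (by decide)
    · exact absurd hx (by decide)
    · exact absurd hx (by decide)
    · exact absurd hx (by decide)
    · exact absurd hy (by decide)
    · exact lift_cox_aa σ hσ hw
    · exact lift_cox_ab σ hσ hw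
    · exact lift_cox_ac σ hσ hw
    · exact lift_cox_ad σ hσ hw
    · exact lift_cox_ae σ hσ hw
    · exact lift_cox_af σ hσ hw
    · exact absurd hy (by decide)
    · exact lift_cox_ba σ hσ hw
    · exact lift_cox_bb σ hσ hw
    · exact lift_cox_bc σ hσ hw
    · exact lift_cox_bd σ hσ hw
    · exact lift_cox_be σ hσ hw
    · exact lift_cox_bf σ hσ hw
    · exact absurd hy (by decide)
    · exact lift_cox_ca σ hσ hw
    · exact lift_cox_cb σ hσ hw
    · exact lift_cox_cc σ hσ hw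
    · exact lift_cox_cd σ hσ hw
    · exact lift_cox_ce σ hσ hw
    · exact lift_cox_cf σ hσ hw
    · exact absurd hy (by decide)
    · exact lift_cox_da σ hσ hw
    · exact lift_cox_db σ hσ hw
    · exact lift_cox_dc σ hσ hw
    · exact lift_cox_dd σ hσ hw
    · exact lift_cox_de σ hσ hw
    · exact lift_cox_df σ hσ hw
    · exact absurd hy (by decide)
    · exact lift_cox_ea σ hσ hw
    · exact lift_cox_eb σ hσ hw
    · exact lift_cox_ec σ hσ hw
    · exact lift_cox_ed σ hσ hw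
    · exact lift_cox_ee σ hσ hw
    · exact lift_cox_ef σ hσ hw
    · exact absurd hy (by decide)
    · exact lift_cox_fa σ hσ hw
    · exact lift_cox_fb σ hσ hw
    · exact lift_cox_fc σ hσ hw
    · exact lift_cox_fd σ hσ hw
    · exact lift_cox_fe σ hσ hw
    · exact lift_cox_ff σ hσ hw
  · rw [Set.mem_setOf_eq] at hr
    simp only [ON.extra, List.mem_cons, List.not_mem_nil, or_false] at hr
    rcases hr with rfl | rfl | rfl | rfl | rfl | rfl | rfl
    · have h := hw [2, 7, 1, 1] (List.Mem.tail _ (List.Mem.tail _ (List.Mem.tail _ (List.Mem.tail _ (List.Mem.tail _ (List.Mem.tail _ (List.Mem.tail _ (List.Mem.tail _ (List.Mem.tail _ (List.Mem.tail _ (List.Mem.tail _ (List.Mem.tail _ (List.Mem.tail _ (List.Mem.tail _ (List.Mem.tail _ (List.Mem.head _))))))))))))))))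
      simp only [List.map_cons, List.map_nil, List.prod_cons, List.prod_nil, mul_one] at h
      simp only [map_mul, map_inv, map_pow, FreeGroup.lift_apply_of, idx, pow_succ, pow_zero, one_mul, mul_inv_rev, inv_inv,
        mul_assoc, hG, i2, i3, i4, i5, i6, i7] at h ⊢
      exact h
    · have h := hw [2, 7, 5, 4, 5, 4, 5, 4, 5, 4] (List.Mem.tail _ (List.Mem.tail _ (List.Mem.tail _ (List.Mem.tail _ (List.Mem.tail _ (List.Mem.tail _ (List.Mem.tail _ (List.Mem.tail _ (List.Mem.tail _ (List.Mem.tail _ (List.Mem.tail _ (List.Mem.tail _ (List.Mem.tail _ (List.Mem.tail _ (List.Mem.tail _ (List.Mem.tail _ (List.Mem.head _)))))))))))))))))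
      simp only [List.map_cons, List.map_nil, List.prod_cons, List.prod_nil, mul_one] at h
      simp only [map_mul, map_inv, map_pow, FreeGroup.lift_apply_of, idx, pow_succ, pow_zero, one_mul, mul_inv_rev, inv_inv,
        mul_assoc, hG, i2, i3, i4, i5, i6, i7] at h ⊢
      exact h
    · have h := hw [4, 1, 5, 1, 5, 4, 5, 0, 5, 0] (List.Mem.tail _ (List.Mem.tail _ (List.Mem.tail _ (List.Mem.tail _ (List.Mem.tail _ (List.Mem.tail _ (List.Mem.tail _ (List.Mem.tail _ (List.Mem.tail _ (List.Mem.tail _ (List.Mem.tail _ (List.Mem.tail _ (List.Mem.tail _ (List.Mem.tail _ (List.Mem.tail _ (List.Mem.tail _ (List.Mem.tail _ (List.Mem.head _))))))))))))))))))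
      simp only [List.map_cons, List.map_nil, List.prod_cons, List.prod_nil, mul_one] at h
      simp only [map_mul, map_inv, map_pow, FreeGroup.lift_apply_of, idx, pow_succ, pow_zero, one_mul, mul_inv_rev, inv_inv,
        mul_assoc, hG, i2, i3, i4, i5, i6, i7] at h ⊢
      exact h
    · have h := hw [5, 1, 4, 1, 4, 5, 4, 0, 4, 0] (List.Mem.tail _ (List.Mem.tail _ (List.Mem.tail _ (List.Mem.tail _ (List.Mem.tail _ (List.Mem.tail _ (List.Mem.tail _ (List.Mem.tail _ (List.Mem.tail _ (List.Mem.tail _ (List.Mem.tail _ (List.Mem.tail _ (List.Mem.tail _ (List.Mem.tail _ (List.Mem.tail _ (List.Mem.tail _ (List.Mem.tail _ (List.Mem.tail _ (List.Mem.head _)))))))))))))))))))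
      simp only [List.map_cons, List.map_nil, List.prod_cons, List.prod_nil, mul_one] at h
      simp only [map_mul, map_inv, map_pow, FreeGroup.lift_apply_of, idx, pow_succ, pow_zero, one_mul, mul_inv_rev, inv_inv,
        mul_assoc, hG, i2, i3, i4, i5, i6, i7] at h ⊢
      exact h
    · have h := hw [3, 4, 5, 0, 3, 4, 5, 0, 3, 4, 5, 0, 3, 4, 5, 0, 3, 4, 5, 0] (List.Mem.tail _ (List.Mem.tail _ (List.Mem.tail _ (List.Mem.tail _ (List.Mem.tail _ (List.Mem.tail _ (List.Mem.tail _ (List.Mem.tail _ (List.Mem.tail _ (List.Mem.tail _ (List.Mem.tail _ (List.Mem.tail _ (List.Mem.tail _ (List.Mem.tail _ (List.Mem.tail _ (List.Mem.tail _ (List.Mem.tail _ (List.Mem.tail _ (List.Mem.tail _ (List.Mem.head _))))))))))))))))))))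
      simp only [List.map_cons, List.map_nil, List.prod_cons, List.prod_nil, mul_one] at h
      simp only [map_mul, map_inv, map_pow, FreeGroup.lift_apply_of, idx, pow_succ, pow_zero, one_mul, mul_inv_rev, inv_inv,
        mul_assoc, hG, i2, i3, i4, i5, i6, i7] at h ⊢
      exact h
    · have h := hw [0, 3, 4, 0, 4, 3, 0, 3, 4, 0, 4] (List.Mem.tail _ (List.Mem.tail _ (List.Mem.tail _ (List.Mem.tail _ (List.Mem.tail _ (List.Mem.tail _ (List.Mem.tail _ (List.Mem.tail _ (List.Mem.tail _ (List.Mem.tail _ (List.Mem.tail _ (List.Mem.tail _ (List.Mem.tail _ (List.Mem.tail _ (List.Mem.tail _ (List.Mem.tail _ (List.Mem.tail _ (List.Mem.tail _ (List.Mem.tail _ (List.Mem.tail _ (List.Mem.head _)))))))))))))))))))))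
      simp only [List.map_cons, List.map_nil, List.prod_cons, List.prod_nil, mul_one] at h
      simp only [map_mul, map_inv, map_pow, FreeGroup.lift_apply_of, idx, pow_succ, pow_zero, one_mul, mul_inv_rev, inv_inv,
        mul_assoc, hG, i2, i3, i4, i5, i6, i7] at h ⊢
      exact h
    · have h := hw [0, 6, 5, 0, 5, 6, 0, 6, 5, 0, 5] (List.Mem.tail _ (List.Mem.tail _ (List.Mem.tail _ (List.Mem.tail _ (List.Mem.tail _ (List.Mem.tail _ (List.Mem.tail _ (List.Mem.tail _ (List.Mem.tail _ (List.Mem.tail _ (List.Mem.tail _ (List.Mem.tail _ (List.Mem.tail _ (List.Mem.tail _ (List.Mem.tail _ (List.Mem.tail _ (List.Mem.tail _ (List.Mem.tail _ (List.Mem.tail _ (List.Mem.tail _ (List.Mem.tail _ (List.Mem.head _))))))))))))))))))))))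
      simp only [List.map_cons, List.map_nil, List.prod_cons, List.prod_nil, mul_one] at h
      simp only [map_mul, map_inv, map_pow, FreeGroup.lift_apply_of, idx, pow_succ, pow_zero, one_mul, mul_inv_rev, inv_inv,
        mul_assoc, hG, i2, i3, i4, i5, i6, i7] at h ⊢
      exact h

theorem lift_gam (σ : ℕ → K) (hσ : ∀ s, σ (invL 1 s) * σ s = 1) :
    ∀ s < 8, FreeGroup.lift (fun x => σ (idx x)) (gam s) = σ s := by
  have hG : (σ 0)⁻¹ = σ 1 := by
    have h := hσ 0
    rw [invL_one_zero] at h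
    exact inv_eq_of_mul_eq_one_left h
  intro s hs
  interval_cases s <;> simp [gam, idx, hG]

end

theorem mk_rel (r : FreeGroup ON.Gen) (hr : r ∈ rels) :
    FreeGroup.lift (fun x => (PresentedGroup.of x : PresentedGroup rels)) r = 1 := by
  rw [lift_of_eq_mk]; exact PresentedGroup.one_of_mem hr

theorem lift_gam_mk (s : ℕ) :
    FreeGroup.lift (fun x => (PresentedGroup.of x : PresentedGroup rels)) (gam s) = PresentedGroup.mk rels (gam s) :=
  lift_of_eq_mk rels (gam s)

/-- the relator words hold in the presented group -/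
theorem of_words : ∀ w ∈ words,
    (w.map (fun s => (PresentedGroup.mk rels (gam s) : PresentedGroup rels))).prod = 1 := by
  intro w hw
  have h := words_one (fun x => (PresentedGroup.of x : PresentedGroup rels)) mk_rel w hw
  simp only [lift_gam_mk] at h
  exact h

theorem gam_of_ge (s : ℕ) (h : 7 ≤ s) : gam s = FreeGroup.of .f := by
  match s, h with
  | n + 7, _ => rfl

/-- the letters `s` and `invL 1 s` are mutually inverse in the presented group -/
theorem of_inv (s : ℕ) : (PresentedGroup.mk rels (gam (invL 1 s)) : PresentedGroup rels) *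
    PresentedGroup.mk rels (gam s) = 1 := by
  have hI : ∀ x, x ∈ coxNodes ON.edges →
      (PresentedGroup.mk rels (FreeGroup.of x) : PresentedGroup rels) * PresentedGroup.mk rels (FreeGroup.of x) = 1 :=
    fun x hx => invol (fun x => (PresentedGroup.of x : PresentedGroup rels)) mk_rel x hx
  rcases Nat.lt_or_ge s 7 with h | h
  · interval_cases s
    · rw [invL_one_zero]; simp [gam]
    · rw [invL_one_one]; simp [gam]
    · rw [invL_of_ge (by norm_num)]; exact hI _ node_a
    · rw [invL_of_ge (by norm_num)]; exact hI _ node_b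
    · rw [invL_of_ge (by norm_num)]; exact hI _ node_c
    · rw [invL_of_ge (by norm_num)]; exact hI _ node_d
    · rw [invL_of_ge (by norm_num)]; exact hI _ node_e
  · rw [invL_of_ge (by omega), gam_of_ge s h]; exact hI _ node_f

end Cfsg.Agent.Lib.Helper39.ONP
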