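import Cfsg.Agent.Lib.Helper39.OrdT

/-!
Generic lemmas for simple subgroups of a group given by coset-enumeration certificates:
tracing long words in chunks, quotients of groups presented by involutions, transport of
simplicity and order along injective homomorphisms, and the permutation representation on the
cosets of a subgroup.
-/

namespace Cfsg.Agent.Lib.Helper39.Ord

open Cfsg.Agent.Lib.Helper38

/-! ### Tracing a product of words -/

/-- trace the class `c` through a list of words, the head first; the value is forced after each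
word -/
noncomputable def evR (C : Cert) : List (List ℕ) → ℕ → ℕ
  | [], c => c
  | w :: ws, c =>
    match ev C w c with
    | 0 => evR C ws 0
    | k + 1 => evR C ws (k + 1)

theorem evR_cons (C : Cert) (w : List ℕ) (ws : List (List ℕ)) (c : ℕ) :
    evR C (w :: ws) c = evR C ws (ev C w c) := by
  rw [evR]
  generalize ev C w c = v
  cases v <;> rfl

theorem evR_eq (C : Cert) : ∀ (ws : List (List ℕ)) (c : ℕ),
    evR C ws c = ev C (ws.reverse.flatten) c
  | [], c => rfl
  | w :: ws, c => by
    rw [evR_cons, evR_eq C ws, List.reverse_cons, List.flatten_append, ev_append]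
    simp

/-- the product of the words (in reverse order) fixes the class `p` -/
noncomputable def fixR (C : Cert) (ws : List (List ℕ)) (p : ℕ) : Bool :=
  band (Nat.blt p C.n) (Nat.beq (evR C ws p) p)

theorem fixR_of {C : Cert} {G : Type*} [Group G] {γ : ℕ → G} {X : Type*} [MulAction G X]
    {F : ℕ → X} (hA : TAct C γ F) {ws : List (List ℕ)} {p : ℕ} (h : fixR C ws p = true) :
    ((ws.reverse.flatten).map γ).prod • F p = F p := by
  apply fix_of hA
  unfold fixB
  unfold fixR at h
  rw [evR_eq] at h
  exact h

/-- the product of the images of the letters of a word, each image being a product of words -/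
theorem prod_flatMap {G : Type*} [Group G] (γ : ℕ → G) (W : ℕ → List (List ℕ)) :
    ∀ r : List ℕ, (r.map (fun s => (((W s).flatten).map γ).prod)).prod =
      ((((r.flatMap W).reverse).reverse.flatten).map γ).prod
  | [] => by simp
  | s :: r => by
    rw [List.map_cons, List.prod_cons, prod_flatMap γ W r, List.reverse_reverse,
      List.reverse_reverse, List.flatMap_cons, List.flatten_append, List.map_append,
      List.prod_append]

/-! ### Orbit certificates with representative words -/

/-- an orbit certificate: the entries `(c, js)` have increasing classes `c`, each the image of the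
root under the product of the words with the numbers `js` -/
noncomputable def chkOrbW (C : Cert) (Ws : List (List ℕ)) (root : ℕ) :
    List (ℕ × List ℕ) → ℕ → Bool
  | [], _ => true
  | (c, js) :: L, lo =>
    band (Nat.ble lo c) (band (Nat.blt c C.n)
      (band (Nat.beq (evR C (js.map (fun j => Ws.getD j [])) root) c)
        (chkOrbW C Ws root L (c + 1))))

section Orb

variable {C : Cert} {G : Type*} [Group G] {γ : ℕ → G} {X : Type*} [MulAction G X] {F : ℕ → X}

theorem flatten_prod_mem (T : Subgroup G) : ∀ ws : List (List ℕ),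
    (∀ w ∈ ws, (w.map γ).prod ∈ T) → ((ws.flatten).map γ).prod ∈ T
  | [], _ => by simp
  | w :: ws, h => by
    rw [List.flatten_cons, List.map_append, List.prod_append]
    exact mul_mem (h w List.mem_cons_self)
      (flatten_prod_mem T ws (fun v hv => h v (List.mem_cons_of_mem _ hv)))

theorem chkOrbW_sound (hA : TAct C γ F) (T : Subgroup G) (Ws : List (List ℕ))
    (hWs : ∀ w ∈ Ws, (w.map γ).prod ∈ T) (root : ℕ) (hroot : root < C.n) :
    ∀ (L : List (ℕ × List ℕ)) (lo : ℕ), chkOrbW C Ws root L lo = true →
      (L.map Prod.fst).Pairwise (· < ·) ∧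
        ∀ c ∈ L.map Prod.fst, lo ≤ c ∧ c < C.n ∧ F c ∈ MulAction.orbit T (F root)
  | [], _, _ => by simp
  | (c, js) :: L, lo, h => by
    unfold chkOrbW at h
    simp only [band_iff, blt_iff, beq_iff] at h
    obtain ⟨h1, h2, h3, h4⟩ := h
    have h1' : lo ≤ c := Nat.le_of_ble_eq_true h1
    obtain ⟨ih1, ih2⟩ := chkOrbW_sound hA T Ws hWs root hroot L (c + 1) h4
    have hco : F c ∈ MulAction.orbit T (F root) := by
      rw [evR_eq] at h3
      have e := ev_smul hA _ root hroot (by rw [h3]; exact h2)
      rw [h3] at e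
      have hm : ((((js.map (fun j => Ws.getD j [])).reverse).flatten).map γ).prod ∈ T := by
        apply flatten_prod_mem
        intro w hw
        rw [List.mem_reverse, List.mem_map] at hw
        obtain ⟨j, -, rfl⟩ := hw
        exact getD_prod_mem T Ws hWs j
      exact ⟨⟨_, hm⟩, e⟩
    refine ⟨?_, ?_⟩
    · rw [List.map_cons, List.pairwise_cons]
      exact ⟨fun c' hc' => Nat.lt_of_succ_le (ih2 c' hc').1, ih1⟩
    · intro c' hc'
      rw [List.map_cons, List.mem_cons] at hc'
      rcases hc' with rfl | hc'
      · exact ⟨h1', h2, hco⟩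
      · obtain ⟨a1, a2, a3⟩ := ih2 c' hc'
        exact ⟨by omega, a2, a3⟩

/-- an orbit certificate over words of a subgroup gives a lower bound for the length of the
orbit -/
theorem orb_card [Finite X] (hA : TAct C γ F) (T : Subgroup G) (Ws : List (List ℕ))
    (hWs : ∀ w ∈ Ws, (w.map γ).prod ∈ T) (root : ℕ) (hroot : root < C.n)
    (L : List (ℕ × List ℕ)) (h : chkOrbW C Ws root L 0 = true) :
    L.length ≤ (MulAction.orbit T (F root)).ncard := by
  classical
  obtain ⟨f1, f3⟩ := chkOrbW_sound hA T Ws hWs root hroot L 0 h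
  have hnd : (L.map Prod.fst).Nodup := f1.imp (fun hab => Nat.ne_of_lt hab)
  have hsub : ((((L.map Prod.fst).toFinset).image F : Finset X) : Set X) ⊆
      MulAction.orbit T (F root) := by
    intro x hx
    rw [Finset.mem_coe, Finset.mem_image] at hx
    obtain ⟨c, hc, rfl⟩ := hx
    exact (f3 c (List.mem_toFinset.mp hc)).2.2
  have hcard : (((L.map Prod.fst).toFinset).image F).card = L.length := by
    rw [Finset.card_image_of_injOn, List.toFinset_card_of_nodup hnd, List.length_map]
    intro a ha b hb hab
    exact hA.inj a (f3 a (List.mem_toFinset.mp ha)).2.1 b (f3 b (List.mem_toFinset.mp hb)).2.1 hab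
  have h2 := Set.ncard_le_ncard hsub (Set.toFinite _)
  rw [Set.ncard_coe_finset, hcard] at h2
  exact h2

/-- one level of a chain: an orbit certificate over words fixing the earlier base points -/
theorem reach_orb [Finite X] (hA : TAct C γ F) (ps : List ℕ) (Ws : List (List ℕ))
    (hfix : fixAll C Ws ps = true) (root : ℕ) (hroot : root < C.n)
    (L : List (ℕ × List ℕ)) (h : chkOrbW C Ws root L 0 = true) {m : ℕ} (hm : L.length = m) :
    m ≤ (MulAction.orbit (PSt G F ps) (F root)).ncard := by
  subst hm
  refine orb_card hA (PSt G F ps) Ws ?_ root hroot L h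
  intro w hw p hp
  unfold fixAll at hfix
  exact fix_of hA (List.all_eq_true.mp (List.all_eq_true.mp hfix w hw) p hp)

end Orb

/-! ### Counting the classes of a component -/

/-- an increasing list of classes of the component `j` -/
noncomputable def chkCompL (C : Cert) (j : ℕ) : List ℕ → ℕ → Bool
  | [], _ => true
  | c :: L, lo =>
    band (Nat.ble lo c) (band (Nat.blt c C.n) (band (Nat.beq (C.comp c) j)
      (chkCompL C j L (c + 1))))

theorem chkCompL_sound (C : Cert) (j : ℕ) : ∀ (L : List ℕ) (lo : ℕ), chkCompL C j L lo = true →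
    L.Pairwise (· < ·) ∧ ∀ c ∈ L, lo ≤ c ∧ c < C.n ∧ C.comp c = j
  | [], _, _ => by simp
  | c :: L, lo, h => by
    unfold chkCompL at h
    simp only [band_iff, blt_iff, beq_iff] at h
    obtain ⟨h1, h2, h3, h4⟩ := h
    have h1' : lo ≤ c := Nat.le_of_ble_eq_true h1
    obtain ⟨ih1, ih2⟩ := chkCompL_sound C j L (c + 1) h4
    refine ⟨?_, ?_⟩
    · rw [List.pairwise_cons]
      exact ⟨fun c' hc' => Nat.lt_of_succ_le (ih2 c' hc').1, ih1⟩
    · intro c' hc'
      rw [List.mem_cons] at hc'
      rcases hc' with rfl | hc'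
      · exact ⟨h1', h2, h3⟩
      · obtain ⟨a1, a2, a3⟩ := ih2 c' hc'
        exact ⟨by omega, a2, a3⟩

/-- the orbit of a class under the stabiliser of the base coset contains its component -/
theorem comp_card {C : Cert} {G : Type*} [Group G] {γ : ℕ → G} {H : Subgroup G}
    [Finite (G ⧸ H)] (hA : CAct C γ H) (hO : Cert.OChecks C) (root : ℕ) (hroot : root < C.n)
    (j : ℕ) (hj : C.comp root = j) (L : List ℕ) (h : chkCompL C j L 0 = true) {m : ℕ}
    (hm : L.length = m) :
    m ≤ (MulAction.orbit (PSt G (C.F γ H) [0]) (C.F γ H root)).ncard := by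
  classical
  subst hm
  obtain ⟨f1, f3⟩ := chkCompL_sound C j L 0 h
  have hnd : L.Nodup := f1.imp (fun hab => Nat.ne_of_lt hab)
  have hsub : (((L.toFinset).image (C.F γ H) : Finset (G ⧸ H)) : Set (G ⧸ H)) ⊆
      MulAction.orbit (PSt G (C.F γ H) [0]) (C.F γ H root) := by
    intro x hx
    rw [Finset.mem_coe, Finset.mem_image] at hx
    obtain ⟨c, hc, rfl⟩ := hx
    obtain ⟨a1, a2, a3⟩ := f3 c (List.mem_toFinset.mp hc)
    obtain ⟨y, hy, ey⟩ := hA.same_comp hO hroot a2 (hj.trans a3.symm)
    refine ⟨⟨y, ?_⟩, ey⟩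
    intro p hp
    rw [List.mem_singleton] at hp
    subst hp
    exact hA.fix0.mpr hy
  have hcard : ((L.toFinset).image (C.F γ H)).card = L.length := by
    rw [Finset.card_image_of_injOn, List.toFinset_card_of_nodup hnd]
    intro a ha b hb hab
    exact hA.tact.inj a (f3 a (List.mem_toFinset.mp ha)).2.1 b
      (f3 b (List.mem_toFinset.mp hb)).2.1 hab
  have h2 := Set.ncard_le_ncard hsub (Set.toFinite _)
  rw [Set.ncard_coe_finset, hcard] at h2
  exact h2

/-! ### Quotients of groups presented by involutions -/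

/-- a normal subgroup `M` of a group presented by involutions is the whole group if the
presentation with additional relators from `M` gives the trivial group -/
theorem top_of_quotient_cert (k : ℕ) (R E : List (List ℕ)) (M : Subgroup (WP k R)) [M.Normal]
    (hE : ∀ w ∈ E, (w.map (WP.gen k R)).prod ∈ M)
    (hcard : Nat.card (WP k (R ++ E)) = 1) : M = ⊤ := by
  let f : ℕ → WP k R ⧸ M := fun s => QuotientGroup.mk (WP.gen k R s)
  have hf2 : ∀ s, f s * f s = 1 := by
    intro s
    show (QuotientGroup.mk (WP.gen k R s) : WP k R ⧸ M) * QuotientGroup.mk (WP.gen k R s) = 1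
    rw [← QuotientGroup.mk_mul, WP.gen_mul_self, QuotientGroup.mk_one]
  have hfge : ∀ s, k ≤ s → f s = 1 := by
    intro s hs
    show (QuotientGroup.mk (WP.gen k R s) : WP k R ⧸ M) = 1
    rw [WP.gen_of_ge k R hs, QuotientGroup.mk_one]
  have hfw0 : ∀ w : List ℕ, (w.map f).prod = QuotientGroup.mk ((w.map (WP.gen k R)).prod) := by
    intro w
    induction w with
    | nil => simp
    | cons a w ih =>
      rw [List.map_cons, List.prod_cons, ih, List.map_cons, List.prod_cons, QuotientGroup.mk_mul]
  have hfw : ∀ w ∈ R ++ E, (w.map f).prod = 1 := by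
    intro w hw
    rw [hfw0]
    rcases List.mem_append.mp hw with hw | hw
    · rw [WP.gen_word k R hw, QuotientGroup.mk_one]
    · exact (QuotientGroup.eq_one_iff _).mpr (hE w hw)
  have hφ : Function.Surjective (WP.lift k (R ++ E) f hf2 hfge hfw) := by
    intro q
    obtain ⟨p, rfl⟩ := QuotientGroup.mk_surjective q
    have hp : p ∈ Subgroup.closure (WP.gen k R '' {s | s < k}) := by
      rw [WP.closure_gen k R]; trivial
    have hle : Subgroup.closure (WP.gen k R '' {s | s < k}) ≤
        (WP.lift k (R ++ E) f hf2 hfge hfw).range.comap (QuotientGroup.mk' M) := by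
      rw [Subgroup.closure_le]
      rintro _ ⟨s, -, rfl⟩
      exact ⟨WP.gen k (R ++ E) s, WP.lift_gen k (R ++ E) f hf2 hfge hfw s⟩
    exact hle hp
  have hsub : Subsingleton (WP k (R ++ E)) := (Nat.card_eq_one_iff_unique.mp hcard).1
  rw [eq_top_iff]
  intro p _
  obtain ⟨q, hq⟩ := hφ (QuotientGroup.mk p)
  have hq1 : q = 1 := Subsingleton.elim _ _
  rw [hq1, map_one] at hq
  exact (QuotientGroup.eq_one_iff p).mp hq.symm

/-- a subgroup normalising `⟨t⟩` -/
theorem zpowers_conj {P : Type*} [Group P] {B : Subgroup P} {t : P}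
    (h : ∀ b ∈ B, b * t * b⁻¹ ∈ Subgroup.zpowers t) :
    ∀ b ∈ B, ∀ x ∈ Subgroup.zpowers t, b * x * b⁻¹ ∈ Subgroup.zpowers t := by
  intro b hb x hx
  obtain ⟨i, rfl⟩ := Subgroup.mem_zpowers_iff.mp hx
  have e : b * t ^ i * b⁻¹ = (b * t * b⁻¹) ^ i := by rw [conj_zpow]
  rw [e]
  exact zpow_mem (h b hb) i

theorem zpowers_comm {P : Type*} [Group P] (t : P) :
    ∀ x ∈ Subgroup.zpowers t, ∀ y ∈ Subgroup.zpowers t, x * y = y * x := by
  intro x hx y hy
  obtain ⟨i, rfl⟩ := Subgroup.mem_zpowers_iff.mp hx
  obtain ⟨j, rfl⟩ := Subgroup.mem_zpowers_iff.mp hy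
  rw [← zpow_add, ← zpow_add, add_comm]

theorem normalClosure_zpowers_top {P : Type*} [Group P] (t : P)
    (h : Subgroup.normalClosure ({t} : Set P) = ⊤) :
    Subgroup.normalClosure (Subgroup.zpowers t : Set P) = ⊤ := by
  rw [eq_top_iff, ← h]
  apply Subgroup.normalClosure_mono
  intro x hx
  rw [Set.mem_singleton_iff] at hx
  subst hx
  exact Subgroup.mem_zpowers x

/-! ### Transport -/

/-- the image of a simple group under a nontrivial homomorphism -/
theorem simple_card_range {Q G : Type*} [Group Q] [Group G] (hs : IsSimpleGroup Q) (φ : Q →* G)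
    (x : Q) (hx : φ x ≠ 1) :
    Function.Injective φ ∧ IsSimpleGroup φ.range ∧ Nat.card φ.range = Nat.card Q := by
  have hinj : Function.Injective φ := by
    rw [← MonoidHom.ker_eq_bot_iff]
    rcases hs.eq_bot_or_eq_top_of_normal φ.ker (MonoidHom.normal_ker φ) with h | h
    · exact h
    · exfalso
      apply hx
      have hm : x ∈ φ.ker := by rw [h]; exact Subgroup.mem_top x
      exact MonoidHom.mem_ker.mp hm
  have e : Q ≃* φ.range := MonoidHom.ofInjective hinj
  exact ⟨hinj, e.symm.isSimpleGroup, (Nat.card_congr e.toEquiv).symm⟩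

/-- the image of a simple subgroup under an injective homomorphism -/
theorem simple_card_map {G G' : Type*} [Group G] [Group G'] (K : Subgroup G) (f : G →* G')
    (hf : Function.Injective f) (hs : IsSimpleGroup K) :
    IsSimpleGroup (K.map f) ∧ Nat.card (K.map f) = Nat.card K := by
  have e : K ≃* K.map f := K.equivMapOfInjective f hf
  exact ⟨e.symm.isSimpleGroup, (Nat.card_congr e.toEquiv).symm⟩

/-! ### The permutation representation on the cosets of a subgroup -/

/-- a simple group with a subgroup of index `n > 1` is isomorphic to a transitive group of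
permutations of `n` points, with point stabilisers of order `|G| / n` -/
theorem perm_rep {G : Type*} [Group G] (H : Subgroup G) (n m : ℕ) (hs : IsSimpleGroup G)
    (hidx : H.index = n) (hn : 1 < n) (hN : Nat.card G = n * m) :
    ∃ ρ : G →* Equiv.Perm (Fin n), Function.Injective ρ ∧
      MulAction.IsPretransitive ρ.range (Fin n) ∧
      ∀ i : Fin n, Nat.card (MulAction.stabilizer ρ.range i) = m := by
  have hcardX : Nat.card (G ⧸ H) = n := by rw [← Subgroup.index_eq_card]; exact hidx
  haveI : Finite (G ⧸ H) := Nat.finite_of_card_ne_zero (by rw [hcardX]; omega)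
  let e : G ⧸ H ≃ Fin n := Finite.equivFinOfCardEq hcardX
  let ρ : G →* Equiv.Perm (Fin n) :=
    (e.permCongrHom : Equiv.Perm (G ⧸ H) →* Equiv.Perm (Fin n)).comp
      (MulAction.toPermHom G (G ⧸ H))
  have hρ : ∀ (g : G) (i : Fin n), ρ g i = e (g • e.symm i) := fun g i => rfl
  have hne : ∃ g : G, g ∉ H := by
    by_contra hcon
    have : H = ⊤ := by
      rw [eq_top_iff]
      intro g _
      by_contra hg
      exact hcon ⟨g, hg⟩
    rw [this, Subgroup.index_top] at hidx
    omega
  obtain ⟨g0, hg0⟩ := hne
  have hg0' : ρ g0 ≠ 1 := by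
    intro h1
    have h2 := hρ g0 (e (QuotientGroup.mk 1))
    rw [h1, Equiv.Perm.coe_one, id_eq, Equiv.symm_apply_apply, EmbeddingLike.apply_eq_iff_eq] at h2
    apply hg0
    have h3 : ((g0 * 1 : G) : G ⧸ H) = ((1 : G) : G ⧸ H) := h2.symm
    rw [mul_one, QuotientGroup.eq, mul_one, inv_mem_iff] at h3
    exact h3
  obtain ⟨hinj, -, hcard⟩ := simple_card_range hs ρ g0 hg0'
  have htr : MulAction.IsPretransitive ρ.range (Fin n) := by
    refine ⟨fun i j => ?_⟩
    obtain ⟨g, hg⟩ := MulAction.exists_smul_eq G (e.symm i) (e.symm j)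
    refine ⟨⟨ρ g, ⟨g, rfl⟩⟩, ?_⟩
    show ρ g i = j
    rw [hρ, hg, Equiv.apply_symm_apply]
  refine ⟨ρ, hinj, htr, fun i => ?_⟩
  have h1 := MulAction.index_stabilizer ρ.range i
  rw [MulAction.orbit_eq_univ, Set.ncard_univ, Nat.card_fin] at h1
  have h2 := Subgroup.index_mul_card (MulAction.stabilizer ρ.range i)
  rw [h1, hcard, hN] at h2
  exact Nat.eq_of_mul_eq_mul_left (by omega) h2

end Cfsg.Agent.Lib.Helper39.Ord
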