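import Cfsg.Agent.Lib.Helper39.ONOrd
import Cfsg.Agent.Lib.Helper39.SubGen
import Cfsg.Agent.Lib.Helper39.ONSubData

/-!
A base for the presented O'Nan group on the 122760 cosets of `⟨a, …, f⟩`: a product of words
fixing the three base points is trivial.
-/

set_option maxRecDepth 100000
set_option maxHeartbeats 0

namespace Cfsg.Agent.Lib.Helper39.ONSub

open Cfsg.Agent.Lib.Helper38 Cfsg.Agent.Lib.Helper39 Cfsg.Agent.Lib.Helper39.Ord
open Cfsg.Agent.Lib.Helper39.ONOrd

/-- the labelling of the cosets of `⟨a, …, f⟩` -/
noncomputable abbrev FG : ℕ → G ⧸ H := ONL.cert.F γ H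

/-- the base points with their orbit lengths -/
def chainG : List (ℕ × ℕ) := [(0, 122760), (12, 5586), (62767, 672)]

theorem hnL : ONL.cert.n = 122760 := by decide +kernel

theorem lvG0 : 122760 ≤ (MulAction.orbit (PSt G FG []) (FG 0)).ncard := by
  have h := top_orbit (G := G) hA.tact 0
  rw [hnL] at h
  exact h

theorem lvG1 : 5586 ≤ (MulAction.orbit (PSt G FG [0]) (FG 12)).ncard :=
  comp_card hA hO 12 (by decide +kernel) 3 (by decide +kernel) gc1 (by decide +kernel)
    (by decide +kernel)

theorem lvG2 : 672 ≤ (MulAction.orbit (PSt G FG [12, 0]) (FG 62767)).ncard :=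
  reach_tree hA.tact [12, 0] gw2 (by decide +kernel) 62767 (by decide +kernel) gt2
    (by decide +kernel) (by decide +kernel)

theorem chainG_ok : ChainF G FG [] chainG := by
  simp only [chainG, ChainF]
  exact ⟨lvG0, lvG1, lvG2, trivial⟩

theorem prodG : (chainG.map Prod.snd).prod = 460815505920 := by decide +kernel

theorem obG : Nat.card G = (chainG.map Prod.snd).prod ∧
    ∀ g : G, (∀ p ∈ chainG.map Prod.fst, g • FG p = FG p) → g = 1 :=
  order_baseF FG chainG chainG_ok (by rw [prodG, on_card])

/-- the product of the words (in reverse order) fixes the base points -/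
noncomputable def chkW (ws : List (List ℕ)) : Bool :=
  (chainG.map Prod.fst).all (fun p => fixR ONL.cert ws p)

/-- a product of words fixing the base points is trivial -/
theorem word_oneG (ws : List (List ℕ)) (h : chkW ws = true) :
    ((ws.reverse.flatten).map γ).prod = 1 := by
  apply obG.2
  intro p hp
  exact fixR_of hA.tact (List.all_eq_true.mp h p hp)

/-- the images of the generators of a subgroup: products of words -/
noncomputable def fW (W : List (List (List ℕ))) (s : ℕ) : G :=
  (((W.getD s []).flatten).map γ).prod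

/-- the check for a relator of a subgroup -/
noncomputable def chkRel (W : List (List (List ℕ))) (r : List ℕ) : Bool :=
  chkW ((r.flatMap (fun s => W.getD s [])).reverse)

theorem rel_one (W : List (List (List ℕ))) (r : List ℕ) (h : chkRel W r = true) :
    (r.map (fW W)).prod = 1 := by
  have e := prod_flatMap γ (fun s => W.getD s []) r
  have e2 := word_oneG _ h
  rw [e2] at e
  exact e

theorem fW_ge (W : List (List (List ℕ))) (s : ℕ) (h : W.length ≤ s) : fW W s = 1 := by
  unfold fW
  rw [List.getD_eq_default _ _ h]
  simp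

/-- a generator of a subgroup moving a class is not trivial -/
theorem fW_ne_one (W : List (List (List ℕ))) (s c : ℕ)
    (h : band (Nat.blt c ONL.cert.n) (band (Nat.blt (evR ONL.cert ((W.getD s []).reverse) c)
      ONL.cert.n) (!(Nat.beq (evR ONL.cert ((W.getD s []).reverse) c) c))) = true) :
    fW W s ≠ 1 := by
  rw [band_iff, band_iff, blt_iff, blt_iff] at h
  obtain ⟨h1, h2, h3⟩ := h
  rw [evR_eq, List.reverse_reverse] at h2 h3
  intro h1'
  have e := ev_smul hA.tact ((W.getD s []).flatten) c h1 h2
  have e' : fW W s • FG c = FG (ev ONL.cert ((W.getD s []).flatten) c) := e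
  rw [h1', one_smul] at e'
  have h4 := hA.tact.inj _ h1 _ h2 e'
  rw [← h4] at h3
  simp at h3

end Cfsg.Agent.Lib.Helper39.ONSub
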