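import Cfsg.Agent.Lib.Helper39.ONTD0

set_option maxRecDepth 100000
set_option maxHeartbeats 0

namespace Cfsg.Agent.Lib.Helper39.ONT
open Cfsg.Agent.Lib.Helper38

noncomputable def rTRoot : BT := .node 16 (rT0) (rT1)
noncomputable def nTRoot : BT := nT0

/-- the certificate -/
noncomputable def cert : Cert where
  g := 8
  m := 219
  n := 2
  R := 572
  fuel := 8
  nw := 27
  nrel := 19
  nsub := 27
  lg := 3
  lmask := 7
  rW := 351
  eW := 38
  mv := 255
  mr := 1023
  mw := 31
  mt := 31
  ml := 7
  oR := 8
  oK := 18
  oW := 20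
  oT := 25
  oU := 30
  oM := 304
  oMR := 312
  oMW := 322
  oMT := 327
  oMU := 332
  oP := 340
  oL := 348
  rows := rTRoot
  wW := 53
  wt := 5
  wl := 3
  WD := 0x1f880000000000d8400000000005a2000000000024100000000000d880000000000484000000000012200000000000010000006b1eb1a00000000000042000000000000100002596597a500000001f7df18000000003df4800000006baea6000000000f3c200000000069a12cb2cb2cb2cb20000000001df64000000000cf320000000005759000000008e38cc000000001d744000000000cb22000000000555100000000022888000000034d346
  lgN := 4
  lmaskN := 15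
  nW := 99
  wv := 8
  oCan := 64
  oPN := 72
  oLN := 80
  oComp := 83
  mc := 1
  oOP := 84
  oOW := 92
  oOD := 97
  md := 1
  oODir := 98
  ncomp := 2
  ROOTS := 0x100
  nrows := nTRoot

end Cfsg.Agent.Lib.Helper39.ONT
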