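import Mathlib

/-!
Piece OQ-ARITHPLUS (S5981, helper96): pure natural-number arithmetic.
-/

set_option autoImplicit false

namespace Cfsg.Agent.Lib.Helper39.Oq

theorem prod_fin_pow_sub_h39 (q n : ℕ) :
    ∏ i : Fin n, (q ^ n - q ^ (i : ℕ)) =
      q ^ (∑ i ∈ Finset.range n, i) * ∏ j ∈ Finset.range n, (q ^ (j + 1) - 1) := by
  rw [Fin.prod_univ_eq_prod_range (fun i => q ^ n - q ^ i) n]
  have h1 : ∏ i ∈ Finset.range n, (q ^ n - q ^ i) =
      ∏ i ∈ Finset.range n, (q ^ i * (q ^ (n - i) - 1)) := by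
    apply Finset.prod_congr rfl
    intro i hi
    have hi' : i < n := Finset.mem_range.mp hi
    rw [Nat.mul_sub, mul_one, ← pow_add]
    congr 2
    omega
  have h2 : ∏ i ∈ Finset.range n, (q ^ (n - i) - 1) =
      ∏ j ∈ Finset.range n, (q ^ (j + 1) - 1) := by
    rw [← Finset.prod_range_reflect (fun j => q ^ (j + 1) - 1) n]
    apply Finset.prod_congr rfl
    intro i hi
    have hi' : i < n := Finset.mem_range.mp hi
    show q ^ (n - i) - 1 = q ^ (n - 1 - i + 1) - 1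
    congr 2
    omega
  rw [h1, Finset.prod_mul_distrib, Finset.prod_pow_eq_pow_sum, h2]

theorem prod_range_two_mul_h39 (f : ℕ → ℕ) (m : ℕ) :
    ∏ j ∈ Finset.range (2 * m), f j =
      (∏ k ∈ Finset.range m, f (2 * k)) * ∏ k ∈ Finset.range m, f (2 * k + 1) := by
  induction m with
  | zero => simp
  | succ m ih =>
    rw [show 2 * (m + 1) = 2 * m + 1 + 1 by ring, Finset.prod_range_succ,
      Finset.prod_range_succ, ih, Finset.prod_range_succ, Finset.prod_range_succ]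
    ring

theorem pow_two_mul_sub_one_h39 (q m : ℕ) (hq : 1 ≤ q) :
    q ^ (2 * m) - 1 = (q ^ m - 1) * (q ^ m + 1) := by
  have h1 : 1 ≤ q ^ m := Nat.one_le_pow _ _ hq
  obtain ⟨a, ha⟩ : ∃ a, q ^ m = a + 1 := ⟨q ^ m - 1, by omega⟩
  rw [two_mul, pow_add, ha]
  apply Nat.sub_eq_of_eq_add
  rw [Nat.add_sub_cancel]
  ring

/-- The common factorisation: `∏_{i<2m} (q^(2m) - q^i)
 = q^N * D * (E * ((q^m - 1) * (q^m + 1)))`. -/
theorem prod_even_split_h39 (q m : ℕ) (hq : 1 ≤ q) (hm : 1 ≤ m) :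
    ∏ i : Fin (2 * m), (q ^ (2 * m) - q ^ (i : ℕ)) =
      q ^ (∑ i ∈ Finset.range (2 * m), i) *
        ((∏ k ∈ Finset.range m, (q ^ (2 * k + 1) - 1)) *
          ((∏ i ∈ Finset.range (m - 1), (q ^ (2 * (i + 1)) - 1)) *
            ((q ^ m - 1) * (q ^ m + 1)))) := by
  rw [prod_fin_pow_sub_h39, prod_range_two_mul_h39 (fun j => q ^ (j + 1) - 1) m]
  congr 2
  obtain ⟨m', rfl⟩ : ∃ m', m = m' + 1 := ⟨m - 1, by omega⟩
  rw [Finset.prod_range_succ, Nat.add_sub_cancel, ← pow_two_mul_sub_one_h39 q (m' + 1) hq]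
  rfl

-- PIECE ARITHPLUS
theorem arith_plus (q r m R t O S : ℕ) (hq : 2 ≤ q) (hm : 1 ≤ m) (hr : r.Prime) (hrq : ¬ r ∣ q)
    (hO : O = 2 * q ^ (m * (m - 1)) * (q ^ m - 1) *
      ∏ i ∈ Finset.range (m - 1), (q ^ (2 * (i + 1)) - 1))
    (hS : S * (q - 1) = ∏ i : Fin (2 * m), (q ^ (2 * m) - q ^ (i : ℕ)))
    (hidx : R * t * O = 2 * S) (hR : r ∣ R) :
    (∃ j, Odd j ∧ r ∣ q ^ j - 1) ∨ r ∣ q ^ m + 1 := by
  rw [prod_even_split_h39 q m (by omega) hm] at hS
  set N := ∑ i ∈ Finset.range (2 * m), i with hN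
  set D := ∏ k ∈ Finset.range m, (q ^ (2 * k + 1) - 1) with hD
  set E := ∏ i ∈ Finset.range (m - 1), (q ^ (2 * (i + 1)) - 1) with hE
  have hEpos : 0 < E := by
    apply Finset.prod_pos
    intro i _
    have : 1 < q ^ (2 * (i + 1)) := Nat.one_lt_pow (by omega) (by omega)
    omega
  have hqm : 0 < q ^ m - 1 := by
    have : 1 < q ^ m := Nat.one_lt_pow (by omega) (by omega)
    omega
  have hX : 0 < 2 * (q ^ m - 1) * E := by positivity
  have key : (R * (t * q ^ (m * (m - 1)) * (q - 1))) * (2 * (q ^ m - 1) * E) =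
      (q ^ N * (D * (q ^ m + 1))) * (2 * (q ^ m - 1) * E) := by
    have e1 : (R * (t * q ^ (m * (m - 1)) * (q - 1))) * (2 * (q ^ m - 1) * E) =
        (R * t * O) * (q - 1) := by
      rw [hO]; ring
    rw [e1, hidx, mul_assoc 2 S, hS]
    ring
  have key2 := Nat.eq_of_mul_eq_mul_right hX key
  have hdvd : r ∣ q ^ N * (D * (q ^ m + 1)) := by
    rw [← key2]
    exact Dvd.dvd.mul_right hR _
  rcases (Nat.Prime.dvd_mul hr).1 hdvd with h | h
  · exact absurd (hr.dvd_of_dvd_pow h) hrq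
  · rcases (Nat.Prime.dvd_mul hr).1 h with h | h
    · left
      obtain ⟨k, -, hk⟩ := (Prime.dvd_finsetProd_iff hr.prime _).1 h
      exact ⟨2 * k + 1, ⟨k, rfl⟩, hk⟩
    · right
      exact h

end Cfsg.Agent.Lib.Helper39.Oq
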