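import Mathlib
import Cfsg.Agent.Lib.Helper72.PQDefs
import Cfsg.Agent.S3765

/-!
# S4306 piece PQ-HHF (helper39, for helper72): the Hall–Higman step via S3765.
-/

set_option autoImplicit false

namespace Cfsg.Agent.Lib.Helper39.PQ

open Cfsg.Agent.Lib.Helper72.PQ

universe u

/-- In a subgroup of prime order, a nontrivial element generates. -/
theorem hhf_mem_zpowers {Γ : Type u} [Group Γ] {p : ℕ} (hp : p.Prime) (F : Subgroup Γ)
    (hF : Nat.card F = p) (g : Γ) (hg : g ∈ F) (hg1 : g ≠ 1) (x : Γ) (hx : x ∈ F) :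
    x ∈ Subgroup.zpowers g := by
  haveI : Fact p.Prime := ⟨hp⟩
  have h := mem_zpowers_of_prime_card (G := F) (h := hF) (g := ⟨g, hg⟩) (g' := ⟨x, hx⟩)
    (by intro h; apply hg1; exact congrArg Subtype.val h)
  obtain ⟨k, hk⟩ := Subgroup.mem_zpowers_iff.1 h
  refine Subgroup.mem_zpowers_iff.2 ⟨k, ?_⟩
  have h3 := congrArg Subtype.val hk
  simpa using h3

/-- An element of a product `Q F` with `F ≤ N(Q)`. -/
theorem hhf_exists_mul {Γ : Type u} [Group Γ] {H N : Subgroup Γ}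
    (h : N ≤ Subgroup.normalizer (H : Set Γ)) {g : Γ}
    (hg : g ∈ H ⊔ N) : ∃ x ∈ H, ∃ y ∈ N, g = x * y := by
  have hg' : g ∈ ((H ⊔ N : Subgroup Γ) : Set Γ) := hg
  rw [Subgroup.coe_mul_of_right_le_normalizer_left _ _ h] at hg'
  obtain ⟨x, hx, y, hy, rfl⟩ := Set.mem_mul.mp hg'
  exact ⟨x, hx, y, hy, rfl⟩

theorem hhf (h1 : AStrStmt.{u}) (h2 : L3Stmt.{u}) : HHFStmt.{u} := by
  intro Γ _ _ p ℓ r q s A F V Q R tw hVF hFQ
  obtain ⟨a₀, ha₀, y₀, hy₀, hne⟩ := hFQ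
  have hp := tw.frob.hp
  have hFN_Q : F ≤ Subgroup.normalizer (Q : Set Γ) := le_trans tw.frob.hFA tw.hAQ
  have hFN_V : F ≤ Subgroup.normalizer (V : Set Γ) := le_trans tw.frob.hFA tw.hAV
  obtain ⟨hVexp, -⟩ := h2 Γ p ℓ r q s A F V Q R tw
  obtain ⟨-, -, -, hℓdvd⟩ := h1 Γ p ℓ A F tw.frob
  -- `F` does not centralise `V`
  have hFV : ¬ (∀ a ∈ F, ∀ v ∈ V, a * v = v * a) := by
    intro hcon
    apply tw.hV1
    rw [Subgroup.eq_bot_iff_forall]
    intro v hv
    exact hVF v hv (fun a ha => hcon a ha v hv)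
  have hgen : ∀ g ∈ F, g ≠ 1 → ∀ x ∈ F, x ∈ Subgroup.zpowers g :=
    fun g hg hg1 x hx => hhf_mem_zpowers hp F tw.frob.hF g hg hg1 x hx
  have hXfaith : F ⊓ Subgroup.centralizer (Q : Set Γ) = ⊥ := by
    rw [Subgroup.eq_bot_iff_forall]
    intro g hg
    by_contra hg1
    obtain ⟨hgF, hgC⟩ := Subgroup.mem_inf.1 hg
    apply hne
    have h3 : a₀ ∈ Subgroup.zpowers g := hgen g hgF hg1 a₀ ha₀
    have hzc : Subgroup.zpowers g ≤ Subgroup.centralizer (Q : Set Γ) := by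
      rw [Subgroup.zpowers_le]
      exact hgC
    have h4 := hzc h3
    rw [Subgroup.mem_centralizer_iff] at h4
    exact (h4 y₀ hy₀).symm
  have hV : Cfsg.IsElementaryAbelian r V :=
    ⟨⟨⟨fun a b => Subtype.ext (tw.hVc a.1 a.2 b.1 b.2)⟩⟩, hVexp⟩
  have hcop : (Nat.card Q).Coprime p := by
    haveI : Fact q.Prime := ⟨tw.hq⟩
    obtain ⟨m, hm⟩ := IsPGroup.iff_card.1 tw.hQq
    rw [hm]
    exact Nat.Coprime.pow_left m ((Nat.coprime_primes tw.hq hp).2 tw.hpq.symm)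
  have hfaith : (F ⊔ Q) ⊓ Subgroup.centralizer (V : Set Γ) = ⊥ := by
    rw [Subgroup.eq_bot_iff_forall]
    intro k hk
    obtain ⟨hkFQ, hkC⟩ := Subgroup.mem_inf.1 hk
    rw [sup_comm] at hkFQ
    obtain ⟨y, hy, f, hf, rfl⟩ := hhf_exists_mul hFN_Q hkFQ
    have hkC' := hkC
    rw [Subgroup.mem_centralizer_iff] at hkC'
    have hkN : y * f ∈ Subgroup.normalizer (Q : Set Γ) :=
      mul_mem (Subgroup.le_normalizer hy) (hFN_Q hf)
    -- `k` commutes with `Q`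
    have hkQ : ∀ y' ∈ Q, (y * f) * y' = y' * (y * f) := by
      intro y' hy'
      have hy'N : y' ∈ Subgroup.normalizer (V : Set Γ) := tw.hQV hy'
      have hcQ : (y * f) * y' * (y * f)⁻¹ * y'⁻¹ ∈ Q :=
        mul_mem ((Subgroup.mem_normalizer_iff.mp hkN y').mp hy') (inv_mem hy')
      have hcV : ∀ v ∈ V, ((y * f) * y' * (y * f)⁻¹ * y'⁻¹) * v =
          v * ((y * f) * y' * (y * f)⁻¹ * y'⁻¹) := by
        intro v hv
        have hv1 : y'⁻¹ * v * y' ∈ V := (Subgroup.mem_normalizer_iff''.mp hy'N v).mp hv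
        have e1 : Commute (y * f) (y'⁻¹ * v * y') := (hkC' _ hv1).symm
        have e2 : (y * f) * v = v * (y * f) := (hkC' v hv).symm
        have e1' : (y * f)⁻¹ * (y'⁻¹ * v * y') = (y'⁻¹ * v * y') * (y * f)⁻¹ := e1.inv_left.eq
        calc ((y * f) * y' * (y * f)⁻¹ * y'⁻¹) * v
            = (y * f) * y' * ((y * f)⁻¹ * (y'⁻¹ * v * y')) * y'⁻¹ := by group
          _ = (y * f) * y' * ((y'⁻¹ * v * y') * (y * f)⁻¹) * y'⁻¹ := by rw [e1']
          _ = ((y * f) * v) * y' * (y * f)⁻¹ * y'⁻¹ := by group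
          _ = (v * (y * f)) * y' * (y * f)⁻¹ * y'⁻¹ := by rw [e2]
          _ = v * ((y * f) * y' * (y * f)⁻¹ * y'⁻¹) := by group
      have hc1 := tw.hE2' _ hcQ hcV
      have hc2 : (y * f) * y' * (y * f)⁻¹ = y' := mul_inv_eq_one.1 hc1
      exact mul_inv_eq_iff_eq_mul.1 hc2
    have hyf : Commute y f := by
      have h3 := hkQ y hy
      have h4 : y * (f * y) = y * (y * f) := by rw [← mul_assoc, h3]
      exact (mul_left_cancel h4).symm
    have hyn : y ^ Nat.card Q = 1 := by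
      have h3 : (⟨y, hy⟩ : Q) ^ Nat.card Q = 1 := pow_card_eq_one'
      have h4 : (((⟨y, hy⟩ : Q) ^ Nat.card Q : Q) : Γ) = ((1 : Q) : Γ) := congrArg Subtype.val h3
      rw [Subgroup.coe_pow, Subgroup.coe_one] at h4
      exact h4
    have hkn : (y * f) ^ Nat.card Q = f ^ Nat.card Q := by
      rw [hyf.mul_pow, hyn, one_mul]
    have hfnC : f ^ Nat.card Q ∈ Subgroup.centralizer (V : Set Γ) := by
      rw [← hkn]
      exact pow_mem hkC _
    have hfn1 : f ^ Nat.card Q = 1 := by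
      by_contra hne1
      apply hFV
      intro a ha v hv
      have h3 : a ∈ Subgroup.zpowers (f ^ Nat.card Q) := hgen _ (pow_mem hf _) hne1 a ha
      have hzc : Subgroup.zpowers (f ^ Nat.card Q) ≤ Subgroup.centralizer (V : Set Γ) := by
        rw [Subgroup.zpowers_le]
        exact hfnC
      have h4 := hzc h3
      rw [Subgroup.mem_centralizer_iff] at h4
      exact (h4 v hv).symm
    have hf1 : f = 1 := by
      have h3 : orderOf f ∣ Nat.card Q := orderOf_dvd_of_pow_eq_one hfn1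
      have h4 : orderOf f ∣ p := by
        have h5 := Subgroup.orderOf_dvd_natCard F hf
        rwa [tw.frob.hF] at h5
      have h6 : orderOf f ∣ 1 := by
        have h7 := Nat.dvd_gcd h3 h4
        rwa [hcop] at h7
      exact orderOf_eq_one_iff.1 (Nat.dvd_one.1 h6)
    subst hf1
    rw [mul_one] at hkC' ⊢
    exact tw.hE2' y hy (fun v hv => (hkC' v hv).symm)
  have hexc : q = 2 → (∃ n : ℕ, p = 2 ^ n + 1) → IsMulCommutative Q := by
    rintro hq2 ⟨n, hn⟩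
    exfalso
    have h3 : ℓ ∣ 2 ^ n := by
      rw [hn] at hℓdvd
      simpa using hℓdvd
    have h4 := (Nat.prime_dvd_prime_iff_eq tw.frob.hℓ Nat.prime_two).1
      (tw.frob.hℓ.dvd_of_dvd_pow h3)
    exact tw.hℓq (by rw [h4, hq2])
  have hres := Cfsg.Agent.S3765.result (G := Γ) (p := r) (q := q) (r := p) tw.hr tw.hq hp
    tw.hqr.symm tw.hpr.symm tw.hpq.symm F Q V tw.frob.hF tw.hQq hFN_Q hXfaith hV tw.hV1 hFN_V
    tw.hQV hfaith hexc
  apply hres
  rw [Subgroup.eq_bot_iff_forall]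
  intro v hv
  obtain ⟨hvV, hvC⟩ := Subgroup.mem_inf.1 hv
  refine hVF v hvV (fun a ha => ?_)
  rw [Subgroup.mem_centralizer_iff] at hvC
  exact hvC a ha

end Cfsg.Agent.Lib.Helper39.PQ
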