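import Mathlib
import Cfsg.Prelude.Def_Classical

/-! Project PE (S5988, helper96), piece SIEGGL (helper39): the Siegel element
`fromBlocks 1 S 0 1` (`S` alternating) preserves `quadFormPlus` in any characteristic. -/

set_option autoImplicit false
set_option linter.unusedSectionVars false
set_option linter.unusedVariables false

namespace Cfsg.Agent.Lib.Helper39.Pe

universe u

open Module Matrix
open scoped MatrixGroups

variable {F : Type u} [Field F] [Fintype F]

theorem sieggl_alt_zero (d : ℕ) (S : Matrix (Fin d) (Fin d) F) (hS0 : ∀ a, S a a = 0)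
    (hSt : S.transpose = -S) (w : Fin d → F) : ∑ i, ∑ j, S i j * w j * w i = 0 := by
  have hji : ∀ i j, S j i = - S i j := by
    intro i j
    have := congrFun (congrFun hSt i) j
    simpa [Matrix.transpose_apply] using this
  have hST : ∀ i j, S i j = (if i < j then S i j else 0) - (if j < i then S j i else 0) := by
    intro i j
    rcases lt_trichotomy i j with h | h | h
    · rw [if_pos h, if_neg (not_lt.mpr h.le), sub_zero]
    · subst h
      simp [hS0]
    · rw [if_neg (not_lt.mpr h.le), if_pos h, hji i j]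
      simp
  have h1 : ∑ i, ∑ j, S i j * w j * w i
      = ∑ i, ∑ j, (if i < j then S i j else 0) * w j * w i
        - ∑ i, ∑ j, (if j < i then S j i else 0) * w j * w i := by
    rw [← Finset.sum_sub_distrib]
    refine Finset.sum_congr rfl (fun i _ => ?_)
    rw [← Finset.sum_sub_distrib]
    refine Finset.sum_congr rfl (fun j _ => ?_)
    rw [← sub_mul, ← sub_mul, ← hST i j]
  rw [h1, sub_eq_zero, Finset.sum_comm]
  refine Finset.sum_congr rfl (fun i _ => Finset.sum_congr rfl (fun j _ => by ring))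

theorem sieggl_inl (d : ℕ) (S : Matrix (Fin d) (Fin d) F) (v : Fin d ⊕ Fin d → F) (i : Fin d) :
    ((Matrix.fromBlocks 1 S 0 1 : Matrix (Fin d ⊕ Fin d) (Fin d ⊕ Fin d) F) *ᵥ v) (Sum.inl i)
      = v (Sum.inl i) + ∑ j, S i j * v (Sum.inr j) := by
  simp [Matrix.mulVec, dotProduct, Fintype.sum_sum_type, Matrix.one_apply]

theorem sieggl_inr (d : ℕ) (S : Matrix (Fin d) (Fin d) F) (v : Fin d ⊕ Fin d → F) (i : Fin d) :
    ((Matrix.fromBlocks 1 S 0 1 : Matrix (Fin d ⊕ Fin d) (Fin d ⊕ Fin d) F) *ᵥ v) (Sum.inr i)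
      = v (Sum.inr i) := by
  simp [Matrix.mulVec, dotProduct, Fintype.sum_sum_type, Matrix.one_apply]

-- PIECE SIEGGL
theorem siegel_gl (d : ℕ) (S : Matrix (Fin d) (Fin d) F) (hS0 : ∀ a, S a a = 0)
    (hSt : S.transpose = -S) :
    ∃ x : GL (Fin d ⊕ Fin d) F,
      (x : Matrix (Fin d ⊕ Fin d) (Fin d ⊕ Fin d) F) = Matrix.fromBlocks 1 S 0 1 ∧
      (∀ v, Cfsg.quadFormPlus d F ((x : Matrix (Fin d ⊕ Fin d) (Fin d ⊕ Fin d) F) *ᵥ v)
        = Cfsg.quadFormPlus d F v) ∧
      ∀ n : ℕ, ((x ^ n : GL (Fin d ⊕ Fin d) F) : Matrix (Fin d ⊕ Fin d) (Fin d ⊕ Fin d) F)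
        = Matrix.fromBlocks 1 (n • S) 0 1 := by
  have hmul : ∀ A B : Matrix (Fin d) (Fin d) F,
      (Matrix.fromBlocks 1 A 0 1 : Matrix (Fin d ⊕ Fin d) (Fin d ⊕ Fin d) F)
        * Matrix.fromBlocks 1 B 0 1 = Matrix.fromBlocks 1 (A + B) 0 1 := by
    intro A B
    rw [Matrix.fromBlocks_multiply]
    simp [add_comm]
  have hone : (Matrix.fromBlocks 1 (0 : Matrix (Fin d) (Fin d) F) 0 1
      : Matrix (Fin d ⊕ Fin d) (Fin d ⊕ Fin d) F) = 1 := Matrix.fromBlocks_one
  refine ⟨⟨Matrix.fromBlocks 1 S 0 1, Matrix.fromBlocks 1 (-S) 0 1, ?_, ?_⟩, rfl, ?_, ?_⟩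
  · rw [hmul, add_neg_cancel, hone]
  · rw [hmul, neg_add_cancel, hone]
  · intro v
    show Cfsg.quadFormPlus d F
      ((Matrix.fromBlocks 1 S 0 1 : Matrix (Fin d ⊕ Fin d) (Fin d ⊕ Fin d) F) *ᵥ v) = _
    unfold Cfsg.quadFormPlus
    simp_rw [sieggl_inl, sieggl_inr, add_mul, Finset.sum_add_distrib, Finset.sum_mul]
    rw [sieggl_alt_zero d S hS0 hSt (fun j => v (Sum.inr j)), add_zero]
  · intro n
    induction n with
    | zero => simp [hone]
    | succ n ih =>
      rw [pow_succ, Units.val_mul, ih]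
      show (Matrix.fromBlocks 1 (n • S) 0 1 : Matrix (Fin d ⊕ Fin d) (Fin d ⊕ Fin d) F)
        * Matrix.fromBlocks 1 S 0 1 = _
      rw [hmul, succ_nsmul]

end Cfsg.Agent.Lib.Helper39.Pe
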