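import Mathlib
import Cfsg.Prelude.Def_Classical

/-! Project PE (S5988, helper96), piece SIEGS (helper39): an alternating `d × d` matrix `S ≠ 0`
whose kernel is at most a line. -/

set_option autoImplicit false
set_option linter.unusedSectionVars false
set_option linter.unusedVariables false

namespace Cfsg.Agent.Lib.Helper39.Pe

universe u

open Module Matrix
open scoped MatrixGroups

variable {F : Type u} [Field F] [Fintype F]

/-- the block matrix `[[0,1],[-1,0]] ⊕ ... ` -/
def siegsMat (F : Type u) [Field F] (d : ℕ) : Matrix (Fin d) (Fin d) F :=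
  fun a b => if a.val + 1 = b.val ∧ Even a.val then 1
    else if b.val + 1 = a.val ∧ Even b.val then -1 else 0

theorem siegs_row_even (d : ℕ) (f : Fin d → F) (a x : Fin d) (hax : a.val + 1 = x.val)
    (ha : Even a.val) : (siegsMat F d *ᵥ f) a = f x := by
  rw [Matrix.mulVec, dotProduct, Finset.sum_eq_single x]
  · simp [siegsMat, hax, ha]
  · intro b _ hb
    have hb' : ¬ (a.val + 1 = b.val) := fun h => hb (Fin.ext (by omega))
    have hb2 : ¬ (b.val + 1 = a.val ∧ Even b.val) := by
      rintro ⟨h1, h2⟩
      have : ¬ Even (b.val + 1) := by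
        rw [Nat.even_add_one]; exact not_not.mpr h2
      exact this (h1 ▸ ha)
    simp [siegsMat, hb', hb2]
  · intro h; exact absurd (Finset.mem_univ x) h

theorem siegs_row_odd (d : ℕ) (f : Fin d → F) (a x : Fin d) (hax : x.val + 1 = a.val)
    (hx : Even x.val) : (siegsMat F d *ᵥ f) a = - f x := by
  have hao : ¬ Even a.val := by
    rw [← hax, Nat.even_add_one]; exact not_not.mpr hx
  rw [Matrix.mulVec, dotProduct, Finset.sum_eq_single x]
  · simp [siegsMat, hax, hx, hao]
  · intro b _ hb
    have hb' : ¬ (b.val + 1 = a.val ∧ Even b.val) := fun h => hb (Fin.ext (by omega))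
    have hb2 : ¬ (a.val + 1 = b.val ∧ Even a.val) := fun h => hao h.2
    simp [siegsMat, hb', hb2]
  · intro h; exact absurd (Finset.mem_univ x) h

-- PIECE SIEGS
theorem exists_alt_corank (d : ℕ) (hd : 2 ≤ d) :
    ∃ (S : Matrix (Fin d) (Fin d) F) (f₀ : Fin d → F), (∀ a, S a a = 0) ∧ S.transpose = -S ∧
      S ≠ 0 ∧ ∀ f : Fin d → F, S *ᵥ f = 0 → ∃ c : F, f = c • f₀ := by
  refine ⟨siegsMat F d, fun a => if a.val + 1 = d ∧ Even a.val then 1 else 0, ?_, ?_, ?_, ?_⟩
  · intro a
    simp [siegsMat]
  · ext a b
    simp only [Matrix.transpose_apply, Matrix.neg_apply, siegsMat]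
    by_cases h1 : b.val + 1 = a.val ∧ Even b.val
    · have h2 : ¬ (a.val + 1 = b.val ∧ Even a.val) := by
        rintro ⟨h, -⟩
        omega
      rw [if_pos h1, if_neg h2, if_pos h1, neg_neg]
    · by_cases h2 : a.val + 1 = b.val ∧ Even a.val
      · rw [if_neg h1, if_pos h2, if_pos h2]
      · rw [if_neg h1, if_neg h2, if_neg h2, if_neg h1, neg_zero]
  · intro h
    have h01 : siegsMat F d ⟨0, by omega⟩ ⟨1, by omega⟩ = 1 := by
      simp [siegsMat]
    rw [h] at h01
    simp at h01
  · intro f hf
    have hzero : ∀ x : Fin d, ¬ (x.val + 1 = d ∧ Even x.val) → f x = 0 := by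
      intro x hx
      by_cases hxe : Even x.val
      · have hlt : x.val + 1 < d := by
          have := x.isLt
          have h1 : x.val + 1 ≠ d := fun h => hx ⟨h, hxe⟩
          omega
        have h := siegs_row_odd d f ⟨x.val + 1, hlt⟩ x rfl hxe
        rw [hf] at h
        simp only [Pi.zero_apply] at h
        exact neg_eq_zero.mp h.symm
      · have hpos : 1 ≤ x.val := by
          rcases Nat.eq_zero_or_pos x.val with h0 | h0
          · exact absurd (h0 ▸ Even.zero) hxe
          · exact h0
        have hlt : x.val - 1 < d := by have := x.isLt; omega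
        have hev : Even (x.val - 1) := by
          have h1 : x.val = (x.val - 1) + 1 := by omega
          by_contra hne
          apply hxe
          rw [h1, Nat.even_add_one]
          exact hne
        have h := siegs_row_even d f ⟨x.val - 1, hlt⟩ x (by simp; omega) hev
        rw [hf] at h
        simp only [Pi.zero_apply] at h
        exact h.symm
    refine ⟨f ⟨d - 1, by omega⟩, ?_⟩
    ext a
    simp only [Pi.smul_apply, smul_eq_mul]
    by_cases ha : a.val + 1 = d ∧ Even a.val
    · rw [if_pos ha, mul_one]
      congr 1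
      exact Fin.ext (by simp; omega)
    · rw [if_neg ha, mul_zero]
      exact hzero a ha

end Cfsg.Agent.Lib.Helper39.Pe
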