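import Cfsg.Agent.Lib.Helper96.PiDefs

/-!
Project PI (S5989, helper96), piece EXSPLIT: complete an invariant nondegenerate `WR` to a
member `WK ⊔ WR` isometric to `W₀`, with `WK` inside `K`.
-/

set_option autoImplicit false
set_option linter.unusedSectionVars false
set_option linter.unusedVariables false

namespace Cfsg.Agent.Lib.Helper39.Pi

open Module Cfsg.Agent.Lib.Helper96.Sp Cfsg.Agent.Lib.Helper96.Hy
  Cfsg.Agent.Lib.Helper96.Pi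

universe u

variable {F : Type u} [Field F] [Fintype F] {V : Type u} [AddCommGroup V] [Module F V]
  [FiniteDimensional F V] {B : LinearMap.BilinForm F V}

-- PIECE EXSPLIT
theorem exists_split (hS : B.IsSymm) (h2 : (2 : F) ≠ 0) (hN : ND B ⊤) (W₀ : Submodule F V)
    (hW₀ : ND B W₀)
    (hsum : ∀ X₁ Y₁ X₂ Y₂ : Submodule F V, ND B X₁ → ND B X₂ → Orth B X₁ Y₁ → Orth B X₂ Y₂ →
      Iso B X₁ X₂ → Iso B Y₁ Y₂ → Iso B (X₁ ⊔ Y₁) (X₂ ⊔ Y₂))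
    (K WR : Submodule F V) (hK : ND B K) (hWR : ND B WR) (hKR : Orth B K WR)
    (hlt : finrank F WR < finrank F W₀) (hroom : finrank F W₀ < finrank F K + finrank F WR) :
    ∃ WK : Submodule F V, WK ≤ K ∧ ND B (WK ⊔ WR) ∧
      finrank F (WK ⊔ WR : Submodule F V) = finrank F W₀ ∧ Iso B (WK ⊔ WR) W₀ := by
  obtain ⟨Q₁, hQ₁le, hQ₁, hQ₁fr, h₁, hh₁, hmap₁⟩ :=
    Cfsg.Agent.Lib.Helper98.O72.exists_copy hS h2 hN hWR hW₀ hlt
  obtain ⟨hX, hXsup, hXfr⟩ := Cfsg.Agent.Lib.Helper98.O72.nd_rel hS h2 hQ₁ hW₀ hQ₁le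
  have hltX : finrank F ↥(W₀ ⊓ B.orthogonal Q₁) < finrank F K := by omega
  obtain ⟨WK, hWKle, hWK, hWKfr, h₂, hh₂, hmap₂⟩ :=
    Cfsg.Agent.Lib.Helper98.O72.exists_copy hS h2 hN hX hK hltX
  have hOrth1 : Orth B WK WR := fun u hu v hv => hKR u (hWKle hu) v hv
  have hOrth2 : Orth B (W₀ ⊓ B.orthogonal Q₁) Q₁ := by
    intro u hu v hv
    exact (Cfsg.Agent.Lib.Helper98.O72.mem_perp_iff' hS h2).mp hu.2 v hv
  have hIso1 : Iso B WK (W₀ ⊓ B.orthogonal Q₁) := iso_symm (iso_of_map_eq h₂ hh₂ hmap₂)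
  have hIso2 : Iso B WR Q₁ := iso_of_map_eq h₁ hh₁ hmap₁
  have hI := hsum WK WR (W₀ ⊓ B.orthogonal Q₁) Q₁ hWK hX hOrth1 hOrth2 hIso1 hIso2
  rw [sup_comm (W₀ ⊓ B.orthogonal Q₁) Q₁, hXsup] at hI
  obtain ⟨hND, hfr⟩ := Cfsg.Agent.Lib.Helper98.O72.nd_sup hS h2 hWK hWR hOrth1
  refine ⟨WK, hWKle, hND, ?_, hI⟩
  rw [hfr]
  omega

end Cfsg.Agent.Lib.Helper39.Pi
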