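import Mathlib
set_option autoImplicit false
set_option linter.style.haveILetI false
set_option linter.unnecessarySeqFocus false
namespace Cfsg.Agent.S4274T
open Subgroup
open scoped Pointwise

/-- a prime power dividing 9240 is < 19 -/
theorem r2a_prime_pow_lt (r k : ℕ) (hr : r.Prime) (h : r ^ k ∣ 9240) : r ^ k < 19 := by
  rcases Nat.eq_zero_or_pos k with hk | hk
  · subst hk; norm_num
  · have hr9 : r ∣ 9240 := dvd_trans (dvd_pow_self r hk.ne') h
    have h9 : (9240 : ℕ) = 2 ^ 3 * 3 * 5 * 7 * 11 := by norm_num
    have hcases : r = 2 ∨ r = 3 ∨ r = 5 ∨ r = 7 ∨ r = 11 := by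
      rw [h9] at hr9
      rcases (Nat.Prime.dvd_mul hr).1 hr9 with h1 | h1
      · rcases (Nat.Prime.dvd_mul hr).1 h1 with h2 | h2
        · rcases (Nat.Prime.dvd_mul hr).1 h2 with h3 | h3
          · rcases (Nat.Prime.dvd_mul hr).1 h3 with h4 | h4
            · left; exact (Nat.prime_dvd_prime_iff_eq hr Nat.prime_two).1 (hr.dvd_of_dvd_pow h4)
            · right; left; exact (Nat.prime_dvd_prime_iff_eq hr Nat.prime_three).1 h4
          · right; right; left; exact (Nat.prime_dvd_prime_iff_eq hr Nat.prime_five).1 h3
        · right; right; right; left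
          exact (Nat.prime_dvd_prime_iff_eq hr (by norm_num)).1 h2
      · right; right; right; right
        exact (Nat.prime_dvd_prime_iff_eq hr (by norm_num)).1 h1
    rcases hcases with rfl | rfl | rfl | rfl | rfl
    · have hk4 : k < 4 := by
        by_contra hcon
        have : 2 ^ 4 ∣ 9240 := dvd_trans (pow_dvd_pow 2 (not_lt.1 hcon)) h
        norm_num at this
      interval_cases k <;> norm_num
    · have hk2 : k < 2 := by
        by_contra hcon
        have : 3 ^ 2 ∣ 9240 := dvd_trans (pow_dvd_pow 3 (not_lt.1 hcon)) h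
        norm_num at this
      interval_cases k <;> norm_num
    · have hk2 : k < 2 := by
        by_contra hcon
        have : 5 ^ 2 ∣ 9240 := dvd_trans (pow_dvd_pow 5 (not_lt.1 hcon)) h
        norm_num at this
      interval_cases k <;> norm_num
    · have hk2 : k < 2 := by
        by_contra hcon
        have : 7 ^ 2 ∣ 9240 := dvd_trans (pow_dvd_pow 7 (not_lt.1 hcon)) h
        norm_num at this
      interval_cases k <;> norm_num
    · have hk2 : k < 2 := by
        by_contra hcon
        have : 11 ^ 2 ∣ 9240 := dvd_trans (pow_dvd_pow 11 (not_lt.1 hcon)) h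
        norm_num at this
      interval_cases k <;> norm_num

theorem normal_of_coprime_split {H : Type*} [Group H] [Finite H] (N : Subgroup H) [N.Normal]
    (hN : Nat.card N ∣ 9240) (hH : Nat.card H = 19 * Nat.card N) (P : Sylow 19 H) :
    (P : Subgroup H).Normal := by
  haveI hp19 : Fact (Nat.Prime 19) := ⟨by norm_num⟩
  have hNpos : 0 < Nat.card N := Nat.card_pos
  have h19N : ¬ 19 ∣ Nat.card N := fun h => by
    have : 19 ∣ 9240 := dvd_trans h hN
    norm_num at this
  have hP : Nat.card (P : Subgroup H) = 19 := by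
    rw [Sylow.card_eq_multiplicity, hH, Nat.factorization_mul (by norm_num) hNpos.ne',
      Finsupp.add_apply, Nat.Prime.factorization_self hp19.out,
      Nat.factorization_eq_zero_of_not_dvd h19N]
    norm_num
  have hpow : ∀ x ∈ (P : Subgroup H), x ^ 19 = 1 := by
    intro x hx
    have h1 : (⟨x, hx⟩ : (P : Subgroup H)) ^ Nat.card (P : Subgroup H) = 1 := pow_card_eq_one'
    rw [hP] at h1
    exact congrArg Subtype.val h1
  have hcomm : ∀ a ∈ (P : Subgroup H), ∀ b ∈ (P : Subgroup H), a * b = b * a := by
    intro a ha b hb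
    haveI : IsCyclic (P : Subgroup H) := isCyclic_of_prime_card hP
    have := (IsCyclic.commGroup (α := (P : Subgroup H))).mul_comm ⟨a, ha⟩ ⟨b, hb⟩
    exact congrArg Subtype.val this
  set C := Subgroup.centralizer ((P : Subgroup H) : Set H) with hC
  have hPC : (P : Subgroup H) ≤ C := by
    intro a ha
    rw [hC, Subgroup.mem_centralizer_iff]
    intro b hb
    exact hcomm b hb a ha
  have h19C : 19 ∣ Nat.card C := by
    rw [← hP]; exact Subgroup.card_dvd_of_le hPC
  have hkey : ∀ r : ℕ, r.Prime → r ^ ((Nat.card N).factorization r) ∣ Nat.card C := by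
    intro r hr
    haveI : Fact r.Prime := ⟨hr⟩
    let f : H →* MulAut N := MulAut.conjNormal
    have hPf : IsPGroup 19 ((P : Subgroup H).map f) := P.2.map f
    have hnd : ¬ 19 ∣ Nat.card (Sylow r N) := by
      intro h
      have R0 : Sylow r N := default
      exact h19N (dvd_trans h (dvd_trans (Sylow.card_dvd_index R0) (Subgroup.index_dvd_card _)))
    obtain ⟨R, hR⟩ := IsPGroup.nonempty_fixed_point_of_prime_not_dvd_card hPf (Sylow r N) hnd
    have hRcard : Nat.card (R : Subgroup N) = r ^ ((Nat.card N).factorization r) :=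
      Sylow.card_eq_multiplicity R
    have hRlt : Nat.card (R : Subgroup N) < 19 := by
      rw [hRcard]
      apply r2a_prime_pow_lt r _ hr
      exact dvd_trans (Nat.ordProj_dvd _ _) hN
    have hinv : ∀ x ∈ (P : Subgroup H), ∀ m : N,
        f x m ∈ (R : Subgroup N) ↔ m ∈ (R : Subgroup N) := by
      intro x hx m
      have h1 : (⟨f x, Subgroup.mem_map_of_mem f hx⟩ : (P : Subgroup H).map f) • R = R := hR _
      have h2 : (f x) • (R : Subgroup N) = (R : Subgroup N) := by
        have := congrArg (fun S : Sylow r N => (S : Subgroup N)) h1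
        simpa [Sylow.pointwise_smul_def] using this
      conv_lhs => rw [← h2]
      exact Subgroup.smul_mem_pointwise_smul_iff
    have hcent : ∀ x ∈ (P : Subgroup H), ∀ m : N, m ∈ (R : Subgroup N) → f x m = m := by
      intro x hx m hm
      have hinv' : ∀ m : N, (MulAut.toPerm N (f x)) m ∈ (R : Subgroup N) ↔
          m ∈ (R : Subgroup N) := fun m => hinv x hx m
      let σ : Equiv.Perm (R : Subgroup N) := (MulAut.toPerm N (f x)).subtypePerm hinv'
      have hσ19 : σ ^ 19 = 1 := by
        have hf19 : (MulAut.toPerm N (f x)) ^ 19 = 1 := by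
          rw [← map_pow, ← map_pow, hpow x hx, map_one, map_one]
        show ((MulAut.toPerm N (f x)).subtypePerm hinv') ^ 19 = 1
        rw [Equiv.Perm.subtypePerm_pow]
        ext ⟨a, ha⟩
        have := congrArg (fun τ : Equiv.Perm N => τ a) hf19
        simpa [Equiv.Perm.subtypePerm_apply] using this
      have ho : orderOf σ ∣ 19 := orderOf_dvd_of_pow_eq_one hσ19
      have ho2 : orderOf σ ∣ (Nat.card (R : Subgroup N)).factorial := by
        rw [← Nat.card_perm]; exact orderOf_dvd_natCard σ
      have ho1 : orderOf σ = 1 := by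
        rcases (Nat.dvd_prime (by norm_num : Nat.Prime 19)).1 ho with h | h
        · exact h
        · exfalso
          rw [h] at ho2
          have := ((by norm_num : Nat.Prime 19).dvd_factorial).1 ho2
          omega
      have hσ1 : σ = 1 := orderOf_eq_one_iff.1 ho1
      have h3 : ((σ ⟨m, hm⟩ : (R : Subgroup N)) : N) = f x m := rfl
      rw [← h3, hσ1]
      rfl
    have hle : (R : Subgroup N).map N.subtype ≤ C := by
      rintro _ ⟨m, hm, rfl⟩
      rw [hC, Subgroup.mem_centralizer_iff]
      intro x hx
      have h1 := hcent x hx m hm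
      have h2 : x * (m : H) * x⁻¹ = (m : H) := by
        have := congrArg Subtype.val h1
        simpa [f, MulAut.conjNormal_apply] using this
      calc x * N.subtype m = x * (m : H) * x⁻¹ * x := by simp
        _ = N.subtype m * x := by rw [h2]; rfl
    rw [← hRcard, ← Subgroup.card_map_of_injective (Subgroup.subtype_injective N)]
    exact Subgroup.card_dvd_of_le hle
  have hNC : Nat.card N ∣ Nat.card C := by
    have hCpos : Nat.card C ≠ 0 := Nat.card_pos.ne'
    rw [← Nat.factorization_prime_le_iff_dvd hNpos.ne' hCpos]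
    intro r hr
    exact (hr.pow_dvd_iff_le_factorization hCpos).1 (hkey r hr)
  have hHC : Nat.card H ∣ Nat.card C := by
    rw [hH]
    exact Nat.Coprime.mul_dvd_of_dvd_of_dvd
      ((Nat.Prime.coprime_iff_not_dvd (by norm_num)).2 h19N) h19C hNC
  have hCtop : C = ⊤ := Subgroup.eq_top_of_le_card C (Nat.le_of_dvd Nat.card_pos hHC)
  constructor
  intro n hn g
  have hg : g ∈ C := by rw [hCtop]; exact Subgroup.mem_top g
  rw [hC, Subgroup.mem_centralizer_iff] at hg
  have h1 := hg n hn
  have h2 : g * n * g⁻¹ = n := by rw [← h1]; group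
  rw [h2]; exact hn

end Cfsg.Agent.S4274T
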