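import Mathlib
import Cfsg.Prelude.Def_GeometricClasses
import Cfsg.Prelude.Def_LieClassical
import Cfsg.Agent.Lib.Helper71.Asch0
import Cfsg.Agent.Lib.Helper71.Asch8
import Cfsg.Agent.Lib.Helper1.SP8EADefs

/-! Project SPG (helper71), S5823, sub-project SP8-EA (architect helper1), piece EA4c (helper39):
the form in the coordinates of the tensor cube. -/

set_option autoImplicit false
set_option linter.unusedSectionVars false

namespace Cfsg.Agent.Lib.Helper39.SP8EA4c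

open Matrix Cfsg.Geo Cfsg.Agent.Lib.Helper71.Asch Cfsg.Agent.Lib.Helper1.SP8EADefs
open scoped Kronecker

variable {n : ℕ} {F : Type*} [Field F] [Fintype F]

theorem ea4c_sum_eq {I : Type*} [Fintype I] (M : Matrix I I F) (x y : I → F) :
    ∑ a, ∑ b, x a * M a b * y b = x ⬝ᵥ M *ᵥ y := by
  simp only [dotProduct, Matrix.mulVec, Finset.mul_sum]
  refine Finset.sum_congr rfl fun a _ => Finset.sum_congr rfl fun b _ => by ring

theorem ea4c_conj {I J : Type*} [Fintype I] [Fintype J] (T : Matrix I J F) (M : Matrix I I F)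
    (x y : J → F) : (T *ᵥ x) ⬝ᵥ M *ᵥ (T *ᵥ y) = x ⬝ᵥ (Tᵀ * M * T) *ᵥ y := by
  rw [← Matrix.vecMul_transpose T x, ← Matrix.dotProduct_mulVec, Matrix.mulVec_mulVec,
    Matrix.mulVec_mulVec, Matrix.mul_assoc]

theorem ea4c_ite (i₀ : Fin 2) (h : Fin 4 → F) (k : Fin 2 × Fin 4 → F) :
    ∑ p : Fin 2 × Fin 4, (if p.1 = i₀ then h p.2 else 0) * k p = ∑ j, h j * k (i₀, j) := by
  rw [Fintype.sum_prod_type, Finset.sum_eq_single i₀]
  · simp
  · intro i _ hi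
    simp [hi]
  · intro h'
    exact absurd (Finset.mem_univ _) h'

theorem ea4c_entry (G₁ : Matrix (Fin 2) (Fin 2) F) (G₂ : Matrix (Fin 4) (Fin 4) F)
    (S : Matrix (Fin 4) (Fin 2 → Fin 2) F) (a b : Fin 3 → Fin 2) :
    ((T3 S)ᵀ * (G₁ ⊗ₖ G₂) * T3 S) a b =
      G₁ (a 0) (b 0) * (Sᵀ * G₂ * S) ![a 1, a 2] ![b 1, b 2] := by
  have h1 : ∀ p' : Fin 2 × Fin 4, ((T3 S)ᵀ * (G₁ ⊗ₖ G₂)) a p' =
      ∑ j, S j ![a 1, a 2] * (G₁ (a 0) p'.1 * G₂ j p'.2) := by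
    intro p'
    rw [Matrix.mul_apply]
    simp only [Matrix.transpose_apply, T3, Matrix.of_apply, Matrix.kroneckerMap_apply]
    exact ea4c_ite (a 0) (fun j => S j ![a 1, a 2]) (fun p => G₁ p.1 p'.1 * G₂ p.2 p'.2)
  rw [Matrix.mul_apply]
  simp only [h1]
  have h2 : ∀ p' : Fin 2 × Fin 4,
      (∑ j, S j ![a 1, a 2] * (G₁ (a 0) p'.1 * G₂ j p'.2)) * T3 S p' b =
      (if p'.1 = b 0 then S p'.2 ![b 1, b 2] else 0) *
        (∑ j, S j ![a 1, a 2] * (G₁ (a 0) p'.1 * G₂ j p'.2)) := by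
    intro p'
    rw [mul_comm]
    rfl
  simp only [h2]
  rw [ea4c_ite (b 0) (fun j' => S j' ![b 1, b 2])
    (fun p' => ∑ j, S j ![a 1, a 2] * (G₁ (a 0) p'.1 * G₂ j p'.2))]
  simp only [Matrix.mul_apply, Matrix.transpose_apply, Finset.mul_sum, Finset.sum_mul]
  refine Finset.sum_congr rfl (fun j' _ => Finset.sum_congr rfl (fun j _ => by ring))

/-- EA4c: the form in the coordinates of the tensor cube. -/
theorem EA4c (f : (Fin n → F) → (Fin n → F) → F) (e : Fin n ≃ Fin 2 × Fin 4) (P : GL (Fin n) F)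
    (f₁ : (Fin 2 → F) → (Fin 2 → F) → F) (f₂ : (Fin 4 → F) → (Fin 4 → F) → F)
    (h1 : IsSymplecticForm f₁) (h2 : IsSymmetricForm f₂)
    (ht : IsTensorFormStructure id f f₁ f₂ e P)
    (S : Matrix (Fin 4) (Fin 2 → Fin 2) F)
    (hS : Sᵀ * gramMatrix f₂ * S = (K22 : Matrix (Fin 2 → Fin 2) (Fin 2 → Fin 2) F)) :
    ∃ c' : F, c' ≠ 0 ∧ ∀ x y : (Fin 3 → Fin 2) → F,
      f (P3 e P S *ᵥ x) (P3 e P S *ᵥ y) =
        ∑ a, ∑ b, x a * (c' * ∏ i, (J2 : Matrix (Fin 2) (Fin 2) F) (a i) (b i)) * y b := by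
  obtain ⟨c, hc, hf⟩ := ht
  have e00 : gramMatrix f₁ 0 0 = 0 := h1.alternating _
  have e11 : gramMatrix f₁ 1 1 = 0 := h1.alternating _
  have e10 : gramMatrix f₁ 1 0 = - gramMatrix f₁ 0 1 := h1.skew _ _
  have hG : ∀ i j : Fin 2, gramMatrix f₁ i j =
      gramMatrix f₁ 0 1 * (J2 : Matrix (Fin 2) (Fin 2) F) i j := by
    intro i j
    fin_cases i <;> fin_cases j <;> simp [J2, e00, e11, e10]
  have hl : gramMatrix f₁ 0 1 ≠ 0 := by
    intro hl0
    have hne : (Pi.single 0 1 : Fin 2 → F) ≠ 0 := by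
      intro h
      have h' := congrFun h 0
      simp at h'
    obtain ⟨⟨x, hx⟩, -⟩ := h1.nondegenerate (Pi.single 0 1) hne
    apply hx
    have hxe : x = x 0 • (Pi.single 0 1 : Fin 2 → F) + x 1 • (Pi.single 1 1 : Fin 2 → F) := by
      funext i
      fin_cases i <;> simp
    have e00' : f₁ (Pi.single 0 1) (Pi.single 0 1) = 0 := h1.alternating _
    have e10' : f₁ (Pi.single 1 1) (Pi.single 0 1) = 0 := by
      have h := e10
      rw [hl0, neg_zero] at h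
      exact h
    rw [hxe, h1.bilinear.add_left, h1.bilinear.smul_left, h1.bilinear.smul_left, e00', e10',
      mul_zero, mul_zero, add_zero]
  refine ⟨c * gramMatrix f₁ 0 1, mul_ne_zero hc hl, fun x y => ?_⟩
  have hP : ∀ x : (Fin 3 → Fin 2) → F, P3 e P S *ᵥ x = P.1 *ᵥ ((T3 S *ᵥ x) ∘ e) := by
    intro x
    unfold P3
    rw [← Matrix.mulVec_mulVec, Matrix.submatrix_mulVec_equiv]
    simp only [Equiv.symm_symm, Function.comp_id]
  have key : formOfGram id (gramMatrix f₁ ⊗ₖ gramMatrix f₂) (T3 S *ᵥ x) (T3 S *ᵥ y) =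
      ∑ a, ∑ b, x a * ((T3 S)ᵀ * (gramMatrix f₁ ⊗ₖ gramMatrix f₂) * T3 S) a b * y b := by
    unfold formOfGram
    simp only [id_eq]
    rw [ea4c_sum_eq (gramMatrix f₁ ⊗ₖ gramMatrix f₂) (T3 S *ᵥ x) (T3 S *ᵥ y), ea4c_conj,
      ← ea4c_sum_eq]
  rw [hP x, hP y, hf, key, Finset.mul_sum]
  refine Finset.sum_congr rfl (fun a _ => ?_)
  rw [Finset.mul_sum]
  refine Finset.sum_congr rfl (fun b _ => ?_)
  have hK : (K22 : Matrix (Fin 2 → Fin 2) (Fin 2 → Fin 2) F) ![a 1, a 2] ![b 1, b 2] =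
      (J2 : Matrix (Fin 2) (Fin 2) F) (a 1) (b 1) * (J2 : Matrix (Fin 2) (Fin 2) F) (a 2) (b 2) := by
    unfold K22
    rw [pt_apply, Fin.prod_univ_two]
    rfl
  rw [ea4c_entry, hS, hG (a 0) (b 0), hK, Fin.prod_univ_three]
  ring

end Cfsg.Agent.Lib.Helper39.SP8EA4c
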