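import Mathlib
import Cfsg.Agent.Lib.Helper52.SP8EBDefs

/-! SP8-EB (sub-project of S5823, helper52), piece NRMS (helper39, insurance copy):
conjugation by the standard tensor-wreath group preserves pure tensors of quaternion elements. -/

set_option autoImplicit false
set_option linter.unusedSectionVars false

namespace Cfsg.Agent.Lib.Helper52.SP8EB

open Matrix Cfsg.Geo Cfsg.Agent.Lib.Helper71.Asch

variable {n : ℕ} {F : Type*} [Field F] [Fintype F]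

/-- the induction predicate: conjugation by `s` and by `s⁻¹` preserves pure tensors of `Q` -/
def nrms_Pr (s : GL (Fin 3 → Fin 2) F) : Prop :=
  (∀ cs : Fin 3 → Matrix (Fin 2) (Fin 2) F, (∀ i, IsQ (cs i)) →
    ∃ cs' : Fin 3 → Matrix (Fin 2) (Fin 2) F, (∀ i, IsQ (cs' i)) ∧
      s.1 * pt cs * (s⁻¹ : GL (Fin 3 → Fin 2) F).1 = pt cs') ∧
  (∀ cs : Fin 3 → Matrix (Fin 2) (Fin 2) F, (∀ i, IsQ (cs i)) →
    ∃ cs' : Fin 3 → Matrix (Fin 2) (Fin 2) F, (∀ i, IsQ (cs' i)) ∧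
      (s⁻¹ : GL (Fin 3 → Fin 2) F).1 * pt cs * s.1 = pt cs')

/-- the inverse of a unit is determined by a right inverse of its matrix -/
theorem nrms_inv_eq (s : GL (Fin 3 → Fin 2) F)
    (X : Matrix (Fin 3 → Fin 2) (Fin 3 → Fin 2) F) (h : s.1 * X = 1) :
    (s⁻¹ : GL (Fin 3 → Fin 2) F).1 = X := by
  calc (s⁻¹ : GL (Fin 3 → Fin 2) F).1 = (s⁻¹ : GL (Fin 3 → Fin 2) F).1 * (s.1 * X) := by
        rw [h, mul_one]
    _ = ((s⁻¹ : GL (Fin 3 → Fin 2) F).1 * s.1) * X := by rw [mul_assoc]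
    _ = X := by rw [← Units.val_mul, inv_mul_cancel, Units.val_one, one_mul]

theorem nrms_pure (h1 : HQconj F) (s : GL (Fin 3 → Fin 2) F) (hs : IsPureTensor 2 3 s) :
    nrms_Pr s := by
  obtain ⟨gs, hgs⟩ := hs
  have hs1 : s.1 = pt (fun i => (gs i).1) := by
    ext x y
    rw [pt_apply]
    exact hgs x y
  have hmul : ∀ i, (gs i).1 * ((gs i)⁻¹ : GL (Fin 2) F).1 = 1 := fun i => by
    rw [← Units.val_mul, mul_inv_cancel, Units.val_one]
  have hmul' : ∀ i, ((gs i)⁻¹ : GL (Fin 2) F).1 * (gs i).1 = 1 := fun i => by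
    rw [← Units.val_mul, inv_mul_cancel, Units.val_one]
  have hs2 : (s⁻¹ : GL (Fin 3 → Fin 2) F).1 = pt (fun i => ((gs i)⁻¹ : GL (Fin 2) F).1) := by
    apply nrms_inv_eq
    rw [hs1, pt_mul]
    have e : (fun i => (gs i).1 * ((gs i)⁻¹ : GL (Fin 2) F).1) =
        fun _ : Fin 3 => (1 : Matrix (Fin 2) (Fin 2) F) := funext hmul
    rw [e, pt_one]
  refine ⟨fun cs hcs => ?_, fun cs hcs => ?_⟩
  · refine ⟨fun i => (gs i).1 * cs i * ((gs i)⁻¹ : GL (Fin 2) F).1,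
      fun i => h1 (cs i) (hcs i) _ _ (hmul i), ?_⟩
    rw [hs1, hs2, pt_mul, pt_mul]
  · refine ⟨fun i => ((gs i)⁻¹ : GL (Fin 2) F).1 * cs i * (gs i).1,
      fun i => h1 (cs i) (hcs i) _ _ (hmul' i), ?_⟩
    rw [hs1, hs2, pt_mul, pt_mul]

theorem nrms_perm (hpc : HPermConj F) (s : GL (Fin 3 → Fin 2) F)
    (hs : IsFactorPermutation 2 3 s) : nrms_Pr s := by
  obtain ⟨σ, hσ⟩ := hs
  have hs1 : s.1 = permM σ := by
    ext x y
    exact hσ x y
  have hone : (permM σ : Matrix (Fin 3 → Fin 2) (Fin 3 → Fin 2) F) * permM σ.symm = 1 := by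
    have h := hpc σ (fun _ => 1)
    have e : (fun j : Fin 3 => (fun _ : Fin 3 => (1 : Matrix (Fin 2) (Fin 2) F)) (σ.symm j)) =
        fun _ : Fin 3 => (1 : Matrix (Fin 2) (Fin 2) F) := rfl
    rw [e, pt_one, Matrix.mul_one] at h
    exact h
  have hs2 : (s⁻¹ : GL (Fin 3 → Fin 2) F).1 = permM σ.symm := by
    apply nrms_inv_eq
    rw [hs1]
    exact hone
  refine ⟨fun cs hcs => ?_, fun cs hcs => ?_⟩
  · refine ⟨fun j => cs (σ.symm j), fun i => hcs _, ?_⟩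
    rw [hs1, hs2]
    exact hpc σ cs
  · refine ⟨fun j => cs (σ j), fun i => hcs _, ?_⟩
    rw [hs1, hs2]
    have h := hpc σ.symm cs
    rw [Equiv.symm_symm] at h
    exact h

/-- NRMS. -/
theorem NRMS (h1 : HQconj F) (hpc : HPermConj F) : HNrmS F := by
  intro s hs
  have hPr : nrms_Pr s := by
    unfold tensorWreathStandard at hs
    refine Subgroup.closure_induction (p := fun s _ => nrms_Pr s) ?_ ?_ ?_ ?_ hs
    · intro x hx
      rcases hx with hx | hx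
      · exact nrms_pure h1 x hx
      · exact nrms_perm hpc x hx
    · refine ⟨fun cs hcs => ⟨cs, hcs, ?_⟩, fun cs hcs => ⟨cs, hcs, ?_⟩⟩
      · rw [inv_one, Units.val_one, one_mul, mul_one]
      · rw [inv_one, Units.val_one, one_mul, mul_one]
    · intro x y _ _ hx hy
      refine ⟨fun cs hcs => ?_, fun cs hcs => ?_⟩
      · obtain ⟨cs₁, hcs₁, e₁⟩ := hy.1 cs hcs
        obtain ⟨cs₂, hcs₂, e₂⟩ := hx.1 cs₁ hcs₁
        refine ⟨cs₂, hcs₂, ?_⟩
        rw [_root_.mul_inv_rev, Units.val_mul, Units.val_mul, ← e₂, ← e₁]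
        simp only [mul_assoc]
      · obtain ⟨cs₁, hcs₁, e₁⟩ := hx.2 cs hcs
        obtain ⟨cs₂, hcs₂, e₂⟩ := hy.2 cs₁ hcs₁
        refine ⟨cs₂, hcs₂, ?_⟩
        rw [_root_.mul_inv_rev, Units.val_mul, Units.val_mul, ← e₂, ← e₁]
        simp only [mul_assoc]
    · intro x _ hx
      refine ⟨fun cs hcs => ?_, fun cs hcs => ?_⟩
      · obtain ⟨cs₁, hcs₁, e₁⟩ := hx.2 cs hcs
        exact ⟨cs₁, hcs₁, by rw [inv_inv]; exact e₁⟩
      · obtain ⟨cs₁, hcs₁, e₁⟩ := hx.1 cs hcs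
        exact ⟨cs₁, hcs₁, by rw [inv_inv]; exact e₁⟩
  exact hPr.1

end Cfsg.Agent.Lib.Helper52.SP8EB
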