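import Mathlib
import Cfsg.Prelude.Def_GeometricClasses
import Cfsg.Prelude.Def_LieClassical
import Cfsg.Agent.Lib.Helper71.Asch0

/-!
Project SPP (helper71), piece SQ: if an absolutely irreducible normal subgroup of a group of
isometries of a symplectic form `f` fixes a non-degenerate quadratic form, the characteristic is 2
and the whole group fixes a quadratic form with polar form `f`.
-/

set_option autoImplicit false

namespace Cfsg.Agent.Lib.Helper39.SPPSQ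

open Matrix Cfsg.Geo Cfsg.Agent.Lib.Helper71.Asch
open scoped Kronecker

variable {n : ℕ} {F : Type*} [Field F] [Fintype F]

/-- a bilinear form is given by its Gram matrix -/
theorem sq_gram (b : (Fin n → F) → (Fin n → F) → F) (hb : IsBilinearForm b) :
    ∃ G : Matrix (Fin n) (Fin n) F, ∀ u v, b u v = u ⬝ᵥ (G *ᵥ v) := by
  let B : (Fin n → F) →ₗ[F] (Fin n → F) →ₗ[F] F :=
    LinearMap.mk₂ F b hb.add_left hb.smul_left hb.add_right hb.smul_right
  refine ⟨LinearMap.toMatrix₂' F B, fun u v => ?_⟩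
  rw [← Matrix.toLinearMap₂'_apply', Matrix.toLinearMap₂'_toMatrix']
  rfl

/-- equality of the bilinear forms of two matrices gives equality of the matrices -/
theorem sq_mat_ext (M N : Matrix (Fin n) (Fin n) F)
    (h : ∀ u v : Fin n → F, u ⬝ᵥ (M *ᵥ v) = u ⬝ᵥ (N *ᵥ v)) : M = N := by
  ext i j
  have := h (Pi.single i 1) (Pi.single j 1)
  simpa [Matrix.mulVec_single_one, single_one_dotProduct] using this

/-- a matrix preserving the form with Gram matrix `G` satisfies `xᵀ G x = G` -/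
theorem sq_gram_fix (G x : Matrix (Fin n) (Fin n) F)
    (h : ∀ u v : Fin n → F, (x *ᵥ u) ⬝ᵥ (G *ᵥ (x *ᵥ v)) = u ⬝ᵥ (G *ᵥ v)) :
    xᵀ * G * x = G := by
  apply sq_mat_ext
  intro u v
  rw [← Matrix.mulVec_mulVec, ← Matrix.mulVec_mulVec, Matrix.dotProduct_mulVec,
    Matrix.vecMul_transpose, h u v]

/-- part (d): the whole group fixes the quadratic form with polar form `f` fixed by `L` -/
theorem sq_fix (f : (Fin n → F) → (Fin n → F) → F) (hn : 2 ≤ n)
    (H L : Subgroup (GL (Fin n) F)) (hN : Nrm H L)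
    (hLirr : ActsIrreducibly (matrixSet L)) (hfix : FixesForm (matrixSet H) f)
    (Q' : (Fin n → F) → F) (hsmul : ∀ (t : F) (v : Fin n → F), Q' (t • v) = t ^ 2 * Q' v)
    (hpol : ∀ u v : Fin n → F, QuadraticMap.polar Q' u v = f u v)
    (hQ'L : ∀ x ∈ L, ∀ v, Q' (x.1 *ᵥ v) = Q' v) :
    ∀ h ∈ H, ∀ v, Q' (h.1 *ᵥ v) = Q' v := by
  classical
  intro h hh v
  have hpolar : ∀ a b, Q' (a + b) = Q' a + Q' b + f a b := by
    intro a b
    have h0 := hpol a b
    unfold QuadraticMap.polar at h0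
    linear_combination h0
  have hδadd : ∀ u v, Q' (h.1 *ᵥ (u + v)) - Q' (u + v) =
      (Q' (h.1 *ᵥ u) - Q' u) + (Q' (h.1 *ᵥ v) - Q' v) := by
    intro u v
    rw [Matrix.mulVec_add, hpolar, hpolar, hfix h.1 ⟨h, hh, rfl⟩ u v]
    ring
  have hδsmul : ∀ (t : F) v, Q' (h.1 *ᵥ (t • v)) - Q' (t • v) =
      t ^ 2 * (Q' (h.1 *ᵥ v) - Q' v) := by
    intro t v
    rw [Matrix.mulVec_smul, hsmul, hsmul]
    ring
  have hδL : ∀ x ∈ L, ∀ v, Q' (h.1 *ᵥ (x.1 *ᵥ v)) - Q' (x.1 *ᵥ v) =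
      Q' (h.1 *ᵥ v) - Q' v := by
    intro x hx v
    rw [hQ'L x hx v]
    have h1 : h.1 *ᵥ (x.1 *ᵥ v) = (h * x * h⁻¹).1 *ᵥ (h.1 *ᵥ v) := by
      rw [Matrix.mulVec_mulVec, Matrix.mulVec_mulVec, ← Units.val_mul, ← Units.val_mul,
        inv_mul_cancel_right]
    rw [h1, hQ'L _ (hN h hh x hx)]
  let N : Submodule F (Fin n → F) :=
    { carrier := {v | Q' (h.1 *ᵥ v) - Q' v = 0}
      add_mem' := fun {a b} (ha : Q' (h.1 *ᵥ a) - Q' a = 0) (hb : Q' (h.1 *ᵥ b) - Q' b = 0) =>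
        show Q' (h.1 *ᵥ (a + b)) - Q' (a + b) = 0 by rw [hδadd, ha, hb, add_zero]
      zero_mem' := show Q' (h.1 *ᵥ (0 : Fin n → F)) - Q' 0 = 0 by
        have h0 := hδsmul 0 0
        rw [zero_smul] at h0
        rw [h0]
        simp
      smul_mem' := fun t a (ha : Q' (h.1 *ᵥ a) - Q' a = 0) =>
        show Q' (h.1 *ᵥ (t • a)) - Q' (t • a) = 0 by rw [hδsmul, ha, mul_zero] }
  have hNinv : ∀ s ∈ matrixSet L, N.map (Matrix.toLin' s) ≤ N := by
    rintro _ ⟨x, hx, rfl⟩ w hw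
    obtain ⟨u, hu, rfl⟩ := Submodule.mem_map.mp hw
    show Q' (h.1 *ᵥ (Matrix.toLin' x.1 u)) - Q' (Matrix.toLin' x.1 u) = 0
    rw [Matrix.toLin'_apply, hδL x hx u]
    exact hu
  rcases hLirr N hNinv with hbot | htop
  · exfalso
    have hinj : Function.Injective (fun v : Fin n → F => Q' (h.1 *ᵥ v) - Q' v) := by
      intro u w huw
      have huw' : Q' (h.1 *ᵥ u) - Q' u = Q' (h.1 *ᵥ w) - Q' w := huw
      have h2 : Q' (h.1 *ᵥ (u - w)) - Q' (u - w) = 0 := by
        have h3 := hδadd (u - w) w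
        rw [sub_add_cancel] at h3
        linear_combination huw' - h3
      have h4 : u - w ∈ N := h2
      rw [hbot, Submodule.mem_bot] at h4
      exact sub_eq_zero.mp h4
    have hcard := Fintype.card_le_of_injective _ hinj
    rw [Fintype.card_fun, Fintype.card_fin] at hcard
    have hq : 1 < Fintype.card F := Fintype.one_lt_card
    have h5 : Fintype.card F ^ 2 ≤ Fintype.card F ^ n := Nat.pow_le_pow_right (by omega) hn
    nlinarith
  · have hv : v ∈ N := by rw [htop]; trivial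
    have h5 : Q' (h.1 *ᵥ v) - Q' v = 0 := hv
    exact sub_eq_zero.mp h5

/-- SQ: if an absolutely irreducible normal subgroup of a group of isometries of `f` fixes a
non-degenerate quadratic form, the characteristic is 2 and the whole group fixes a quadratic form
with polar form `f`. -/
theorem SQ (f : (Fin n → F) → (Fin n → F) → F) (hf : IsSymplecticForm f) (hn : 2 ≤ n)
    (H L : Subgroup (GL (Fin n) F)) (hLH : L ≤ H) (hN : Nrm H L)
    (hLa : ActsAbsolutelyIrreducibly (matrixSet L)) (hfix : FixesForm (matrixSet H) f)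
    (Q : (Fin n → F) → F) (hQ : IsNondegenerateQuadraticForm Q)
    (hQfix : FixesQuadForm (matrixSet L) Q) :
    ¬ Odd (Fintype.card F) ∧ ∃ Q' : (Fin n → F) → F, IsNondegenerateQuadraticForm Q' ∧
      (∀ u v : Fin n → F, QuadraticMap.polar Q' u v = f u v) ∧ H ≤ quadSimilarityGroup Q' := by
  classical
  obtain ⟨Gf, hGf⟩ := sq_gram f hf.bilinear
  obtain ⟨Gb, hGb⟩ := sq_gram (QuadraticMap.polar Q) hQ.polar_bilinear
  -- the Gram matrix of `f` is invertible
  have hGfdet : IsUnit Gf.det := by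
    rw [← Matrix.isUnit_iff_isUnit_det, ← Matrix.mulVec_injective_iff_isUnit]
    intro v w hvw
    by_contra hne
    have hsub : v - w ≠ 0 := sub_ne_zero.mpr hne
    obtain ⟨x, hx⟩ := (hf.nondegenerate (v - w) hsub).1
    apply hx
    have hvw' : Gf *ᵥ v = Gf *ᵥ w := hvw
    rw [hGf, Matrix.mulVec_sub, hvw', sub_self, dotProduct_zero]
  have hLf : ∀ x ∈ L, (x.1)ᵀ * Gf * x.1 = Gf := by
    intro x hx
    apply sq_gram_fix
    intro u v
    rw [← hGf, ← hGf]
    exact hfix x.1 ⟨x, hLH hx, rfl⟩ u v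
  have hLb : ∀ x ∈ L, (x.1)ᵀ * Gb * x.1 = Gb := by
    intro x hx
    apply sq_gram_fix
    intro u v
    rw [← hGb, ← hGb]
    unfold QuadraticMap.polar
    rw [← Matrix.mulVec_add, hQfix x.1 ⟨x, hx, rfl⟩, hQfix x.1 ⟨x, hx, rfl⟩,
      hQfix x.1 ⟨x, hx, rfl⟩]
  have hcomm : ∀ s ∈ matrixSet L, (Gf⁻¹ * Gb) * s = s * (Gf⁻¹ * Gb) := by
    rintro _ ⟨x, hx, rfl⟩
    have hxdet : IsUnit ((x.1)ᵀ * Gf).det := by
      rw [Matrix.det_mul, Matrix.det_transpose]
      exact IsUnit.mul ((Matrix.isUnit_iff_isUnit_det _).mp x.isUnit) hGfdet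
    have e1 : ((x.1)ᵀ * Gf) * ((Gf⁻¹ * Gb) * x.1) = Gb := by
      calc ((x.1)ᵀ * Gf) * ((Gf⁻¹ * Gb) * x.1) = (x.1)ᵀ * (Gf * Gf⁻¹) * Gb * x.1 := by
            simp only [Matrix.mul_assoc]
        _ = (x.1)ᵀ * Gb * x.1 := by rw [Matrix.mul_nonsing_inv _ hGfdet, Matrix.mul_one]
        _ = Gb := hLb x hx
    have e2 : ((x.1)ᵀ * Gf) * (x.1 * (Gf⁻¹ * Gb)) = Gb := by
      calc ((x.1)ᵀ * Gf) * (x.1 * (Gf⁻¹ * Gb)) = ((x.1)ᵀ * Gf * x.1) * (Gf⁻¹ * Gb) := by
            simp only [Matrix.mul_assoc]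
        _ = Gf * (Gf⁻¹ * Gb) := by rw [hLf x hx]
        _ = Gb := by rw [← Matrix.mul_assoc, Matrix.mul_nonsing_inv _ hGfdet, Matrix.one_mul]
    have key := congrArg (fun Z => ((x.1)ᵀ * Gf)⁻¹ * Z) (e1.trans e2.symm)
    simp only [← Matrix.mul_assoc, Matrix.nonsing_inv_mul _ hxdet, Matrix.one_mul] at key
    simpa only [Matrix.mul_assoc] using key
  obtain ⟨c, hc⟩ := hLa.2 _ hcomm
  have hGbc : Gb = c • Gf := by
    have h0 : Gf * (Gf⁻¹ * Gb) = Gb := by
      rw [← Matrix.mul_assoc, Matrix.mul_nonsing_inv _ hGfdet, Matrix.one_mul]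
    rw [← h0, hc, Matrix.mul_smul, Matrix.mul_one]
  have hbf : ∀ u v, QuadraticMap.polar Q u v = c * f u v := by
    intro u v
    rw [hGb, hGf, hGbc, Matrix.smul_mulVec, dotProduct_smul, smul_eq_mul]
  have hv0 : ∃ v : Fin n → F, v ≠ 0 := by
    refine ⟨Pi.single ⟨0, by omega⟩ 1, fun h => ?_⟩
    have h0 := congrFun h ⟨0, by omega⟩
    simp at h0
  obtain ⟨v0, hv0⟩ := hv0
  have hc0 : c ≠ 0 := by
    rintro rfl
    obtain ⟨x, hx⟩ := (hQ.nondegenerate v0 hv0).1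
    apply hx
    rw [hbf, zero_mul]
  have hodd : ¬ Odd (Fintype.card F) := by
    intro hodd
    have h2 : (2 : F) ≠ 0 := by
      apply Ring.two_ne_zero
      intro hchar
      have h0 := FiniteField.even_card_of_char_two hchar
      rw [Nat.odd_iff] at hodd
      omega
    obtain ⟨x, hx⟩ := (hf.nondegenerate v0 hv0).1
    apply hx
    have h3 : QuadraticMap.polar Q x v0 = QuadraticMap.polar Q v0 x :=
      QuadraticMap.polar_comm Q x v0
    rw [hbf, hbf, hf.skew v0 x] at h3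
    have h4 : (2 : F) * c * f x v0 = 0 := by linear_combination h3
    rcases mul_eq_zero.mp h4 with h5 | h5
    · rcases mul_eq_zero.mp h5 with h6 | h6
      · exact absurd h6 h2
      · exact absurd h6 hc0
    · exact h5
  have hpol : ∀ u v : Fin n → F, QuadraticMap.polar (fun v => c⁻¹ * Q v) u v = f u v := by
    intro u v
    have h0 := hbf u v
    unfold QuadraticMap.polar at h0
    show c⁻¹ * Q (u + v) - c⁻¹ * Q u - c⁻¹ * Q v = f u v
    rw [show c⁻¹ * Q (u + v) - c⁻¹ * Q u - c⁻¹ * Q v = c⁻¹ * (Q (u + v) - Q u - Q v) by ring,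
      h0, ← mul_assoc, inv_mul_cancel₀ hc0, one_mul]
  have hfun : QuadraticMap.polar (fun v => c⁻¹ * Q v) = f := by
    funext u v
    exact hpol u v
  have hsmul : ∀ (t : F) (v : Fin n → F),
      (fun v => c⁻¹ * Q v) (t • v) = t ^ 2 * (fun v => c⁻¹ * Q v) v := by
    intro t v
    show c⁻¹ * Q (t • v) = t ^ 2 * (c⁻¹ * Q v)
    rw [hQ.smul]
    ring
  have hQ' : IsNondegenerateQuadraticForm (fun v => c⁻¹ * Q v) := by
    refine ⟨hsmul, ?_, ?_⟩
    · rw [hfun]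
      exact hf.bilinear
    · rw [hfun]
      exact hf.nondegenerate
  have hQ'L : ∀ x ∈ L, ∀ v, (fun v => c⁻¹ * Q v) (x.1 *ᵥ v) = (fun v => c⁻¹ * Q v) v := by
    intro x hx v
    show c⁻¹ * Q (x.1 *ᵥ v) = c⁻¹ * Q v
    rw [hQfix x.1 ⟨x, hx, rfl⟩]
  have hfixall := sq_fix f hn H L hN hLa.1 hfix (fun v => c⁻¹ * Q v) hsmul hpol hQ'L
  refine ⟨hodd, fun v => c⁻¹ * Q v, hQ', hpol, ?_⟩
  intro h hh
  refine ⟨1, fun v => ?_⟩
  rw [Units.val_one, one_mul]
  exact hfixall h hh v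

end Cfsg.Agent.Lib.Helper39.SPPSQ
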