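import Mathlib
import Cfsg.Prelude.Def_GeometricClasses
import Cfsg.Prelude.Def_LieClassical
import Cfsg.Agent.Lib.Helper7.GUOrder
import Cfsg.Agent.Lib.Helper18.Unitary
import Cfsg.Agent.Lib.Helper18.UnitaryTv
import Cfsg.Agent.Lib.Helper18.UnitaryFr
import Cfsg.Agent.Lib.Helper18.UnitaryGenB
import Cfsg.Agent.Lib.Helper93.SUPair

/-!
# Project SUP (helper71), piece NU1: `SU_n(q)` stabilises no proper non-zero subspace (`n ≥ 3`)
-/

set_option autoImplicit false

namespace Cfsg.Agent.Lib.Helper39.SUPNU1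

open Matrix Cfsg.Geo Cfsg.Agent.Lib.Helper7 Cfsg.Agent.Lib.Helper18 Cfsg.Agent.Lib.Helper93

variable {n : ℕ} {F : Type*} [Field F] [Fintype F] {q : ℕ}

/-- NU1 -/
theorem NU1 (hF : Fintype.card F = q ^ 2) (hn : 3 ≤ n) (W : Submodule F (Fin n → F))
    (h0 : W ≠ ⊥) (h1 : W ≠ ⊤) :
    ¬ (Cfsg.GU n F q ⊓ specialLinear (Fin n) F) ≤ subspaceStabilizer W := by
  intro hle
  have hstab : ∀ t : GL (Fin n) F, t ∈ Cfsg.GU n F q ⊓ specialLinear (Fin n) F →
      ∀ v, v ∈ W → (t : Matrix (Fin n) (Fin n) F) *ᵥ v ∈ W := by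
    intro t ht v hv
    exact (hle ht v).1 hv
  obtain ⟨μ, hμ0, hμ⟩ := exists_trace_zero hF
  have htv : ∀ s : Fin n → F, Cfsg.hermForm n F q s s = 0 → ∀ v ∈ W,
      v + (μ * Cfsg.hermForm n F q v s) • s ∈ W := by
    intro s hss v hv
    obtain ⟨t, ht, htS⟩ := exists_gl_of_pres (transvection_preserves hF n s μ hss hμ)
      (transvection_det n s μ hss)
    have h2 := hstab t htS v hv
    rw [ht, unitaryTransvection_mulVec] at h2
    exact h2
  -- (a) `W` contains a non-zero isotropic vector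
  obtain ⟨w, hwW, hw0⟩ := (Submodule.ne_bot_iff W).1 h0
  have ha : ∃ s ∈ W, s ≠ 0 ∧ Cfsg.hermForm n F q s s = 0 := by
    by_cases hww : Cfsg.hermForm n F q w w = 0
    · exact ⟨w, hwW, hw0, hww⟩
    · obtain ⟨s, hss, hws⟩ := exists_iso_one hF (by omega) w hww
      have h2 := htv s hss w hwW
      rw [hws, mul_one] at h2
      have h3 : μ • s ∈ W := by
        have h4 := W.sub_mem h2 hwW
        rwa [add_sub_cancel_left] at h4
      have h4 : s ∈ W := by
        have h5 := W.smul_mem μ⁻¹ h3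
        rwa [smul_smul, inv_mul_cancel₀ hμ0, one_smul] at h5
      refine ⟨s, h4, ?_, hss⟩
      rintro rfl
      rw [hf_zero_right hF] at hws
      exact zero_ne_one hws
  obtain ⟨s0, hs0W, hs00, hs0s0⟩ := ha
  -- (b) `W` contains every isotropic vector
  have hb : ∀ u : Fin n → F, Cfsg.hermForm n F q u u = 0 → u ∈ W := by
    intro u huu
    by_cases hu0 : u = 0
    · rw [hu0]; exact W.zero_mem
    · obtain ⟨g, hg⟩ := exists_SU_map_iso hF hn s0 u hs00 hu0 hs0s0 huu
      have hpres : suPres q n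
          ((g : Matrix.SpecialLinearGroup (Fin n) F) : Matrix (Fin n) (Fin n) F) :=
        (mem_SU_iff (g : Matrix.SpecialLinearGroup (Fin n) F)).1 g.2
      obtain ⟨t, ht, htS⟩ := exists_gl_of_pres hpres
        (g : Matrix.SpecialLinearGroup (Fin n) F).2
      have h2 := hstab t htS s0 hs0W
      rw [ht, hg] at h2
      exact h2
  -- (c) every vector is a sum of two isotropic vectors
  apply h1
  rw [eq_top_iff]
  intro x _
  by_cases hxx : Cfsg.hermForm n F q x x = 0
  · exact hb x hxx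
  · obtain ⟨s, hss, hxs⟩ := exists_iso_one hF (by omega) x hxx
    obtain ⟨l, hl⟩ := exists_trace_one hF
    obtain ⟨a, ha⟩ : ∃ a : F, a = Cfsg.hermForm n F q x x := ⟨_, rfl⟩
    have haq : a ^ q = a := by rw [ha]; exact hf_self_pow hF n x
    have hsx : Cfsg.hermForm n F q s x = 1 := by
      rw [hf_conj hF n x s, hxs, one_pow]
    have hiso : Cfsg.hermForm n F q (x - (a * l) • s) (x - (a * l) • s) = 0 := by
      rw [hf_sub_left, hf_sub_right hF, hf_sub_right hF, hf_smul_left, hf_smul_left,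
        hf_smul_right, hf_smul_right, hss, hxs, hsx, ← ha, mul_pow, haq]
      linear_combination (-a) * hl
    have h5 : x - (a * l) • s ∈ W := hb _ hiso
    have h6 : (a * l) • s ∈ W := W.smul_mem _ (hb s hss)
    have h7 := W.add_mem h5 h6
    rwa [sub_add_cancel] at h7

end Cfsg.Agent.Lib.Helper39.SUPNU1
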