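import Mathlib
import Cfsg.Prelude.Def_GeometricClasses
import Cfsg.Prelude.Def_LieClassical
import Cfsg.Agent.Lib.Helper7.GUOrder
import Cfsg.Agent.Lib.Helper7.HermCount
import Cfsg.Agent.Lib.Helper18.Unitary
import Cfsg.Agent.Lib.Helper18.UnitaryTv
import Cfsg.Agent.Lib.Helper18.UnitaryGenB
import Cfsg.Agent.Lib.Helper93.SUPair

/-!
# Project SUP (helper71), piece NU2: `SU_n(q)` does not stabilise an orthogonal frame (`n ≥ 4`)
-/

set_option autoImplicit false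

namespace Cfsg.Agent.Lib.Helper39.SUPNU2

open Matrix Cfsg.Geo Cfsg.Agent.Lib.Helper7 Cfsg.Agent.Lib.Helper18 Cfsg.Agent.Lib.Helper93

variable {n : ℕ} {F : Type*} [Field F] [Fintype F] {q : ℕ}

/-- NU2 -/
theorem NU2 (hF : Fintype.card F = q ^ 2) (hn : 4 ≤ n) (D : Fin n → Submodule F (Fin n → F))
    (hD : IsNondegenerateMDecomposition (Cfsg.hermForm n F q) 1 D) :
    ¬ (Cfsg.GU n F q ⊓ specialLinear (Fin n) F) ≤ decompositionStabilizer D := by
  intro hle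
  -- generators of the lines
  have hgen : ∀ i, ∃ d : Fin n → F, d ∈ D i ∧ d ≠ 0 ∧ ∀ w ∈ D i, ∃ c : F, c • d = w := by
    intro i
    obtain ⟨⟨d, hdD⟩, hd0, hspan⟩ := finrank_eq_one_iff'.1 (hD.decomp.finrank_eq i)
    refine ⟨d, hdD, fun h => hd0 (Subtype.ext h), fun w hw => ?_⟩
    obtain ⟨c, hc⟩ := hspan ⟨w, hw⟩
    exact ⟨c, congrArg Subtype.val hc⟩
  choose d hdD hd0 hspan using hgen
  have ha0 : ∀ i, Cfsg.hermForm n F q (d i) (d i) ≠ 0 := by
    intro i h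
    obtain ⟨⟨x, hx, hxne⟩, _⟩ := hD.nondegenerate i (d i) (hdD i) (hd0 i)
    obtain ⟨c, rfl⟩ := hspan i x hx
    rw [hf_smul_left, h, mul_zero] at hxne
    exact hxne rfl
  have haq : ∀ i, Cfsg.hermForm n F q (d i) (d i) ^ q = Cfsg.hermForm n F q (d i) (d i) :=
    fun i => hf_self_pow hF n (d i)
  have horth : ∀ i j, i ≠ j → Cfsg.hermForm n F q (d i) (d j) = 0 :=
    fun i j hij => hD.orthogonal i j hij (d i) (hdD i) (d j) (hdD j)
  have hnorm : ∀ (i : Fin n) (ε : F), ε ≠ 0 → ε ^ q = ε →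
      ∃ c : F, c ≠ 0 ∧ c ^ (q + 1) * Cfsg.hermForm n F q (d i) (d i) = ε := by
    intro i ε hε hεq
    have hy0 : ε / Cfsg.hermForm n F q (d i) (d i) ≠ 0 := div_ne_zero hε (ha0 i)
    have hy : (ε / Cfsg.hermForm n F q (d i) (d i)) ^ q =
        ε / Cfsg.hermForm n F q (d i) (d i) := by rw [div_pow, hεq, haq i]
    obtain ⟨c, hc0, hc⟩ := herm_norm_surj hF (ε / Cfsg.hermForm n F q (d i) (d i)) hy0 hy
    exact ⟨c, hc0, by rw [hc, div_mul_cancel₀ _ (ha0 i)]⟩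
  have hone : (1 : F) ^ q = 1 := one_pow q
  have hneg : (-1 : F) ^ q = -1 := by rw [herm_neg_pow hF, one_pow]
  have key : ∀ i0 i1 i2 i3 : Fin n, i0 ≠ i1 → i0 ≠ i2 → i0 ≠ i3 → i1 ≠ i2 → i1 ≠ i3 →
      i2 ≠ i3 → False := by
    intro i0 i1 i2 i3 h01 h02 h03 h12 h13 h23
    obtain ⟨c0, hc00, hc0⟩ := hnorm i0 1 one_ne_zero hone
    obtain ⟨c1, hc10, hc1⟩ := hnorm i1 (-1) (neg_ne_zero.2 one_ne_zero) hneg
    obtain ⟨c2, hc20, hc2⟩ := hnorm i2 1 one_ne_zero hone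
    obtain ⟨c3, hc30, hc3⟩ := hnorm i3 (-1) (neg_ne_zero.2 one_ne_zero) hneg
    obtain ⟨v, hv⟩ : ∃ v : Fin n → F,
        v = c0 • d i0 + c1 • d i1 + c2 • d i2 + c3 • d i3 := ⟨_, rfl⟩
    have hfv : ∀ x : Fin n → F, Cfsg.hermForm n F q x v =
        c0 ^ q * Cfsg.hermForm n F q x (d i0) + c1 ^ q * Cfsg.hermForm n F q x (d i1) +
          c2 ^ q * Cfsg.hermForm n F q x (d i2) + c3 ^ q * Cfsg.hermForm n F q x (d i3) := by
      intro x
      rw [hv, hf_add_right hF, hf_add_right hF, hf_add_right hF, hf_smul_right, hf_smul_right,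
        hf_smul_right, hf_smul_right]
    have hvf : ∀ x : Fin n → F, Cfsg.hermForm n F q v x =
        c0 * Cfsg.hermForm n F q (d i0) x + c1 * Cfsg.hermForm n F q (d i1) x +
          c2 * Cfsg.hermForm n F q (d i2) x + c3 * Cfsg.hermForm n F q (d i3) x := by
      intro x
      rw [hv, hf_add_left, hf_add_left, hf_add_left, hf_smul_left, hf_smul_left,
        hf_smul_left, hf_smul_left]
    have hv0 : Cfsg.hermForm n F q v (d i0) = c0 * Cfsg.hermForm n F q (d i0) (d i0) := by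
      rw [hvf, horth i1 i0 h01.symm, horth i2 i0 h02.symm, horth i3 i0 h03.symm]; ring
    have hv1 : Cfsg.hermForm n F q v (d i1) = c1 * Cfsg.hermForm n F q (d i1) (d i1) := by
      rw [hvf, horth i0 i1 h01, horth i2 i1 h12.symm, horth i3 i1 h13.symm]; ring
    have hv2 : Cfsg.hermForm n F q v (d i2) = c2 * Cfsg.hermForm n F q (d i2) (d i2) := by
      rw [hvf, horth i0 i2 h02, horth i1 i2 h12, horth i3 i2 h23.symm]; ring
    have hv3 : Cfsg.hermForm n F q v (d i3) = c3 * Cfsg.hermForm n F q (d i3) (d i3) := by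
      rw [hvf, horth i0 i3 h03, horth i1 i3 h13, horth i2 i3 h23]; ring
    have hvv : Cfsg.hermForm n F q v v = 0 := by
      rw [hfv v, hv0, hv1, hv2, hv3]
      linear_combination hc0 + hc1 + hc2 + hc3
    have hd0v : Cfsg.hermForm n F q (d i0) v = c0 ^ q * Cfsg.hermForm n F q (d i0) (d i0) := by
      rw [hfv, horth i0 i1 h01, horth i0 i2 h02, horth i0 i3 h03]; ring
    obtain ⟨μ, hμ0, hμ⟩ := exists_trace_zero hF
    obtain ⟨t, ht, htS⟩ := exists_gl_of_pres (transvection_preserves hF n v μ hvv hμ)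
      (transvection_det n v μ hvv)
    obtain ⟨σ, hσ⟩ := hle htS
    have hy : (t : Matrix (Fin n) (Fin n) F) *ᵥ d i0 ∈ D (σ i0) := by
      rw [← hσ i0]
      exact ⟨d i0, hdD i0, Matrix.toLin'_apply _ _⟩
    rw [ht, unitaryTransvection_mulVec] at hy
    obtain ⟨e, he⟩ := hspan (σ i0) _ hy
    have hκ : μ * Cfsg.hermForm n F q (d i0) v ≠ 0 := by
      rw [hd0v]
      exact mul_ne_zero hμ0 (mul_ne_zero (pow_ne_zero q hc00) (ha0 i0))
    have hcontra : ∀ m : Fin n, i0 ≠ m → σ i0 ≠ m → Cfsg.hermForm n F q v (d m) ≠ 0 →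
        False := by
      intro m hm0 hσm hfvm
      have h1 : Cfsg.hermForm n F q (e • d (σ i0)) (d m) = 0 := by
        rw [hf_smul_left, horth _ _ hσm, mul_zero]
      rw [he, hf_add_left, hf_smul_left, horth i0 m hm0, zero_add] at h1
      exact (mul_ne_zero hκ hfvm) h1
    by_cases hj : σ i0 = i1
    · refine hcontra i2 h02 (by rw [hj]; exact h12) ?_
      rw [hv2]
      exact mul_ne_zero hc20 (ha0 i2)
    · refine hcontra i1 h01 hj ?_
      rw [hv1]
      exact mul_ne_zero hc10 (ha0 i1)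
  exact key ⟨0, by omega⟩ ⟨1, by omega⟩ ⟨2, by omega⟩ ⟨3, by omega⟩
    (by simp [Fin.ext_iff]) (by simp [Fin.ext_iff]) (by simp [Fin.ext_iff])
    (by simp [Fin.ext_iff]) (by simp [Fin.ext_iff]) (by simp [Fin.ext_iff])

end Cfsg.Agent.Lib.Helper39.SUPNU2
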