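import Mathlib
import Cfsg.Agent.Lib.Helper48.SVA

/-!
# S2425 piece MOB (helper39, for helper48): the Möbius function via chain counts; Weisner's theorem
-/

set_option autoImplicit false

namespace Cfsg.Agent.Lib.Helper48.SV

open Cfsg
open scoped MatrixGroups Polynomial

section Mob

variable {α : Type*} [PartialOrder α] [OrderBot α] [Finite α]

open Classical in
theorem mob_ch_zero (w : α) : ch 0 w = if w = ⊥ then 1 else 0 := rfl

theorem mob_ch_succ (k : ℕ) (w : α) : ch (k + 1) w = ∑ w' ∈ fs {w' : α | w' < w}, ch k w' := rfl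

theorem mob_ch_bound (k : ℕ) : ∀ w : α, ch k w ≠ 0 → k < (fs {v : α | v ≤ w}).card := by
  induction k with
  | zero =>
    intro w _
    exact Finset.card_pos.2 ⟨w, (mem_fs {v : α | v ≤ w} w).2 (le_refl w)⟩
  | succ k ih =>
    intro w hw
    rw [mob_ch_succ] at hw
    obtain ⟨w', hw', hne⟩ := Finset.exists_ne_zero_of_sum_ne_zero hw
    have hlt : w' < w := (mem_fs {w' : α | w' < w} w').1 hw'
    have h1 := ih w' hne
    have h2 : (fs {v : α | v ≤ w'}).card < (fs {v : α | v ≤ w}).card := by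
      apply Finset.card_lt_card
      rw [Finset.ssubset_iff_of_subset]
      · exact ⟨w, (mem_fs {v : α | v ≤ w} w).2 (le_refl w),
          fun h => absurd ((mem_fs {v : α | v ≤ w'} w).1 h) (not_le_of_gt hlt)⟩
      · intro v hv
        exact (mem_fs {v : α | v ≤ w} v).2 (le_trans ((mem_fs {v : α | v ≤ w'} v).1 hv) hlt.le)
    omega

theorem mob_ch_eq_zero (k : ℕ) (hk : Nat.card α ≤ k) (w : α) : ch k w = 0 := by
  by_contra h
  have h1 := mob_ch_bound k w h
  have h2 : (fs {v : α | v ≤ w}).card ≤ Nat.card α := by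
    rw [card_fs]
    exact Finite.card_subtype_le _
  omega

theorem mob_sum_lt (w : α) :
    mob w = ∑ k ∈ Finset.range (Nat.card α), (-1 : ℤ) ^ k * ch k w := by
  unfold mob
  rw [Finset.sum_range_succ, mob_ch_eq_zero _ (le_refl _), mul_zero, add_zero]

/-- piece MOB (1) -/
theorem mob_bot : mob (⊥ : α) = 1 := by
  unfold mob
  rw [Finset.sum_range_succ']
  have h1 : ∀ k ∈ Finset.range (Nat.card α), (-1 : ℤ) ^ (k + 1) * ch (k + 1) (⊥ : α) = 0 := by
    intro k _
    rw [mob_ch_succ]
    have h2 : fs {w' : α | w' < ⊥} = ∅ := by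
      ext v
      simp [mem_fs]
    rw [h2, Finset.sum_empty, mul_zero]
  rw [Finset.sum_eq_zero h1, mob_ch_zero]
  simp

/-- piece MOB (2) -/
theorem mob_rec (w : α) (hw : w ≠ ⊥) : mob w = - ∑ w' ∈ fs {w' : α | w' < w}, mob w' := by
  have h1 : mob w = ∑ k ∈ Finset.range (Nat.card α), (-1 : ℤ) ^ (k + 1) * ch (k + 1) w := by
    unfold mob
    rw [Finset.sum_range_succ', mob_ch_zero, if_neg hw, mul_zero, add_zero]
  rw [h1, Finset.sum_congr rfl (fun w' _ => mob_sum_lt w'), Finset.sum_comm,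
    ← Finset.sum_neg_distrib]
  refine Finset.sum_congr rfl (fun k _ => ?_)
  rw [mob_ch_succ, ← Finset.mul_sum, pow_succ]
  ring

theorem mob_sum_le_of_ne (d : α) (hd : d ≠ ⊥) : ∑ c ∈ fs {c : α | c ≤ d}, mob c = 0 := by
  classical
  have h1 : fs {c : α | c ≤ d} = insert d (fs {c : α | c < d}) := by
    ext v
    simp only [mem_fs, Finset.mem_insert, Set.mem_setOf_eq]
    exact le_iff_eq_or_lt
  have h2 : d ∉ fs {c : α | c < d} := by simp [mem_fs]
  rw [h1, Finset.sum_insert h2, mob_rec d hd]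
  ring

end Mob

/-- piece MOB (3): Weisner's theorem -/
theorem weisner {α : Type*} [Lattice α] [OrderBot α] [Finite α] (a d : α) (ha : a ≠ ⊥)
    (had : a ≤ d) : ∑ c ∈ fs {c : α | c ⊔ a = d}, mob c = 0 := by
  classical
  haveI : WellFoundedLT α := Finite.to_wellFoundedLT
  revert had
  induction d using WellFoundedLT.induction with
  | ind d ih =>
    intro had
    have hd : d ≠ ⊥ := by
      rintro rfl
      exact ha (le_bot_iff.1 had)
    have h0 := mob_sum_le_of_ne d hd
    have hmaps : ∀ c ∈ fs {c : α | c ≤ d}, c ⊔ a ∈ fs {b : α | a ≤ b ∧ b ≤ d} := by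
      intro c hc
      rw [mem_fs] at hc ⊢
      exact ⟨le_sup_right, sup_le hc had⟩
    rw [← Finset.sum_fiberwise_of_maps_to hmaps] at h0
    have hfib : ∀ b ∈ fs {b : α | a ≤ b ∧ b ≤ d},
        ∑ c ∈ (fs {c : α | c ≤ d}).filter (fun c => c ⊔ a = b), mob c =
          ∑ c ∈ fs {c : α | c ⊔ a = b}, mob c := by
      intro b hb
      rw [mem_fs] at hb
      apply Finset.sum_congr _ (fun _ _ => rfl)
      ext c
      simp only [Finset.mem_filter, mem_fs, Set.mem_setOf_eq]
      constructor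
      · exact fun h => h.2
      · intro h
        exact ⟨le_trans (h ▸ le_sup_left) hb.2, h⟩
    rw [Finset.sum_congr rfl hfib] at h0
    have hsplit : fs {b : α | a ≤ b ∧ b ≤ d} = insert d (fs {b : α | a ≤ b ∧ b < d}) := by
      ext v
      simp only [mem_fs, Finset.mem_insert, Set.mem_setOf_eq]
      constructor
      · rintro ⟨h1, h2⟩
        rcases le_iff_eq_or_lt.1 h2 with h3 | h3
        · exact Or.inl h3
        · exact Or.inr ⟨h1, h3⟩
      · rintro (rfl | ⟨h1, h2⟩)
        · exact ⟨had, le_refl _⟩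
        · exact ⟨h1, h2.le⟩
    have hnot : d ∉ fs {b : α | a ≤ b ∧ b < d} := by simp [mem_fs]
    rw [hsplit, Finset.sum_insert hnot] at h0
    have hrest : ∑ b ∈ fs {b : α | a ≤ b ∧ b < d}, ∑ c ∈ fs {c : α | c ⊔ a = b}, mob c = 0 := by
      apply Finset.sum_eq_zero
      intro b hb
      rw [mem_fs] at hb
      exact ih b hb.2 hb.1
    rw [hrest, add_zero] at h0
    exact h0

end Cfsg.Agent.Lib.Helper48.SV
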