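import Mathlib
import Cfsg.Agent.Lib.Helper48.SVA

/-!
# S2425 piece PATH (helper39, for helper48): the flag count `cnt` counts flags
-/

set_option autoImplicit false

namespace Cfsg.Agent.Lib.Helper48.SV

open Cfsg
open scoped MatrixGroups Polynomial

section Mob

variable {α : Type*} [PartialOrder α] [OrderBot α] [Finite α]

theorem path_step (d : α → ℕ) (m : ℕ) (g : α → ℤ) (w : α) :
    step d m g w = ∑ w' ∈ fs {w' : α | w' ≤ w ∧ d w = d w' + m}, g w' := rfl

/-- the flags of length `n` ending at `w` -/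
def path_P (d : α → ℕ) {n : ℕ} (f : Fin n → ℕ) (w : α) (c : Fin (n + 1) → α) : Prop :=
  c 0 = ⊥ ∧ c (Fin.last n) = w ∧
    ∀ i : Fin n, c i.castSucc ≤ c i.succ ∧ d (c i.succ) = d (c i.castSucc) + f i

theorem path_zero (d : α → ℕ) (f : Fin 0 → ℕ) (w : α) :
    cnt d (List.ofFn f) w = (Nat.card {c : Fin (0 + 1) → α // path_P d f w c} : ℤ) := by
  classical
  rw [List.ofFn_zero, cnt_nil]
  by_cases hw : w = ⊥
  · rw [if_pos hw]
    have h1 : Nat.card {c : Fin (0 + 1) → α // path_P d f w c} = 1 := by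
      rw [Nat.card_eq_one_iff_unique]
      constructor
      · refine ⟨fun a b => Subtype.ext (funext fun i => ?_)⟩
        have hi : i = 0 := Fin.ext (by have := i.isLt; omega)
        rw [hi, a.2.1, b.2.1]
      · exact ⟨⟨fun _ => ⊥, rfl, hw.symm, fun i => i.elim0⟩⟩
    rw [h1]
    rfl
  · rw [if_neg hw]
    have h1 : IsEmpty {c : Fin (0 + 1) → α // path_P d f w c} := by
      refine ⟨fun c => hw ?_⟩
      have h2 := c.2.2.1
      have h3 : Fin.last 0 = (0 : Fin (0 + 1)) := rfl
      rw [h3, c.2.1] at h2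
      exact h2.symm
    rw [Nat.card_of_isEmpty]
    rfl

theorem path_init (d : α → ℕ) {n : ℕ} (f : Fin (n + 1) → ℕ) (w w' : α)
    (c : Fin (n + 1 + 1) → α) (hc : path_P d f w c) (hw' : c (Fin.last n).castSucc = w') :
    path_P d (fun i : Fin n => f i.castSucc) w' (Fin.init c) := by
  refine ⟨?_, ?_, ?_⟩
  · show c (Fin.castSucc 0) = ⊥
    rw [Fin.castSucc_zero]
    exact hc.1
  · exact hw'
  · intro i
    have h1 := hc.2.2 i.castSucc
    rw [Fin.succ_castSucc] at h1
    exact h1

theorem path_snoc (d : α → ℕ) {n : ℕ} (f : Fin (n + 1) → ℕ) (w w' : α)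
    (c' : Fin (n + 1) → α) (hc' : path_P d (fun i : Fin n => f i.castSucc) w' c')
    (hle : w' ≤ w) (hd : d w = d w' + f (Fin.last n)) :
    path_P d f w (Fin.snoc (α := fun _ => α) c' w) := by
  have hcs : ∀ j : Fin (n + 1), Fin.snoc (α := fun _ => α) c' w j.castSucc = c' j :=
    fun j => Fin.snoc_castSucc (α := fun _ => α) w c' j
  have hlast : Fin.snoc (α := fun _ => α) c' w (Fin.last (n + 1)) = w :=
    Fin.snoc_last (α := fun _ => α) w c'
  refine ⟨?_, hlast, ?_⟩
  · have h1 := hcs 0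
    rw [Fin.castSucc_zero] at h1
    rw [h1]
    exact hc'.1
  · intro i
    induction i using Fin.lastCases with
    | last =>
      rw [Fin.succ_last, hlast, hcs, hc'.2.1]
      exact ⟨hle, hd⟩
    | cast j =>
      rw [Fin.succ_castSucc, hcs, hcs]
      exact hc'.2.2 j

theorem path_succ (d : α → ℕ) {n : ℕ} (f : Fin (n + 1) → ℕ) (w : α) :
    (Nat.card {c : Fin (n + 1 + 1) → α // path_P d f w c} : ℤ) =
      ∑ w' ∈ fs {w' : α | w' ≤ w ∧ d w = d w' + f (Fin.last n)},
        (Nat.card {c : Fin (n + 1) → α // path_P d (fun i : Fin n => f i.castSucc) w' c} : ℤ) := by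
  classical
  have hA : Nat.card {c : Fin (n + 1 + 1) → α // path_P d f w c} =
      (fs {c : Fin (n + 1 + 1) → α | path_P d f w c}).card :=
    (card_fs {c : Fin (n + 1 + 1) → α | path_P d f w c}).symm
  have hmaps : ∀ c ∈ fs {c : Fin (n + 1 + 1) → α | path_P d f w c},
      c (Fin.last n).castSucc ∈ fs {w' : α | w' ≤ w ∧ d w = d w' + f (Fin.last n)} := by
    intro c hc
    have hc' : path_P d f w c := (mem_fs {c : Fin (n + 1 + 1) → α | path_P d f w c} c).1 hc
    refine (mem_fs {w' : α | w' ≤ w ∧ d w = d w' + f (Fin.last n)} _).2 ?_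
    have h1 := hc'.2.2 (Fin.last n)
    rw [Fin.succ_last, hc'.2.1] at h1
    exact h1
  rw [hA, Finset.card_eq_sum_card_fiberwise hmaps, Nat.cast_sum]
  refine Finset.sum_congr rfl (fun w' hw' => ?_)
  have hw'' : w' ≤ w ∧ d w = d w' + f (Fin.last n) :=
    (mem_fs {w' : α | w' ≤ w ∧ d w = d w' + f (Fin.last n)} w').1 hw'
  have hB : Nat.card {c : Fin (n + 1) → α // path_P d (fun i : Fin n => f i.castSucc) w' c} =
      (fs {c : Fin (n + 1) → α | path_P d (fun i : Fin n => f i.castSucc) w' c}).card :=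
    (card_fs {c : Fin (n + 1) → α | path_P d (fun i : Fin n => f i.castSucc) w' c}).symm
  rw [hB]
  congr 1
  refine Finset.card_nbij' (fun c => Fin.init c) (fun c' => Fin.snoc (α := fun _ => α) c' w)
    ?_ ?_ ?_ ?_
  · intro c hc
    rw [Finset.mem_coe, Finset.mem_filter] at hc
    have hc1 : path_P d f w c := (mem_fs {c : Fin (n + 1 + 1) → α | path_P d f w c} c).1 hc.1
    rw [Finset.mem_coe]
    exact (mem_fs {c : Fin (n + 1) → α | path_P d (fun i : Fin n => f i.castSucc) w' c} _).2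
      (path_init d f w w' c hc1 hc.2)
  · intro c' hc'
    rw [Finset.mem_coe] at hc'
    have hc1 : path_P d (fun i : Fin n => f i.castSucc) w' c' :=
      (mem_fs {c : Fin (n + 1) → α | path_P d (fun i : Fin n => f i.castSucc) w' c} c').1 hc'
    rw [Finset.mem_coe, Finset.mem_filter]
    refine ⟨(mem_fs {c : Fin (n + 1 + 1) → α | path_P d f w c} _).2
      (path_snoc d f w w' c' hc1 hw''.1 hw''.2), ?_⟩
    show Fin.snoc (α := fun _ => α) c' w (Fin.last n).castSucc = w'
    rw [Fin.snoc_castSucc (α := fun _ => α) w c' (Fin.last n)]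
    exact hc1.2.1
  · intro c hc
    rw [Finset.mem_coe, Finset.mem_filter] at hc
    have hc1 : path_P d f w c := (mem_fs {c : Fin (n + 1 + 1) → α | path_P d f w c} c).1 hc.1
    show Fin.snoc (α := fun _ => α) (Fin.init c) w = c
    rw [← hc1.2.1]
    exact Fin.snoc_init_self (α := fun _ => α) c
  · intro c' _
    exact Fin.init_snoc (α := fun _ => α) w c'

theorem path_main (d : α → ℕ) : ∀ (n : ℕ) (f : Fin n → ℕ) (w : α),
    cnt d (List.ofFn f) w = (Nat.card {c : Fin (n + 1) → α // path_P d f w c} : ℤ) := by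
  intro n
  induction n with
  | zero => exact path_zero d
  | succ n ih =>
    intro f w
    rw [List.ofFn_succ', List.concat_eq_append, cnt_concat, path_step, path_succ]
    exact Finset.sum_congr rfl (fun w' _ => ih (fun i : Fin n => f i.castSucc) w')

/-- piece PATH -/
theorem cnt_ofFn (d : α → ℕ) {n : ℕ} (f : Fin n → ℕ) (w : α) :
    cnt d (List.ofFn f) w = (Nat.card {c : Fin (n + 1) → α // c 0 = ⊥ ∧ c (Fin.last n) = w ∧
      ∀ i : Fin n, c i.castSucc ≤ c i.succ ∧ d (c i.succ) = d (c i.castSucc) + f i} : ℤ) :=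
  path_main d n f w

end Mob

end Cfsg.Agent.Lib.Helper48.SV
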