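import Cfsg.Agent.Lib.Helper98.T73Defs
import Cfsg.Agent.Lib.Helper96.BGDecB

/-!
# Project T73 (S5973, helper98), piece SPLIT

For `g ^ r = 1` (`r` a prime different from the characteristic) a `g`-invariant subspace `W`
splits as `(W ⊓ ker (g - 1)) ⊕ (W ⊓ range (g - 1))`, and `ord_r(q)` divides the dimension of
the second summand.
-/

set_option autoImplicit false
set_option linter.unusedSectionVars false
set_option linter.unusedVariables false

namespace Cfsg.Agent.Lib.Helper98.T73

open Cfsg.Agent.Lib.Helper47 Module Polynomial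

universe u

variable {F : Type u} [Field F] [Fintype F] {V : Type u} [AddCommGroup V] [Module F V]
  [FiniteDimensional F V] {Q : V → F} {B : V → V → F}

/-- SPLIT -/
theorem split_inv (p : ℕ) [Fact p.Prime] [CharP F p] (r : ℕ) (hr : r.Prime) (hrp : r ≠ p)
    (g : Module.End F V) (hg : g ^ r = 1) (W : Submodule F V) (hW : W.map g ≤ W) :
    finrank F W = finrank F ↥(W ⊓ LinearMap.ker (g - 1))
        + finrank F ↥(W ⊓ LinearMap.range (g - 1)) ∧
      orderOf ((Fintype.card F : ℕ) : ZMod r) ∣ finrank F ↥(W ⊓ LinearMap.range (g - 1)) := by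
  classical
  have hrF : Fact r.Prime := ⟨hr⟩
  have hp : p.Prime := Fact.out
  have hr0 : (r : F) ≠ 0 := by
    intro h0
    have h1 : p ∣ r := (CharP.cast_eq_zero_iff F p r).mp h0
    exact hrp ((Nat.prime_dvd_prime_iff_eq hp hr).mp h1).symm
  have hrq : ¬ r ∣ Fintype.card F := by
    obtain ⟨k, hp', hk⟩ := FiniteField.card F p
    rw [hk]
    intro h1
    exact hrp ((Nat.prime_dvd_prime_iff_eq hr hp).mp (hr.dvd_of_dvd_pow h1))
  obtain ⟨-, -, -, hdisj, hRinv, -, hdvd, hsum, -⟩ :=
    Cfsg.Agent.Lib.Helper96.BG.pow_one_setup g r hrq hr0 hg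
  have hWg : ∀ x ∈ W, g x ∈ W := fun x hx => hW (Submodule.mem_map_of_mem hx)
  constructor
  · -- dimension count, through the restriction of `g` to `W`
    have hrn := LinearMap.finrank_range_add_finrank_ker (g.restrict hWg - 1)
    have hker : (LinearMap.ker (g.restrict hWg - 1)).map W.subtype =
        W ⊓ LinearMap.ker (g - 1) := by
      ext v
      constructor
      · rintro ⟨x, hx, rfl⟩
        have hx' : (g.restrict hWg - 1) x = 0 := hx
        have h1 := congrArg Subtype.val hx'
        have h2 : (g - 1) (x : V) = 0 := by simpa [LinearMap.sub_apply] using h1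
        exact ⟨x.2, h2⟩
      · rintro ⟨hvW, hvC⟩
        have hvC' : (g - 1) v = 0 := hvC
        refine ⟨⟨v, hvW⟩, ?_, rfl⟩
        show (g.restrict hWg - 1) ⟨v, hvW⟩ = 0
        apply Subtype.ext
        simpa [LinearMap.sub_apply] using hvC'
    have hrange : (LinearMap.range (g.restrict hWg - 1)).map W.subtype ≤
        W ⊓ LinearMap.range (g - 1) := by
      rintro _ ⟨_, ⟨x, rfl⟩, rfl⟩
      refine ⟨((g.restrict hWg - 1) x).2, (x : V), ?_⟩
      simp [LinearMap.sub_apply]
    have h1 : finrank F ↥(LinearMap.ker (g.restrict hWg - 1)) =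
        finrank F ↥(W ⊓ LinearMap.ker (g - 1)) := by
      rw [← hker, Submodule.finrank_map_subtype_eq]
    have h2 : finrank F ↥(LinearMap.range (g.restrict hWg - 1)) ≤
        finrank F ↥(W ⊓ LinearMap.range (g - 1)) := by
      rw [← Submodule.finrank_map_subtype_eq W (LinearMap.range (g.restrict hWg - 1))]
      exact Submodule.finrank_mono hrange
    have h3 := hsum (W ⊓ LinearMap.ker (g - 1)) (W ⊓ LinearMap.range (g - 1)) inf_le_right
      inf_le_right
    have h4 : finrank F ↥(W ⊓ LinearMap.ker (g - 1) ⊔ W ⊓ LinearMap.range (g - 1)) ≤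
        finrank F W := Submodule.finrank_mono (sup_le inf_le_left inf_le_left)
    omega
  · apply hdvd _ inf_le_right
    intro v hv
    obtain ⟨x, ⟨hxW, hxR⟩, rfl⟩ := hv
    exact ⟨hW (Submodule.mem_map_of_mem hxW), hRinv (Submodule.mem_map_of_mem hxR)⟩

end Cfsg.Agent.Lib.Helper98.T73
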