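import Mathlib

/-!
# TI families of subgroups in a 2-subgroup (helper39)

`ti_family_commute`: let `H` be a 2-subgroup of a finite group `G` and `Δ` a set of subgroups
of `H`, invariant under conjugation by `H`, all of the same order, each containing an element
whose square is not `1`, and pairwise equal or intersecting trivially. Then distinct members of
`Δ` commute elementwise. (Statement S1782 is the case `H = ⊤`.)
-/

set_option autoImplicit false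

namespace Cfsg.Agent.Lib.Helper39

variable {S : Type*} [Group S]

/-- The conjugate subgroup `s R s⁻¹`. -/
abbrev cj (s : S) (R : Subgroup S) : Subgroup S := R.map (MulAut.conj s).toMonoidHom

theorem mem_cj {s x : S} {R : Subgroup S} : x ∈ cj s R ↔ s⁻¹ * x * s ∈ R := by
  constructor
  · rintro ⟨y, hy, rfl⟩
    have : s⁻¹ * ((MulAut.conj s).toMonoidHom y) * s = y := by
      simp [MulAut.conj_apply, mul_assoc]
    rw [this]; exact hy
  · intro h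
    refine ⟨s⁻¹ * x * s, h, ?_⟩
    simp [MulAut.conj_apply, mul_assoc]

theorem cj_mem {s x : S} {R : Subgroup S} (hx : x ∈ R) : s * x * s⁻¹ ∈ cj s R := by
  rw [mem_cj]
  have : s⁻¹ * (s * x * s⁻¹) * s = x := by group
  rw [this]; exact hx

theorem card_cj (s : S) (R : Subgroup S) : Nat.card (cj s R) = Nat.card R :=
  Subgroup.card_map_of_injective (MulAut.conj s).injective

theorem cj_le {s : S} {R K : Subgroup S} (hs : s ∈ K) (hR : R ≤ K) : cj s R ≤ K := by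
  rintro _ ⟨y, hy, rfl⟩
  simpa [MulAut.conj_apply] using K.mul_mem (K.mul_mem hs (hR hy)) (K.inv_mem hs)

theorem cj_eq_of_forall [Finite S] {s : S} {R : Subgroup S} (h : ∀ x ∈ R, s * x * s⁻¹ ∈ R) :
    cj s R = R := by
  apply Subgroup.eq_of_le_of_card_ge
  · rintro _ ⟨y, hy, rfl⟩
    simpa [MulAut.conj_apply] using h y hy
  · rw [card_cj]

theorem forall_of_cj_eq {s : S} {R : Subgroup S} (h : cj s R = R) :
    ∀ x ∈ R, s * x * s⁻¹ ∈ R := by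
  intro x hx
  have := cj_mem (s := s) hx
  rwa [h] at this

theorem cj_mul (a b : S) (R : Subgroup S) : cj (a * b) R = cj a (cj b R) := by
  ext x
  simp only [mem_cj]
  have : (a * b)⁻¹ * x * (a * b) = b⁻¹ * (a⁻¹ * x * a) * b := by group
  rw [this]

theorem cj_one (R : Subgroup S) : cj 1 R = R := by
  ext x
  simp

theorem cj_mono {s : S} {R T : Subgroup S} (h : R ≤ T) : cj s R ≤ cj s T :=
  Subgroup.map_mono h

/-- Elements of a 2-subgroup have 2-power order. -/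
theorem pow_two_pow_eq_one {H : Subgroup S} (hH : IsPGroup 2 ↥H) {x : S} (hx : x ∈ H) :
    ∃ n : ℕ, x ^ 2 ^ n = 1 := by
  obtain ⟨n, hn⟩ := (isPGroup_iff_pow_pow_eq_one.mp hH) ⟨x, hx⟩
  exact ⟨n, by simpa using congrArg Subtype.val hn⟩

/-- A `2`-element normalizing a nontrivial `2`-subgroup centralizes a nontrivial element of it. -/
theorem exists_fixed [Finite S] (A : Subgroup S) (hA2 : IsPGroup 2 ↥A) (hA : A ≠ ⊥) (x : S)
    (hx2 : ∃ n : ℕ, x ^ 2 ^ n = 1)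
    (hx : ∀ a ∈ A, x * a * x⁻¹ ∈ A) : ∃ a ∈ A, a ≠ 1 ∧ x * a = a * x := by
  classical
  haveI : Fact (Nat.Prime 2) := ⟨Nat.prime_two⟩
  haveI := Fintype.ofFinite ↥A
  let f : Function.End ↥A := fun a => ⟨x * a * x⁻¹, hx a a.2⟩
  obtain ⟨n, hn⟩ := hx2
  have hpow : ∀ k : ℕ, ∀ a : ↥A, (((f ^ k) a : ↥A) : S) = x ^ k * a * (x ^ k)⁻¹ := by
    intro k
    induction k with
    | zero =>
      intro a
      show ((a : ↥A) : S) = x ^ 0 * a * (x ^ 0)⁻¹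
      rw [pow_zero]; group
    | succ k ih =>
      intro a
      have h1 : (f ^ (k + 1)) a = (f ^ k) (f a) := by rw [pow_succ]; rfl
      rw [h1, ih]
      show x ^ k * (x * a * x⁻¹) * (x ^ k)⁻¹ = _
      rw [pow_succ]; group
  have hf : f ^ 2 ^ n = 1 := by
    funext a
    apply Subtype.ext
    rw [hpow, hn]
    show 1 * ((a : ↥A) : S) * 1⁻¹ = a
    group
  have hmod := Equiv.Perm.card_fixedPoints_modEq (f := f) (p := 2) (n := n) hf
  have hdvd : 2 ∣ Fintype.card ↥A := by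
    rcases hA2.card_eq_or_dvd with h | h
    · exact absurd (Subgroup.eq_bot_of_card_eq A h) hA
    · rwa [Nat.card_eq_fintype_card] at h
  have hfix : 2 ∣ Fintype.card (Function.fixedPoints f) :=
    Nat.modEq_zero_iff_dvd.mp (hmod.symm.trans (Nat.modEq_zero_iff_dvd.mpr hdvd))
  have h1 : (1 : ↥A) ∈ Function.fixedPoints f := by
    show f 1 = 1
    apply Subtype.ext; simp [f]
  have hlt : 1 < Fintype.card (Function.fixedPoints f) := by
    have : 0 < Fintype.card (Function.fixedPoints f) := Fintype.card_pos_iff.mpr ⟨⟨1, h1⟩⟩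
    exact lt_of_lt_of_le (by norm_num) (Nat.le_of_dvd this hfix)
  have := Fintype.one_lt_card_iff_nontrivial.mp hlt
  obtain ⟨⟨b, hb⟩, hne⟩ := exists_ne (⟨1, h1⟩ : Function.fixedPoints f)
  refine ⟨b, b.2, ?_, ?_⟩
  · intro h; apply hne; apply Subtype.ext; apply Subtype.ext; exact h
  · have h2 : f b = b := hb
    have h3 : x * (b : S) * x⁻¹ = b := congrArg (fun y : ↥A => (y : S)) h2
    calc x * (b : S) = x * b * x⁻¹ * x := by group
      _ = b * x := by rw [h3]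

/-- A proper subgroup of a finite `2`-group `H` lies in a proper normal subgroup of `H`. -/
theorem exists_normal_proper [Finite S] (U H : Subgroup S) (hH : IsPGroup 2 ↥H) (hUH : U ≤ H)
    (hne : U ≠ H) :
    ∃ M : Subgroup S, U ≤ M ∧ M ≤ H ∧ M ≠ H ∧ ∀ h ∈ H, ∀ m ∈ M, h * m * h⁻¹ ∈ M := by
  haveI : Fact (Nat.Prime 2) := ⟨Nat.prime_two⟩
  have hU' : U.subgroupOf H ≠ ⊤ := by
    intro h
    exact hne (le_antisymm hUH (Subgroup.subgroupOf_eq_top.mp h))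
  haveI : Group.IsNilpotent ↥H := hH.isNilpotent
  obtain ⟨M', hM', hUM'⟩ := (eq_top_or_exists_le_coatom (U.subgroupOf H)).resolve_left hU'
  have hnorm : M'.Normal :=
    Subgroup.NormalizerCondition.normal_of_coatom _ Group.normalizerCondition_of_isNilpotent hM'
  refine ⟨M'.map H.subtype, ?_, ?_, ?_, ?_⟩
  · intro u hu
    exact ⟨⟨u, hUH hu⟩, hUM' (Subgroup.mem_subgroupOf.mpr hu), rfl⟩
  · exact Subgroup.map_subtype_le M'
  · intro h
    apply hM'.1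
    rw [eq_top_iff]
    intro y _
    have hy : (y : S) ∈ M'.map H.subtype := by rw [h]; exact y.2
    obtain ⟨m, hm, hmy⟩ := hy
    have : m = y := Subtype.ext hmy
    rw [← this]; exact hm
  · rintro h hh _ ⟨m, hm, rfl⟩
    exact ⟨⟨h, hh⟩ * m * ⟨h, hh⟩⁻¹, hnorm.conj_mem m hm ⟨h, hh⟩, rfl⟩

/-- Counting lemma: if `R` normalizes `T`, `|R| = |T|`, and `R` commutes with and meets trivially
its conjugate by `v ∈ T`, then `v` normalizes `R`. -/
theorem normalizes_of_counting [Finite S] (R T : Subgroup S) (hcard : Nat.card R = Nat.card T)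
    (v : S) (hv : v ∈ T) (hRT : ∀ r ∈ R, ∀ t ∈ T, r * t * r⁻¹ ∈ T)
    (hcomm : ∀ a ∈ R, ∀ b ∈ cj v R, a * b = b * a) (hint : R ⊓ cj v R = ⊥) :
    ∀ x ∈ R, v * x * v⁻¹ ∈ R := by
  let f : ↥R → ↥T := fun r => ⟨r * v * (r : S)⁻¹ * v⁻¹, T.mul_mem (hRT r r.2 v hv) (T.inv_mem hv)⟩
  have hinj : Function.Injective f := by
    intro r s hrs
    have h1 : (r : S) * v * (r : S)⁻¹ * v⁻¹ = s * v * (s : S)⁻¹ * v⁻¹ :=
      congrArg (fun y : ↥T => (y : S)) hrs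
    have h1' : (r : S) * v * (r : S)⁻¹ = s * v * (s : S)⁻¹ := mul_right_cancel h1
    have h2 : (s : S)⁻¹ * r = v * ((s : S)⁻¹ * r) * v⁻¹ := by
      calc (s : S)⁻¹ * r = (s : S)⁻¹ * (r * v * (r : S)⁻¹) * r * v⁻¹ := by group
        _ = (s : S)⁻¹ * (s * v * (s : S)⁻¹) * r * v⁻¹ := by rw [h1']
        _ = v * ((s : S)⁻¹ * r) * v⁻¹ := by group
    have h3 : (s : S)⁻¹ * r ∈ R ⊓ cj v R := by
      refine Subgroup.mem_inf.mpr ⟨R.mul_mem (R.inv_mem s.2) r.2, ?_⟩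
      rw [h2]; exact cj_mem (R.mul_mem (R.inv_mem s.2) r.2)
    rw [hint, Subgroup.mem_bot] at h3
    apply Subtype.ext
    exact (inv_mul_eq_one.mp h3).symm
  have hbij : Function.Bijective f := (Nat.bijective_iff_injective_and_card f).mpr ⟨hinj, hcard⟩
  obtain ⟨r, hr⟩ := hbij.2 ⟨v, hv⟩
  have hr' : (r : S) * v * (r : S)⁻¹ * v⁻¹ = v := congrArg (fun y : ↥T => (y : S)) hr
  intro x hx
  have hb : v * (r : S)⁻¹ * v⁻¹ ∈ cj v R := cj_mem (R.inv_mem r.2)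
  have hc := hcomm x hx _ hb
  have hv' : v = r * (v * (r : S)⁻¹ * v⁻¹) := by
    rw [← mul_assoc, ← mul_assoc]; exact hr'.symm
  have : v * x * v⁻¹ = r * x * (r : S)⁻¹ := by
    calc v * x * v⁻¹
        = (r * (v * (r : S)⁻¹ * v⁻¹)) * x * (r * (v * (r : S)⁻¹ * v⁻¹))⁻¹ := by rw [← hv']
      _ = r * ((v * (r : S)⁻¹ * v⁻¹) * x) * (v * (r : S)⁻¹ * v⁻¹)⁻¹ * (r : S)⁻¹ := by group
      _ = r * (x * (v * (r : S)⁻¹ * v⁻¹)) * (v * (r : S)⁻¹ * v⁻¹)⁻¹ * (r : S)⁻¹ := by rw [hc]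
      _ = r * x * (r : S)⁻¹ := by group
  rw [this]; exact R.mul_mem (R.mul_mem r.2 hx) (R.inv_mem r.2)

/-- If the square `u * u ≠ 1` of an element of `T` normalizes `R`, then `R` normalizes `T`. -/
theorem normalizes_of_sq [Finite S] (R T : Subgroup S) (hR2 : IsPGroup 2 ↥R)
    (hTI : ∀ g ∈ R, (∃ y ∈ T, y ≠ 1 ∧ g * y = y * g) → ∀ t ∈ T, g * t * g⁻¹ ∈ T)
    (v : S) (hv : v ∈ T)
    (hcomm : ∀ a ∈ R, ∀ b ∈ cj v R, a * b = b * a) (hint : R ⊓ cj v R = ⊥)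
    (hR : R ≠ ⊥)
    (u : S) (hu : u ∈ T) (hu2 : u * u ≠ 1) (hupow : ∃ n : ℕ, (u * u) ^ 2 ^ n = 1)
    (hnorm : cj (u * u) R = R) :
    ∀ r ∈ R, ∀ t ∈ T, r * t * r⁻¹ ∈ T := by
  have hZ : R ⊓ Subgroup.centralizer (R : Set S) ≠ ⊥ := by
    haveI : Nontrivial ↥R := (Subgroup.nontrivial_iff_ne_bot R).mpr hR
    haveI : Fact (Nat.Prime 2) := ⟨Nat.prime_two⟩
    have := hR2.center_nontrivial
    obtain ⟨z, hz⟩ := exists_ne (1 : Subgroup.center ↥R)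
    intro hbot
    apply hz
    have hmem : ((z : ↥R) : S) ∈ R ⊓ Subgroup.centralizer (R : Set S) := by
      refine Subgroup.mem_inf.mpr ⟨(z : ↥R).2, ?_⟩
      rw [Subgroup.mem_centralizer_iff]
      intro h hh
      have := Subgroup.mem_center_iff.mp z.2 ⟨h, hh⟩
      exact congrArg (fun y : ↥R => (y : S)) this
    rw [hbot, Subgroup.mem_bot] at hmem
    apply Subtype.ext; apply Subtype.ext; exact hmem
  have hxZ : ∀ a ∈ R ⊓ Subgroup.centralizer (R : Set S),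
      (u * u) * a * (u * u)⁻¹ ∈ R ⊓ Subgroup.centralizer (R : Set S) := by
    intro a ha
    obtain ⟨haR, haC⟩ := Subgroup.mem_inf.mp ha
    refine Subgroup.mem_inf.mpr ⟨forall_of_cj_eq hnorm a haR, ?_⟩
    rw [Subgroup.mem_centralizer_iff]
    intro h hh
    have hh' : (u * u)⁻¹ * h * (u * u) ∈ R := by
      have : h ∈ cj (u * u) R := by rw [hnorm]; exact hh
      exact mem_cj.mp this
    have hc := Subgroup.mem_centralizer_iff.mp haC _ hh'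
    calc h * ((u * u) * a * (u * u)⁻¹)
        = (u * u) * (((u * u)⁻¹ * h * (u * u)) * a) * (u * u)⁻¹ := by group
      _ = (u * u) * (a * ((u * u)⁻¹ * h * (u * u))) * (u * u)⁻¹ := by rw [hc]
      _ = (u * u) * a * (u * u)⁻¹ * h := by group
  obtain ⟨r₀, hr₀Z, hr₀1, hr₀x⟩ :=
    exists_fixed _ (hR2.to_le inf_le_left) hZ (u * u) hupow hxZ
  obtain ⟨hr₀R, hr₀C⟩ := Subgroup.mem_inf.mp hr₀Z
  have hr₀T : ∀ t ∈ T, r₀ * t * r₀⁻¹ ∈ T :=
    hTI r₀ hr₀R ⟨u * u, T.mul_mem hu hu, hu2, hr₀x.symm⟩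
  have hyT : r₀ * v * r₀⁻¹ * v⁻¹ ∈ T := T.mul_mem (hr₀T v hv) (T.inv_mem hv)
  have hy1 : r₀ * v * r₀⁻¹ * v⁻¹ ≠ 1 := by
    intro h
    apply hr₀1
    have h2 : r₀ = v * r₀ * v⁻¹ := by
      calc r₀ = (r₀ * v * r₀⁻¹ * v⁻¹)⁻¹ * r₀ := by rw [h]; group
        _ = v * r₀ * v⁻¹ := by group
    have : r₀ ∈ R ⊓ cj v R := by
      refine Subgroup.mem_inf.mpr ⟨hr₀R, ?_⟩
      rw [h2]; exact cj_mem hr₀R
    rw [hint, Subgroup.mem_bot] at this
    exact this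
  intro r hr
  apply hTI r hr
  refine ⟨r₀ * v * r₀⁻¹ * v⁻¹, hyT, hy1, ?_⟩
  have h1 : r * r₀ = r₀ * r := Subgroup.mem_centralizer_iff.mp hr₀C r hr
  have h2 : r * (v * r₀⁻¹ * v⁻¹) = (v * r₀⁻¹ * v⁻¹) * r :=
    hcomm r hr _ (cj_mem (R.inv_mem hr₀R))
  calc r * (r₀ * v * r₀⁻¹ * v⁻¹) = (r * r₀) * (v * r₀⁻¹ * v⁻¹) := by group
    _ = r₀ * (r * (v * r₀⁻¹ * v⁻¹)) := by rw [h1]; group
    _ = r₀ * ((v * r₀⁻¹ * v⁻¹) * r) := by rw [h2]
    _ = r₀ * v * r₀⁻¹ * v⁻¹ * r := by group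

/-- The final computation. -/
theorem sq_eq_one_of (R : Subgroup S) (v r : S) (hr : r ∈ R) (hv2 : v * v = 1)
    (hcomm : ∀ a ∈ R, ∀ b ∈ cj v R, a * b = b * a) (hint : R ⊓ cj v R = ⊥)
    (hvr : v * (r * v * r⁻¹) = (r * v * r⁻¹) * v) : r * r = 1 := by
  have hvinv : v⁻¹ = v := inv_eq_of_mul_eq_one_left hv2
  have hab : (v * r * v⁻¹) * r = r * (v * r * v⁻¹) := (hcomm r hr _ (cj_mem hr)).symm
  have hb : (v * r * v⁻¹) * r⁻¹ = r * (v * r * v⁻¹)⁻¹ := by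
    calc (v * r * v⁻¹) * r⁻¹ = v * (r * v * r⁻¹) := by rw [hvinv]; group
      _ = (r * v * r⁻¹) * v := hvr
      _ = r * (v * r⁻¹ * v⁻¹) := by rw [hvinv]; group
      _ = r * (v * r * v⁻¹)⁻¹ := by group
  have h1 : (v * r * v⁻¹) * (v * r * v⁻¹) = r * r := by
    calc (v * r * v⁻¹) * (v * r * v⁻¹)
        = (v * r * v⁻¹) * ((v * r * v⁻¹) * r⁻¹) * r := by group
      _ = (v * r * v⁻¹) * (r * (v * r * v⁻¹)⁻¹) * r := by rw [hb]
      _ = ((v * r * v⁻¹) * r) * (v * r * v⁻¹)⁻¹ * r := by group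
      _ = (r * (v * r * v⁻¹)) * (v * r * v⁻¹)⁻¹ * r := by rw [hab]
      _ = r * r := by group
  have : r * r ∈ R ⊓ cj v R := by
    refine Subgroup.mem_inf.mpr ⟨R.mul_mem hr hr, ?_⟩
    rw [← h1]; exact (cj v R).mul_mem (cj_mem hr) (cj_mem hr)
  rw [hint, Subgroup.mem_bot] at this
  exact this

/-- An element of order four from a 2-element that is not an involution. -/
theorem exists_order_four (T : Subgroup S) (u₀ : S) (hu₀ : u₀ ∈ T)
    (hex : ∃ k, u₀ ^ 2 ^ k = 1)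
    (hu₀2 : u₀ * u₀ ≠ 1) : ∃ u ∈ T, u * u ≠ 1 ∧ (u * u) * (u * u) = 1 := by
  classical
  obtain ⟨m, hm, hmin⟩ : ∃ m, u₀ ^ 2 ^ m = 1 ∧ ∀ j < m, u₀ ^ 2 ^ j ≠ 1 :=
    ⟨Nat.find hex, Nat.find_spec hex, fun j hj => Nat.find_min hex hj⟩
  match m, hm, hmin with
  | 0, hm, _ =>
    exfalso; apply hu₀2
    have : u₀ = 1 := by simpa using hm
    rw [this, mul_one]
  | 1, hm, _ =>
    exfalso; apply hu₀2
    have : u₀ ^ 2 = 1 := by simpa using hm
    rwa [pow_two] at this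
  | (m' + 2), hm, hmin =>
    refine ⟨u₀ ^ 2 ^ m', T.pow_mem hu₀ _, ?_, ?_⟩
    · have h1 : u₀ ^ 2 ^ m' * u₀ ^ 2 ^ m' = u₀ ^ 2 ^ (m' + 1) := by
        rw [← pow_add]; congr 1; ring
      rw [h1]; exact hmin (m' + 1) (by omega)
    · have h1 : (u₀ ^ 2 ^ m' * u₀ ^ 2 ^ m') * (u₀ ^ 2 ^ m' * u₀ ^ 2 ^ m') = u₀ ^ 2 ^ (m' + 2) := by
        rw [← pow_add, ← pow_add]; congr 1; ring
      rw [h1]; exact hm

/-- The inductive statement, relative to a 2-subgroup `H` of the finite ambient group. -/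
theorem ti_family_commute_aux [Finite S] :
    ∀ n : ℕ, ∀ H : Subgroup S, Nat.card H = n → IsPGroup 2 ↥H → ∀ Δ : Set (Subgroup S),
      (∀ R ∈ Δ, R ≤ H) → (∀ h ∈ H, ∀ R ∈ Δ, cj h R ∈ Δ) →
      (∀ R ∈ Δ, ∃ r ∈ R, r * r ≠ 1) → (∀ R ∈ Δ, ∀ T ∈ Δ, Nat.card R = Nat.card T) →
      (∀ R ∈ Δ, ∀ T ∈ Δ, R = T ∨ R ⊓ T = ⊥) →
      ∀ R ∈ Δ, ∀ T ∈ Δ, R ≠ T → ∀ r ∈ R, ∀ t ∈ T, r * t = t * r := by
  intro n
  induction n using Nat.strong_induction_on with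
  | _ n ih =>
  intro H hHn hH2 Δ hle hinv hsq hcard hti
  by_contra hcon
  push Not at hcon
  have step0 : ∀ K : Subgroup S, K ≤ H → K ≠ H → ∀ U ∈ Δ, ∀ V ∈ Δ, U ≤ K → V ≤ K → U ≠ V →
      ∀ a ∈ U, ∀ b ∈ V, a * b = b * a := by
    intro K hKH hKne U hU V hV hUK hVK hUV
    have hlt : Nat.card K < n := by
      rw [← hHn]
      exact lt_of_le_of_ne (Subgroup.card_le_of_le hKH)
        (fun h => hKne (Subgroup.eq_of_le_of_card_ge hKH (le_of_eq h.symm)))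
    exact ih (Nat.card K) hlt K rfl (hH2.to_le hKH) {U ∈ Δ | U ≤ K} (fun R hR => hR.2)
      (fun h hh R hR => ⟨hinv h (hKH hh) R hR.1, cj_le hh hR.2⟩)
      (fun R hR => hsq R hR.1) (fun R hR T hT => hcard R hR.1 T hT.1)
      (fun R hR T hT => hti R hR.1 T hT.1) U ⟨hU, hUK⟩ V ⟨hV, hVK⟩ hUV
  have hne_bot : ∀ R ∈ Δ, R ≠ ⊥ := by
    intro R hR hbot
    obtain ⟨r, hr, hr2⟩ := hsq R hR
    rw [hbot, Subgroup.mem_bot] at hr
    exact hr2 (by rw [hr, mul_one])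
  have neH : ∀ R ∈ Δ, ∀ T ∈ Δ, R ≠ T → R ≠ H := by
    intro R hR T hT hRT hRH
    rcases hti R hR T hT with h | h
    · exact hRT h
    · apply hne_bot T hT
      rw [eq_bot_iff, ← h]
      exact le_inf (hRH ▸ hle T hT) le_rfl
  have step2 : ∀ U ∈ Δ, U ≠ H → ∀ h ∈ H, cj h U ≠ U →
      ∀ a ∈ U, ∀ b ∈ cj h U, a * b = b * a := by
    intro U hU hUH h hh hne a ha b hb
    obtain ⟨M, hUM, hMH, hMne, hMn⟩ := exists_normal_proper U H hH2 (hle U hU) hUH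
    have hcjM : cj h U ≤ M := by
      rintro _ ⟨y, hy, rfl⟩
      simpa [MulAut.conj_apply] using hMn h hh y (hUM hy)
    exact step0 M hMH hMne U hU (cj h U) (hinv h hh U hU) hUM hcjM (Ne.symm hne) a ha b hb
  have hint : ∀ U ∈ Δ, ∀ h ∈ H, cj h U ≠ U → U ⊓ cj h U = ⊥ := by
    intro U hU h hh hne
    rcases hti U hU (cj h U) (hinv h hh U hU) with h1 | h1
    · exact absurd h1.symm hne
    · exact h1
  have hTI : ∀ R ∈ Δ, ∀ T ∈ Δ, ∀ g ∈ R, (∃ y ∈ T, y ≠ 1 ∧ g * y = y * g) →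
      ∀ t ∈ T, g * t * g⁻¹ ∈ T := by
    rintro R hR T hT g hg ⟨y, hy, hy1, hgy⟩
    have hgH : g ∈ H := hle R hR hg
    have : cj g T = T := by
      rcases hti (cj g T) (hinv g hgH T hT) T hT with h1 | h1
      · exact h1
      · exfalso; apply hy1
        have hmem : y ∈ cj g T ⊓ T := by
          refine Subgroup.mem_inf.mpr ⟨?_, hy⟩
          have : y = g * y * g⁻¹ := by rw [hgy]; group
          rw [this]; exact cj_mem hy
        rw [h1, Subgroup.mem_bot] at hmem; exact hmem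
    exact forall_of_cj_eq this
  have step3 : ∀ R ∈ Δ, ∀ T ∈ Δ, R ≠ T → (∃ r ∈ R, ∃ t ∈ T, r * t ≠ t * r) →
      ¬ (∀ r ∈ R, ∀ t ∈ T, r * t * r⁻¹ ∈ T) := by
    rintro R hR T hT hRT ⟨r, hr, t, ht, hrt⟩ hnorm
    have hTR : ∀ t ∈ T, ∀ x ∈ R, t * x * t⁻¹ ∈ R := by
      intro v hv
      by_cases hvR : cj v R = R
      · exact forall_of_cj_eq hvR
      · have hvH : v ∈ H := hle T hT hv
        exact normalizes_of_counting R T (hcard R hR T hT) v hv hnorm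
          (step2 R hR (neH R hR T hT hRT) v hvH hvR) (hint R hR v hvH hvR)
    apply hrt
    have hmem : r * t * r⁻¹ * t⁻¹ ∈ R ⊓ T := by
      refine Subgroup.mem_inf.mpr ⟨?_, T.mul_mem (hnorm r hr t ht) (T.inv_mem ht)⟩
      have : r * t * r⁻¹ * t⁻¹ = r * (t * r⁻¹ * t⁻¹) := by group
      rw [this]; exact R.mul_mem hr (hTR t ht _ (R.inv_mem hr))
    rcases hti R hR T hT with h | h
    · exact absurd h hRT
    · rw [h, Subgroup.mem_bot] at hmem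
      calc r * t = (r * t * r⁻¹ * t⁻¹) * (t * r) := by group
        _ = t * r := by rw [hmem, one_mul]
  have step4 : ∀ R ∈ Δ, ∀ T ∈ Δ, R ≠ T → (∃ r ∈ R, ∃ t ∈ T, r * t ≠ t * r) →
      ∀ u ∈ T, u * u ≠ 1 → cj (u * u) R ≠ R := by
    intro R hR T hT hRT hnc u hu hu2 hnorm
    have hnc' : ∃ t ∈ T, ∃ r ∈ R, t * r ≠ r * t := by
      obtain ⟨r, hr, t, ht, hrt⟩ := hnc
      exact ⟨t, ht, r, hr, fun h => hrt h.symm⟩
    have h3 := step3 T hT R hR (Ne.symm hRT) hnc'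
    push Not at h3
    obtain ⟨v, hv, x, hx, hvx⟩ := h3
    have hvR : cj v R ≠ R := fun h => hvx (forall_of_cj_eq h x hx)
    have hvH : v ∈ H := hle T hT hv
    exact step3 R hR T hT hRT hnc (normalizes_of_sq R T (hH2.to_le (hle R hR))
      (hTI R hR T hT) v hv
      (step2 R hR (neH R hR T hT hRT) v hvH hvR) (hint R hR v hvH hvR) (hne_bot R hR)
      u hu hu2 (pow_two_pow_eq_one hH2 (hle T hT (T.mul_mem hu hu))) hnorm)
  obtain ⟨R, hR, T, hT, hRT, hnc⟩ := hcon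
  have hnc' : ∃ t ∈ T, ∃ r ∈ R, t * r ≠ r * t := by
    obtain ⟨r, hr, t, ht, hrt⟩ := hnc
    exact ⟨t, ht, r, hr, fun h => hrt h.symm⟩
  have hnc'' : ∃ r ∈ R, ∃ t ∈ T, r * t ≠ t * r := hnc
  obtain ⟨u₀, hu₀, hu₀2⟩ := hsq T hT
  obtain ⟨u, hu, hu2, hu4⟩ :=
    exists_order_four T u₀ hu₀ (pow_two_pow_eq_one hH2 (hle T hT hu₀)) hu₀2
  obtain ⟨r, hr, hr2⟩ := hsq R hR
  have hvR : cj (u * u) R ≠ R := step4 R hR T hT hRT hnc'' u hu hu2
  have hrT2 : cj (r * r) T ≠ T := step4 T hT R hR (Ne.symm hRT) hnc' r hr hr2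
  have hrT : cj r T ≠ T := by
    intro h
    apply hrT2
    rw [cj_mul, h, h]
  have hvH : u * u ∈ H := hle T hT (T.mul_mem hu hu)
  have hrH : r ∈ H := hle R hR hr
  have hcommT := step2 T hT (neH T hT R hR (Ne.symm hRT)) r hrH hrT (u * u) (T.mul_mem hu hu)
    (r * (u * u) * r⁻¹) (cj_mem (T.mul_mem hu hu))
  exact hr2 (sq_eq_one_of R (u * u) r hr hu4 (step2 R hR (neH R hR T hT hRT) (u * u) hvH hvR)
    (hint R hR (u * u) hvH hvR) hcommT)

/-- **TI families in a 2-subgroup commute.** Let `H` be a 2-subgroup of a finite group and `Δ` a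
set of subgroups of `H`, invariant under conjugation by `H`, all of the same order, each
containing an element whose square is not `1`, and pairwise equal or intersecting trivially.
Then distinct members of `Δ` commute elementwise. -/
theorem ti_family_commute [Finite S] (H : Subgroup S) (hH : IsPGroup 2 ↥H) (Δ : Set (Subgroup S))
    (hle : ∀ R ∈ Δ, R ≤ H) (hinv : ∀ h ∈ H, ∀ R ∈ Δ, cj h R ∈ Δ)
    (hsq : ∀ R ∈ Δ, ∃ r ∈ R, r * r ≠ 1) (hcard : ∀ R ∈ Δ, ∀ T ∈ Δ, Nat.card R = Nat.card T)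
    (hti : ∀ R ∈ Δ, ∀ T ∈ Δ, R = T ∨ R ⊓ T = ⊥) :
    ∀ R ∈ Δ, ∀ T ∈ Δ, R ≠ T → ∀ r ∈ R, ∀ t ∈ T, r * t = t * r :=
  ti_family_commute_aux (Nat.card H) H rfl hH Δ hle hinv hsq hcard hti

end Cfsg.Agent.Lib.Helper39
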