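import Cfsg.Agent.Lib.Helper22.W2Defs

/-! Project W2 (S4707, helper22), piece FCPI: the Fourier coefficients of a function vanishing
on the non-trivial powers of `z`. -/

set_option autoImplicit false

namespace Cfsg.Agent.Lib.Helper39.W2

open Cfsg Cfsg.Agent.Lib.Helper22.W2
open scoped ComplexConjugate

universe u

variable {G : Type u} [Group G] [Fintype G]

/-- PIECE FCPI -/
theorem fc_pi (p : ℕ) [Fact p.Prime] (w : ℂ) (z : G) (π : G → ℂ)
    (h0 : ∀ t : ZMod p, t ≠ 0 → π (z ^ t.val) = 0) (h1 : π 1 = 2 * (p : ℂ)) (u : ZMod p) :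
    fc p w z π u = 2 := by
  unfold fc
  rw [Finset.sum_eq_single (0 : ZMod p)]
  · have hp : (p : ℂ) ≠ 0 := Nat.cast_ne_zero.mpr (Fact.out : p.Prime).ne_zero
    simp only [mul_zero, ZMod.val_zero, pow_zero, map_one, one_mul, h1]
    rw [mul_comm 2 (p : ℂ), ← mul_assoc, inv_mul_cancel₀ hp, one_mul]
  · intro t _ ht
    rw [h0 t ht, mul_zero]
  · intro h
    exact absurd (Finset.mem_univ _) h

end Cfsg.Agent.Lib.Helper39.W2
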